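import Cfsg.Agent.R24.Defs2

set_option autoImplicit false

namespace Cfsg.Agent.R24

open Subgroup Cfsg.Agent.H14

variable {G : Type*} [Group G] [Finite G]

namespace AlpAux

theorem card_lt {X Y : Subgroup G} (h : X < Y) : Nat.card X < Nat.card Y := by
  by_contra hc
  exact h.ne (eq_of_le_of_card_ge h.le (not_lt.1 hc))

omit [Finite G] in
theorem isP_zpowers {P : Subgroup G} {x : G} (hP : IsPGroup 2 P) (hx : x * x ∈ P) :
    IsPGroup 2 (zpowers x) := by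
  obtain ⟨n, hn⟩ := hP ⟨_, hx⟩
  have h1 : x ^ 2 ^ (n + 1) = 1 := by
    have := congrArg Subtype.val hn
    simp only [SubmonoidClass.coe_pow, OneMemClass.coe_one] at this
    rw [pow_succ', pow_mul, pow_two, this]
  rintro ⟨_, m, rfl⟩
  refine ⟨n + 1, Subtype.ext ?_⟩
  simp only [SubmonoidClass.coe_pow, OneMemClass.coe_one]
  rw [← zpow_natCast, ← zpow_mul, mul_comm, zpow_mul, zpow_natCast, h1, one_zpow]

/-- the final step -/
theorem fin {H T A P : Subgroup G} (hT : H42.SylIn 2 T H) (hn : T ≤ normalizer (A : Set G))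
    (hP : P ≤ T) (hS : H42.SylIn 2 (T ⊓ normalizer (P : Set G)) (H ⊓ normalizer (P : Set G)))
    (hmax : ∀ (D : Subgroup G) (g : G), D ≤ T → g ∈ H → (∀ d ∈ D, g * d * g⁻¹ ∈ T) →
      Nat.card P < Nat.card D → ∀ d ∈ D, d ∈ A ↔ g * d * g⁻¹ ∈ A)
    {k : G} (hk : k ∈ H ⊓ normalizer (P : Set G)) (hbad : ¬ ∀ d ∈ P, d ∈ A ↔ k * d * k⁻¹ ∈ A) :
    Ess H T P (H ⊓ normalizer (P : Set G) ⊓ normalizer ((A ⊓ P : Subgroup G) : Set G)) := by
  have hTB : T ⊓ normalizer (P : Set G) ≤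
      H ⊓ normalizer (P : Set G) ⊓ normalizer ((A ⊓ P : Subgroup G) : Set G) :=
    le_inf (inf_le_inf_right _ hT.le) (H70.norm_inf (inf_le_left.trans hn) inf_le_right)
  have hP2 : IsPGroup 2 P := hT.isP.to_le hP
  refine ⟨hT.le, hT.isP, hP, inf_le_left, hTB, ?_, ⟨k, hk, fun hB => hbad fun d hd => ?_⟩, ?_⟩
  · refine le_inf (inf_le_inf_left _ (H70.norm_of_cent le_rfl)) ?_
    exact H70.norm_of_cent (inf_le_right.trans (H70.cent_anti inf_le_right))
  · have h1 : k ∈ normalizer ((A ⊓ P : Subgroup G) : Set G) := (mem_inf.1 hB).2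
    have h2 : k * d * k⁻¹ ∈ P := H70.conj_mem_of_mem_norm (mem_inf.1 hk).2 hd
    constructor
    · intro ha
      exact (mem_inf.1 (H70.conj_mem_of_mem_norm h1 (mem_inf.2 ⟨ha, hd⟩))).1
    · intro ha
      have := H70.conj_mem_of_mem_norm' h1 (mem_inf.2 ⟨ha, h2⟩)
      have e : k⁻¹ * (k * d * k⁻¹) * k = d := by group
      rw [e] at this
      exact (mem_inf.1 this).1
  · intro x hx hxP hxx g hg hgx
    set B := H ⊓ normalizer (P : Set G) ⊓ normalizer ((A ⊓ P : Subgroup G) : Set G) with hBdef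
    have hBL : B ≤ H ⊓ normalizer (P : Set G) := inf_le_left
    have hPB : P ≤ B := (le_inf hP le_normalizer).trans hTB
    have hSB : H42.SylIn 2 (T ⊓ normalizer (P : Set G)) B := hS.of_le hTB hBL
    have hxN : zpowers x ≤ normalizer (P : Set G) := by
      rw [zpowers_le]; exact (mem_inf.1 (hBL hx)).2
    have h1 : IsPGroup 2 (P ⊔ zpowers x : Subgroup G) :=
      IsPGroup.to_sup_of_normal_left' hP2 (isP_zpowers hP2 hxx) hxN
    have h1B : P ⊔ zpowers x ≤ B := sup_le hPB (by rw [zpowers_le]; exact hx)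
    have h2B : H42.cj g (P ⊔ zpowers x) ≤ B := by
      rw [H42.cj_sup, H42.cj_eq_iff_mem_normalizer.2 (mem_inf.1 hg).2]
      refine sup_le hPB ?_
      rw [H42.cj_le_iff]
      rintro _ ⟨m, rfl⟩
      have e : g * x ^ m * g⁻¹ = (g * x * g⁻¹) ^ m := by rw [conj_zpow]
      simp only
      rw [e]
      exact zpow_mem hgx m
    obtain ⟨b, hb, hb1⟩ := hSB.exists_conj h1 h1B
    obtain ⟨c, hc, hc1⟩ := hSB.exists_conj (H42.isPGroup_cj g h1) h2B
    have hf : c * g * b⁻¹ ∈ H ⊓ normalizer (P : Set G) :=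
      mul_mem (mul_mem (hBL hc) hg) (inv_mem (hBL hb))
    have hlt : P < P ⊔ zpowers x :=
      lt_of_le_of_ne le_sup_left fun e => hxP (e.ge (mem_sup_right (mem_zpowers x)))
    have hgood := hmax (H42.cj b (P ⊔ zpowers x)) (c * g * b⁻¹)
      (H42.cj_le_iff.2 fun r hr => (mem_inf.1 (hb1 r hr)).1) (mem_inf.1 hf).1
      (fun d hd => by
        have h3 := hc1 _ (H42.conj_mem_cj (g := g) (H42.mem_cj.1 hd))
        have e : c * g * b⁻¹ * d * (c * g * b⁻¹)⁻¹ = c * (g * (b⁻¹ * d * b) * g⁻¹) * c⁻¹ := by group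
        rw [e]
        exact (mem_inf.1 h3).1)
      (by rw [H42.card_cj]; exact card_lt hlt)
    have hfB : c * g * b⁻¹ ∈ B := by
      refine mem_inf.2 ⟨hf, H42.mem_normalizer_of_conj_mem fun d hd => ?_⟩
      have hdP := (mem_inf.1 hd).2
      refine mem_inf.2 ⟨(hgood d ?_).1 (mem_inf.1 hd).1, H70.conj_mem_of_mem_norm (mem_inf.1 hf).2 hdP⟩
      exact H42.mem_cj.2 (mem_sup_left (H70.conj_mem_of_mem_norm' (mem_inf.1 (hBL hb)).2 hdP))
    have e : g = c⁻¹ * (c * g * b⁻¹) * b := by group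
    rw [e]
    exact mul_mem (mul_mem (inv_mem hc) hfB) hb

end AlpAux

/-- notes/R24.md, section Alp -/
theorem alp {H T A : Subgroup G} (hT : H42.SylIn 2 T H) (hn : T ≤ normalizer (A : Set G))
    (hs : ∃ g ∈ H, ∃ x ∈ A, x ∈ T ∧ g * x * g⁻¹ ∈ T ∧ g * x * g⁻¹ ∉ A) :
    ∃ P, Ess H T P (H ⊓ normalizer (P : Set G) ⊓ normalizer ((A ⊓ P : Subgroup G) : Set G)) := by
  haveI : Fact (Nat.Prime 2) := ⟨Nat.prime_two⟩
  obtain ⟨D, ⟨g, hD, hg, hgD, hbad⟩, hm⟩ := Set.exists_max_image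
    {D : Subgroup G | ∃ g, D ≤ T ∧ g ∈ H ∧ (∀ d ∈ D, g * d * g⁻¹ ∈ T) ∧
      ¬ ∀ d ∈ D, d ∈ A ↔ g * d * g⁻¹ ∈ A} (fun D => Nat.card D) (Set.toFinite _) (by
      obtain ⟨g, hg, x, hxA, hxT, h1, h2⟩ := hs
      refine ⟨zpowers x, g, by rw [zpowers_le]; exact hxT, hg, ?_,
        fun h => h2 ((h x (mem_zpowers x)).1 hxA)⟩
      rintro _ ⟨m, rfl⟩
      have e : g * x ^ m * g⁻¹ = (g * x * g⁻¹) ^ m := by rw [conj_zpow]
      simp only
      rw [e]
      exact zpow_mem h1 m)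
  have hmax : ∀ (E : Subgroup G) (g : G), E ≤ T → g ∈ H → (∀ d ∈ E, g * d * g⁻¹ ∈ T) →
      Nat.card D < Nat.card E → ∀ d ∈ E, d ∈ A ↔ g * d * g⁻¹ ∈ A := by
    intro E f h1 h2 h3 h4
    by_contra h5
    exact absurd (hm E ⟨f, h1, h2, h3, h5⟩) (not_le.2 h4)
  rcases hD.eq_or_lt with rfl | hlt
  · refine ⟨D, AlpAux.fin hT hn le_rfl ?_ hmax (k := g)
      (mem_inf.2 ⟨hg, H42.mem_normalizer_of_conj_mem hgD⟩) hbad⟩
    rw [inf_eq_left.2 le_normalizer]
    exact hT.of_le (le_inf hT.le le_normalizer) inf_le_left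
  · have hl1 := H42.lt_inf_normalizer hT.isP hlt
    obtain ⟨S, hS, hNS⟩ := H42.exists_sylIn (p := 2) (R := T ⊓ normalizer (D : Set G))
      (H := H ⊓ normalizer (D : Set G)) (hT.isP.to_le inf_le_left) (inf_le_inf_right _ hT.le)
    obtain ⟨h, hh, hhS⟩ := hT.exists_conj hS.isP (hS.le.trans inf_le_left)
    have hPT : H42.cj h D ≤ T := H42.cj_le_iff.2 fun d hd => hhS d (hNS (hl1.le hd))
    have hS1 := hS.cj h
    rw [H42.cj_inf, H42.cj_of_mem hh, H42.cj_normalizer] at hS1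
    have hS2 : H42.SylIn 2 (T ⊓ normalizer (H42.cj h D : Set G))
        (H ⊓ normalizer (H42.cj h D : Set G)) :=
      hS1.of_le_of_isPGroup (le_inf (H42.cj_le_iff.2 hhS) (hS1.le.trans inf_le_right))
        (inf_le_inf_right _ hT.le) (hT.isP.to_le inf_le_left)
    have hg1 := hmax _ h inf_le_left hh (fun d hd => hhS d (hNS hd)) (AlpAux.card_lt hl1)
    have hD2 : H42.cj g D < T := by
      refine lt_of_le_of_ne (H42.cj_le_iff.2 hgD) fun e => ?_
      have h1 := AlpAux.card_lt hlt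
      rw [← e, H42.card_cj] at h1
      exact lt_irrefl _ h1
    have hl2 := H42.lt_inf_normalizer hT.isP hD2
    have hR : H42.cj (h * g⁻¹) (T ⊓ normalizer (H42.cj g D : Set G)) ≤
        H ⊓ normalizer (H42.cj h D : Set G) := by
      rw [H42.cj_inf, H42.cj_normalizer, H42.cj_cj, inv_mul_cancel_right]
      refine inf_le_inf_right _ ?_
      exact (H42.cj_mono _ hT.le).trans (H42.cj_of_mem (mul_mem hh (inv_mem hg))).le
    obtain ⟨k, hk, hkR⟩ := hS2.exists_conj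
      (H42.isPGroup_cj (h * g⁻¹) (hT.isP.to_le inf_le_left)) hR
    have hg2 := hmax (T ⊓ normalizer (H42.cj g D : Set G)) (k * (h * g⁻¹)) inf_le_left
      (mul_mem (mem_inf.1 hk).1 (mul_mem hh (inv_mem hg)))
      (fun d hd => by
        have h3 := hkR _ (H42.conj_mem_cj (g := h * g⁻¹) hd)
        have e : k * (h * g⁻¹) * d * (k * (h * g⁻¹))⁻¹ = k * (h * g⁻¹ * d * (h * g⁻¹)⁻¹) * k⁻¹ := by
          group
        rw [e]
        exact (mem_inf.1 h3).1)
      (by rw [← H42.card_cj g D]; exact AlpAux.card_lt hl2)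
    refine ⟨H42.cj h D, AlpAux.fin hT hn hPT hS2 (by rw [H42.card_cj]; exact hmax) hk
      fun hgood => hbad fun d hd => ?_⟩
    have e : k * (h * d * h⁻¹) * k⁻¹ = k * (h * g⁻¹) * (g * d * g⁻¹) * (k * (h * g⁻¹))⁻¹ := by group
    rw [hg1 d (hl1.le hd), hgood _ (H42.conj_mem_cj hd), e,
      ← hg2 _ (hl2.le (H42.conj_mem_cj hd))]

end Cfsg.Agent.R24
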