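/-
Project R24 (notes/R24.md): more definitions.
-/
import Cfsg.Agent.R24.Defs

set_option autoImplicit false

namespace Cfsg.Agent.R24

open Subgroup Cfsg.Agent.H14

noncomputable section

/-- matrices of the shift, of doubling, of `projInv` and of `cubeTwist` in the basis `σ ^ i v` -/
def tS (co : Bool) : List ℕ := [2, 4, 8, 16, 32, 64, 128, 256, 512, 1024, if co then 1141 else 739]
def tM (co : Bool) : List ℕ :=
  if co then [1, 4, 16, 64, 256, 1024, 1183, 1763, 870, 493, 1972] else [1, 4, 16, 64, 256, 1024, 1478, 734, 411, 1644, 1685]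
def tG (co : Bool) : List ℕ :=
  if co then [1, 1595, 1140, 434, 1741, 513, 987, 1354, 1973, 33, 871] else [1, 1392, 738, 1469, 823, 513, 1594, 366, 1684, 33, 410]
def tD (co : Bool) : List ℕ :=
  if co then [1, 493, 64, 8, 4, 797, 2, 32, 870, 1183, 128] else [1, 555, 573, 557, 166, 220, 678, 1317, 1965, 829, 1949]
/-- one mask for each of the 2048 members of `V` -/
def rp (co : Bool) (x : ℕ) : ℕ := if co then 4096 * (x + 2048 * (pc x % 2)) else enc x
/-- `g` induces `σ` on the six tetrads -/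
def Sg (σ : Equiv.Perm (Fin 6)) (g : Equiv.Perm GolayPt) : Prop := ∀ j : Fin 6, im (GE.pk g) (tet j) = tet (σ j)

def Ty.ni : Ty → ℕ | .cH => 16 | .oE => 64 | .oF => 8
def Ty.nx : Ty → ℕ | .cH => 64 | .oE => 16 | .oF => 64
/-- a mask outside `WX` -/
def Ty.t0 : Ty → ℕ | .cH => 5279 | _ => 8388624
/-- generators of `Ag y.co` -/
def Ty.gens : Ty → List ℕ
  | .cH => [gen 0, gen 1, gen 6, gen 8, om, dl]
  | _ => [gen 0, gen 1, gen 2, gen 3, gen 4, gen 5, om]
/-- the commutator of `t0` and `te e` -/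
def Ty.c1 (y : Ty) (e : ℕ) : ℕ := y.t0 ^^^ im (te e) y.t0
/-- the commutator of `c1 e` and `te f` -/
def Ty.cc (y : Ty) (e f : ℕ) : ℕ := y.c1 e ^^^ im (te f) (y.c1 e)

variable {G : Type*} [Group G]

/-- coordinates on an elementary abelian group of order `2 ^ 11` -/
structure Lin (V : Subgroup G) (e : ℕ → G) : Prop where
  mem : ∀ x, e x ∈ V
  xor : ∀ x < 2048, ∀ y < 2048, e (x ^^^ y) = e x * e y
  inj : ∀ x < 2048, e x = 1 → x = 0
  surj : ∀ v ∈ V, ∃ x < 2048, e x = v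
/-- `n` acts by the matrix `tab` -/
def Ac (e : ℕ → G) (n : G) (tab : List ℕ) : Prop := ∀ x < 2048, n * e x * n⁻¹ = e (encL tab x)

namespace St

variable (S : St G)

/-- the image in `M24` -/
def bar (B : Subgroup G) : Subgroup (Equiv.Perm GolayPt) := (B.subgroupOf S.N).map S.π
theorem mem_bar {B : Subgroup G} {g : Equiv.Perm GolayPt} : g ∈ S.bar B ↔ ∃ b ∈ B, b ∈ S.N ∧ S.p b = g :=
  ⟨fun ⟨b, hb, e⟩ => ⟨b, hb, b.2, e⟩, fun ⟨b, hb, hn, e⟩ => ⟨⟨b, hn⟩, hb, e⟩⟩

theorem z_mem : S.z ∈ S.V := S.κ_mem _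
theorem z_sq : S.z * S.z = 1 := S.sq S.z_mem

/-- the members of the centraliser of `z` acting trivially on `A` modulo `z` -/
def KZ (A : Subgroup G) : Subgroup G where
  carrier := {x | x ∈ S.C ∧ S.Tz A x}
  one_mem' := ⟨one_mem _, fun a _ => Or.inl (by group)⟩
  mul_mem' := by
    rintro x y ⟨hx, h1⟩ ⟨hy, h2⟩
    refine ⟨mul_mem hx hy, fun a ha => ?_⟩
    have e : x * S.z = S.z * x := mem_centralizer_singleton_iff.1 hx
    have k : x * y * a * (x * y)⁻¹ = x * (y * a * y⁻¹) * x⁻¹ := by group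
    have k2 : x * (S.z * a) * x⁻¹ = S.z * (x * a * x⁻¹) := by rw [← mul_assoc, e]; group
    rcases h2 a ha with h | h <;> rcases h1 a ha with h' | h' <;> rw [k, h]
    · exact Or.inl h'
    · exact Or.inr h'
    · right; rw [k2, h']
    · left; rw [k2, h', ← mul_assoc, S.z_sq, one_mul]
  inv_mem' := by
    rintro x ⟨hx, h1⟩
    refine ⟨inv_mem hx, fun a ha => ?_⟩
    have e : x⁻¹ * S.z = S.z * x⁻¹ := mem_centralizer_singleton_iff.1 (inv_mem hx)
    rcases h1 a ha with h | h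
    · left; conv_lhs => rw [← h]
      group
    · right
      have k : a = S.z * (x * a * x⁻¹) := by rw [h, ← mul_assoc, S.z_sq, one_mul]
      conv_lhs => rw [k]
      rw [← mul_assoc, e]; group
theorem mem_KZ {A : Subgroup G} {x : G} : x ∈ S.KZ A ↔ x ∈ S.C ∧ S.Tz A x := Iff.rfl

/-- the group generated by `z` and the commutators of `v` with `Q` -/
def Cm (Q : Subgroup G) (v : G) : Subgroup G := closure {x | x = S.z ∨ ∃ q ∈ Q, x = q * v * q⁻¹ * v⁻¹}

/-- a complement over `M23` -/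
structure KC (K : Subgroup G) : Prop where
  le : K ≤ S.N
  inf : K ⊓ S.V = ⊥
  fix : ∀ k ∈ K, S.p k none = none
  surj : ∀ g ∈ M24, g none = none → ∃ k ∈ K, S.p k = g

/-- the configuration in the centraliser of `z`, code case -/
structure CI (Q P A : Subgroup G) (u : G) : Prop where
  co : S.co = false
  qd : S.QD Q
  PT : P ≤ S.T
  QP : Q ≤ P
  cand : S.Cand .cH A
  AP : A ≤ P
  W : S.V ⊓ P = S.WX .cH
  uC : u ∈ S.C
  uN : u ∈ normalizer (P : Set G)
  uu : u * u = 1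
  uA : ∀ a ∈ A, u * a = a * u
  uP : ∀ p ∈ P, u * p * u⁻¹ * p⁻¹ ∈ A
  fr : ∀ w ∈ S.WX .cH, u * w * u⁻¹ * w⁻¹ ∈ S.V → w ∈ A

/-- a normal subgroup of `HQ Q` of odd order over `Q` -/
structure OB (Q B : Subgroup G) : Prop where
  QB : Q ≤ B
  le : B ≤ S.HQ Q
  norm : S.HQ Q ≤ normalizer (B : Set G)
  odd : Odd (Q.relIndex B)

end St

namespace XS

variable {X : Type*} [Group X] (Z : XS X)

abbrev N : Subgroup X := normalizer (Z.V : Set X)
abbrev C1 : Subgroup X := centralizer ({Z.s 0 1} : Set X)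
abbrev Y : Subgroup X := centralizer ({Z.w} : Set X)

/-- `L` is the centraliser of `w` modulo `w` -/
structure Quo {L : Type*} [Group L] (f : Z.Y →* L) : Prop where
  surj : Function.Surjective f
  ker : ∀ y : Z.Y, f y = 1 ↔ (y : X) ∈ zpowers Z.w

/-- a normal 2-subgroup of the centraliser of `s 0 1` -/
structure KK (K : Subgroup X) : Prop where
  le : K ≤ Z.T
  norm : Z.C1 ≤ normalizer (K : Set X)
  mem : ∀ i j : Fin 6, 2 ≤ i.val → 2 ≤ j.val → Z.s i j ∈ K
  mem01 : Z.s 0 1 ∈ K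
  cw : ∀ k ∈ K, k * Z.w = Z.w * k
  v4 : ∀ k ∈ K, Z.θ k 0 = 0 ∧ Z.θ k 1 = 1 ∧ Z.θ k * Z.θ k = 1 ∧ Equiv.Perm.sign (Z.θ k) = 1

end XS

end

end Cfsg.Agent.R24
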