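/-
Project R24 (notes/R24.md): the Sylow 2-subgroup `Tx` of `M24` and its multiplication table.
-/
import Cfsg.Agent.R24.Defs2
import Cfsg.Agent.S5394

set_option autoImplicit false

namespace Cfsg.Agent.R24

open Subgroup Cfsg.Agent.H14

/-- notes/R24.md, section Base1 -/
theorem te_valid : ∀ x < 1024, valid (nat_lit 5) (nat_lit 32) (nat_lit 24) (te x) = true := by
  have : all2 32 32 (fun x => force (te x) fun P =>
    valid (nat_lit 5) (nat_lit 32) (nat_lit 24) P) = true := by decide +kernel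
  simpa only [all2_iff, force_eq] using this

namespace Base1

/-- the permutation with index `x` -/
noncomputable def P (x : ℕ) : Equiv.Perm GolayPt := GE.perm (te x)

theorem pkP {x : ℕ} (h : x < 1024) : GE.pk (P x) = te x := GE.pk_perm (te_valid x h)

theorem eqP {x : ℕ} (h : x < 1024) {g : Equiv.Perm GolayPt} (e : GE.pk g = te x) : g = P x :=
  GE.pk_injective (e.trans (pkP h).symm)

theorem Pmul {x y z : ℕ} (hx : x < 1024) (hy : y < 1024) (hz : z < 1024)
    (e : cmp (te x) (te y) = te z) : P x * P y = P z :=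
  eqP hz (by rw [GE.pk_mul, pkP hx, pkP hy, ← e])

theorem fa : ∀ a < 64, ∀ b < 64, cmp (te a) (te b) = te (a ^^^ b) := by
  have : allN 64 (fun a => force (te a) fun A => allN 64 fun b => force (te b) fun B =>
    Nat.beq (cmp A B) (te (Nat.xor a b))) = true := by decide +kernel
  simp only [allN_iff, force_eq, beq_iff] at this
  exact this

theorem fb : ∀ s < 16, ∀ a < 64,
    cmp (te (64 * s)) (te a) = cmp (te (act s a)) (te (64 * s)) := by
  have : allN 16 (fun s => force (te (Nat.mul 64 s)) fun S => allN 64 fun a => force (te a) fun A =>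
    force (te (act s a)) fun B => Nat.beq (cmp S A) (cmp B S)) = true := by decide +kernel
  simp only [allN_iff, force_eq, beq_iff] at this
  exact this

theorem fc : ∀ s < 16, ∀ u < 16, cmp (te (64 * s)) (te (64 * u)) = te (64 * ms s u) := by
  have : allN 16 (fun s => force (te (Nat.mul 64 s)) fun S => allN 16 fun u =>
    force (te (Nat.mul 64 u)) fun U => Nat.beq (cmp S U) (te (Nat.mul 64 (ms s u)))) = true := by
    decide +kernel
  simp only [allN_iff, force_eq, beq_iff] at this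
  exact this

theorem fd : ∀ s < 16, ∀ a < 64, cmp (te a) (te (64 * s)) = te (a + 64 * s) := by
  have : allN 16 (fun s => force (te (Nat.mul 64 s)) fun S => allN 64 fun a => force (te a) fun A =>
    Nat.beq (cmp A S) (te (Nat.add a (Nat.mul 64 s)))) = true := by decide +kernel
  simp only [allN_iff, force_eq, beq_iff] at this
  exact this

theorem act_lt (s a : ℕ) : act s a < 64 := Nat.mod_lt _ (by decide)
theorem ms_lt (s u : ℕ) : ms s u < 16 := Nat.mod_lt _ (by decide)
theorem mulx_eq (x y : ℕ) :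
    mulx x y = (x % 64 ^^^ act (x / 64) (y % 64)) + 64 * ms (x / 64) (y / 64) := rfl
theorem xor64 {a b : ℕ} (ha : a < 64) (hb : b < 64) : a ^^^ b < 64 :=
  Nat.xor_lt_two_pow (n := 6) ha hb

theorem mlt (x y : ℕ) : mulx x y < 1024 := by
  have := xor64 (Nat.mod_lt x (by decide : 64 > 0)) (act_lt (x / 64) (y % 64))
  have := ms_lt (x / 64) (y / 64)
  rw [mulx_eq]; omega

theorem Pm {x y : ℕ} (hx : x < 1024) (hy : y < 1024) : P x * P y = P (mulx x y) := by
  have d : ∀ s < 16, ∀ a < 64, P a * P (64 * s) = P (a + 64 * s) := fun s hs a ha =>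
    Pmul (by omega) (by omega) (by omega) (fd s hs a ha)
  have a1 : x % 64 < 64 := Nat.mod_lt _ (by decide)
  have b1 : y % 64 < 64 := Nat.mod_lt _ (by decide)
  have s1 : x / 64 < 16 := by omega
  have u1 : y / 64 < 16 := by omega
  have c1 := act_lt (x / 64) (y % 64)
  have m1 := ms_lt (x / 64) (y / 64)
  have e1 : P (64 * (x / 64)) * P (y % 64) = P (act (x / 64) (y % 64)) * P (64 * (x / 64)) :=
    GE.pk_injective (by
      rw [GE.pk_mul, GE.pk_mul, pkP (by omega), pkP (by omega), pkP (by omega)]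
      exact fb _ s1 _ b1)
  have e2 := Pmul (by omega) (by omega) ((xor64 a1 c1).trans (by decide)) (fa _ a1 _ c1)
  have e3 := Pmul (by omega) (by omega) (by omega) (fc _ s1 _ u1)
  rw [mulx_eq, ← d _ m1 _ (xor64 a1 c1), ← e2, ← e3]
  conv_lhs => rw [← Nat.mod_add_div x 64, ← Nat.mod_add_div y 64, ← d _ s1 _ a1, ← d _ u1 _ b1]
  rw [mul_assoc, ← mul_assoc (P (64 * (x / 64))), e1]
  simp only [mul_assoc]

theorem f0 : ∀ x < 1024, (te x = te 0 → x = 0) ∧ mulx x 0 = x ∧ mulx x 1 = mulx 1 x := by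
  have : all2 32 32 (fun x => bimp (Nat.beq (te x) (te 0)) (Nat.beq x 0) &&
    (Nat.beq (mulx x 0) x && Nat.beq (mulx x 1) (mulx 1 x))) = true := by decide +kernel
  simpa only [all2_iff, Bool.and_eq_true, bimp_iff, beq_iff] using this

theorem solve {x y : ℕ} (hx : x < 1024) (hy : y < 1024) : ∃ w < 1024, mulx y w = x := by
  have h1 : allN 16 (fun s => allN 16 fun t => anyN 16 fun u => Nat.beq (ms s u) t) = true := by
    decide +kernel
  have h2 : allN 16 (fun s => allN 64 fun a => anyN 64 fun b => Nat.beq (act s b) a) = true := by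
    decide +kernel
  simp only [allN_iff, anyN_iff, beq_iff] at h1 h2
  obtain ⟨u, hu, e1⟩ := h1 (y / 64) (by omega) (x / 64) (by omega)
  obtain ⟨b, hb, e2⟩ := h2 (y / 64) (by omega) _
    (xor64 (Nat.mod_lt y (by decide : 64 > 0)) (Nat.mod_lt x (by decide : 64 > 0)))
  refine ⟨b + 64 * u, by omega, ?_⟩
  rw [mulx_eq, show (b + 64 * u) % 64 = b by omega, show (b + 64 * u) / 64 = u by omega, e1, e2,
    ← Nat.xor_assoc, Nat.xor_self, Nat.zero_xor]
  omega

theorem low : ∀ x < 1024, x = 0 ∨ ∃ i < 10, x.testBit i = true ∧ x ^^^ 2 ^ i < x ∧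
    mulx (2 ^ i) (x ^^^ 2 ^ i) = x := by
  have : all2 32 32 (fun x => Nat.beq x 0 || anyN 10 fun i => tb x i &&
    (Nat.ble (Nat.succ (Nat.xor x (Nat.pow 2 i))) x &&
      Nat.beq (mulx (Nat.pow 2 i) (Nat.xor x (Nat.pow 2 i))) x)) = true := by decide +kernel
  simp only [all2_iff, Bool.or_eq_true, anyN_iff, Bool.and_eq_true, beq_iff, ble_iff, tb_eq]
    at this
  exact this

theorem pow_lt {i : ℕ} (h : i < 10) : 2 ^ i < 1024 := Nat.pow_lt_pow_right (by decide) h

end Base1

open Base1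

/-- notes/R24.md, section Base1 -/
theorem te_zero : te 0 = GE.pk 1 := by
  rw [GE.pk_one]; decide +kernel

/-- notes/R24.md, section Base1 -/
theorem te_two_pow : ∀ i < 10, te (2 ^ i) = gen i := by
  decide +kernel

/-- notes/R24.md, section Base1 -/
theorem mulx_lt : ∀ x < 1024, ∀ y < 1024, mulx x y < 1024 := fun x _ y _ => mlt x y

/-- notes/R24.md, section Base1 -/
theorem te_mul : ∀ x < 1024, ∀ y < 1024, cmp (te x) (te y) = te (mulx x y) := fun x hx y hy => by
  rw [← pkP (mlt x y), ← Pm hx hy, GE.pk_mul, pkP hx, pkP hy]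

theorem Base1.P0 : P 0 = 1 := (eqP (by decide) te_zero.symm).symm

/-- notes/R24.md, section Base1 -/
theorem te_inj : ∀ x < 1024, ∀ y < 1024, te x = te y → x = y := fun x hx y hy e => by
  obtain ⟨w, hw, rfl⟩ := solve hx hy
  have h1 : P y * P w = P y := by rw [Pm hy hw, P, e, P]
  have h2 : te w = te 0 := by rw [← pkP hw, mul_eq_left.1 h1, te_zero]
  rw [(f0 w hw).1 h2, (f0 y hy).2.1]

/-- notes/R24.md, section Base1 -/
theorem mulx_xor {k : ℕ} (hk : k ∈ [63, 207, 323]) : ∀ x < 1024, ∀ y < 1024, x &&& k = x → y &&& k = y → mulx x y = x ^^^ y := by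
  have : allL [63, 207, 323] (fun k => all2 32 32 fun x => bimp (Nat.beq (Nat.land x k) x)
    (all2 32 32 fun y => bimp (Nat.beq (Nat.land y k) y)
      (Nat.beq (mulx x y) (Nat.xor x y)))) = true := by decide +kernel
  simp only [allL_iff, all2_iff, bimp_iff, beq_iff] at this
  exact fun x hx y hy h1 h2 => this k hk x hx h1 y hy h2

theorem Base1.P_mem (k : ℕ) : ∀ x, x < 1024 → x &&& k = x → P x ∈ sg k := fun x => by
  induction x using Nat.strong_induction_on with
  | _ x ih =>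
    intro hx e
    rcases low x hx with rfl | ⟨i, hi, h1, h2, h3⟩
    · rw [P0]; exact one_mem _
    have hk : k.testBit i = true := by
      rw [← e, Nat.testBit_and, Bool.and_eq_true] at h1
      exact h1.2
    rw [← h3, ← Pm (pow_lt hi) (h2.trans hx)]
    refine mul_mem (subset_closure ⟨i, hi, hk, (pkP (pow_lt hi)).trans (te_two_pow i hi)⟩)
      (ih _ h2 (h2.trans hx) ?_)
    rw [Nat.and_xor_distrib_right, e, Nat.two_pow_and, hk]
    simp

/-- notes/R24.md, section Base1 -/
theorem mem_sg {k : ℕ} (hk : k ∈ [1023, 511, 63, 207, 323, 3]) (g : Equiv.Perm GolayPt) :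
    g ∈ sg k ↔ ∃ x < 1024, x &&& k = x ∧ GE.pk g = te x := by
  refine ⟨fun hg => ?_, fun ⟨x, hx, e, h⟩ => eqP hx h ▸ P_mem k x hx e⟩
  have : allL [1023, 511, 63, 207, 323, 3] (fun k => allN 10 fun i => bimp (tb k i)
    (all2 32 32 fun y => bimp (Nat.beq (Nat.land y k) y)
      (force (mulx (Nat.pow 2 i) y) fun z => Nat.beq (Nat.land z k) z))) = true := by decide +kernel
  simp only [allL_iff, allN_iff, all2_iff, bimp_iff, beq_iff, tb_eq, force_eq] at this
  replace hg : g ∈ (sg k).toSubmonoid := hg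
  rw [sg, closure_toSubmonoid_of_finite] at hg
  induction hg using Submonoid.closure_induction_left with
  | one => exact ⟨0, by decide, Nat.zero_and k, te_zero.symm⟩
  | mul_left a ha b _ ih =>
    obtain ⟨i, hi, h1, h2⟩ := ha
    obtain ⟨y, hy, e, h3⟩ := ih
    exact ⟨_, mlt _ _, this k hk i hi h1 y hy e, by
      rw [GE.pk_mul, h2, h3, ← te_two_pow i hi]; exact te_mul _ (pow_lt hi) _ hy⟩

theorem Base1.P_T {x : ℕ} (hx : x < 1024) : P x ∈ Tx :=
  P_mem 1023 x hx (Nat.and_two_pow_sub_one_of_lt_two_pow (n := 10) hx)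

/-- notes/R24.md, section Base1 -/
theorem exists_te {x : ℕ} (hx : x < 1024) : ∃ g ∈ Tx, GE.pk g = te x := ⟨P x, P_T hx, pkP hx⟩

/-- notes/R24.md, section Base1 -/
theorem sg_le_T (k : ℕ) : sg k ≤ Tx :=
  closure_mono fun _ ⟨i, hi, _, h⟩ =>
    ⟨i, hi, (by decide : ∀ i < 10, (1023 : ℕ).testBit i = true) i hi, h⟩

/-- notes/R24.md, section Base1 -/
theorem sg_le (k : ℕ) : sg k ≤ M24 := by
  have : allN 10 (fun i => force (gen i) inM24) = true := by decide +kernel
  simp only [allN_iff, force_eq] at this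
  exact (closure_le _).2 fun g ⟨i, hi, _, h⟩ => mem_M24_iff_inM24.2 (h ▸ this i hi)

/-- notes/R24.md, section Base1 -/
theorem te_inM24 : ∀ x < 1024, inM24 (te x) = true := fun _ hx =>
  pkP hx ▸ mem_M24_iff_inM24.1 (sg_le 1023 (P_T hx))

/-- notes/R24.md, section Base1 -/
theorem card_sg {k : ℕ} (hk : k ∈ [1023, 511, 63, 207, 323, 3]) : Nat.card (sg k) = 2 ^ pc k := by
  classical
  have : allL [1023, 511, 63, 207, 323, 3] (fun k =>
    Nat.beq (cnt2 32 32 fun x => Nat.beq (Nat.land x k) x) (Nat.pow 2 (pc k))) = true := by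
    decide +kernel
  simp only [allL_iff, beq_iff, cnt2_eq] at this
  have e : (sg k : Set (Equiv.Perm GolayPt)) =
      ((Finset.range (32 * 32)).filter fun x => Nat.land x k = x).image P := by
    ext g
    rw [SetLike.mem_coe, mem_sg hk, Finset.mem_coe, Finset.mem_image]
    simp only [Finset.mem_filter, Finset.mem_range]
    exact ⟨fun ⟨x, hx, e, h⟩ => ⟨x, ⟨hx, e⟩, (eqP hx h).symm⟩,
      fun ⟨x, ⟨hx, e⟩, h⟩ => ⟨x, hx, e, h ▸ pkP hx⟩⟩
  rw [show Nat.card (sg k) = (sg k : Set (Equiv.Perm GolayPt)).ncard from rfl, e,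
    Set.ncard_coe_finset, Finset.card_image_of_injOn]
  · exact this k hk
  · intro x hx y hy h
    have hx' := Finset.mem_range.1 (Finset.mem_filter.1 hx).1
    have hy' := Finset.mem_range.1 (Finset.mem_filter.1 hy).1
    exact te_inj x hx' y hy' (by rw [← pkP hx', h, pkP hy'])

/-- notes/R24.md, section Base1 -/
theorem syl_Tx : H42.SylIn 2 Tx M24 := by
  have h : Nat.card Tx = 2 ^ 10 := card_sg (by decide)
  refine ⟨sg_le _, IsPGroup.of_card h, ?_⟩
  have : Nat.card Tx * Tx.relIndex M24 = _ := H42.card_mul_relIndex (sg_le 1023)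
  rw [h, card_M24] at this
  omega

/-- notes/R24.md, section Base1 -/
theorem norm_sg {k : ℕ} (hk : k ∈ [63, 207, 323]) : Tx ≤ normalizer (sg k : Set (Equiv.Perm GolayPt)) := by
  have : allL [63, 207, 323] (fun k => allN 10 fun i => force (Nat.pow 2 i) fun j =>
    Nat.beq (mulx j j) 0 && all2 32 32 fun y => bimp (Nat.beq (Nat.land y k) y)
      (force (mulx (mulx j y) j) fun z => Nat.beq (Nat.land z k) z)) = true := by decide +kernel
  simp only [allL_iff, allN_iff, all2_iff, bimp_iff, beq_iff, force_eq, Bool.and_eq_true] at this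
  refine (closure_le _).2 fun g ⟨i, hi, _, h⟩ => H42.mem_normalizer_of_conj_mem fun a ha => ?_
  obtain ⟨h1, h2⟩ := this k hk i hi
  obtain ⟨y, hy, e, h3⟩ := (mem_sg
    ((by decide : ∀ k ∈ [63, 207, 323], k ∈ [1023, 511, 63, 207, 323, 3]) k hk) a).1 ha
  have l := pow_lt hi
  obtain rfl := eqP l (h.trans (te_two_pow i hi).symm)
  obtain rfl := eqP hy h3
  have : P (2 ^ i) * P (2 ^ i) = 1 := by rw [Pm l l, show mulx (2 ^ i) (2 ^ i) = 0 from h1, P0]
  rw [inv_eq_of_mul_eq_one_right this, Pm l hy, Pm (mlt _ _) l]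
  exact P_mem k _ (mlt _ _) (h2 y hy e)

/-- notes/R24.md, section Base1 -/
theorem cent_te1 {e g : Equiv.Perm GolayPt} (he : GE.pk e = te 1) (hg : g ∈ Tx) : g * e = e * g := by
  obtain ⟨y, hy, -, h⟩ := (mem_sg (by decide) g).1 hg
  rw [eqP hy h, eqP (by decide) he, Pm hy (by decide), Pm (by decide) hy, (f0 y hy).2.2]

namespace Base1

theorem ord2 {g : Equiv.Perm GolayPt} (h2 : g * g = 1) (h1 : g ≠ 1) : orderOf g = 2 :=
  orderOf_eq_prime (by rw [sq, h2]) h1

theorem ordP {x : ℕ} (hx : x < 1024) (h0 : x ≠ 0) (h : mulx x x = 0) : orderOf (P x) = 2 :=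
  ord2 (by rw [Pm hx hx, h, P0]) fun e => h0 ((f0 x hx).1 (by rw [← pkP hx, e, te_zero]))

theorem fix1 : ¬ ∀ p, P 1 p ≠ p := fun h => h (GE.pt 0) (by
  rw [GE.apply_pt _ (by decide), pkP (by decide)]
  exact congrArg _ (by decide +kernel))

theorem fix6 (p : GolayPt) : P 6 p ≠ p := fun e => by
  have := GE.app_pk (P 6) p
  rw [e, pkP (by decide)] at this
  exact (by decide +kernel : ∀ i < 24, app (nat_lit 5) (nat_lit 32) (te 6) i ≠ i) _
    (GE.ix_lt p) this

end Base1

/-- notes/R24.md, section Base1 -/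
theorem isA_of_fix {g : Equiv.Perm GolayPt} (hg : g ∈ M24) (h2 : g * g = 1) (h1 : g ≠ 1) (a : GolayPt) (ha : g a = a) : IsA g := by
  obtain ⟨k, hk, e⟩ := S5394.result.2.2.2 g hg (P 1) (sg_le _ (P_T (by decide))) (ord2 h2 h1)
    (ordP (by decide) (by decide) (by decide +kernel)) (iff_of_false (fun h => h a ha) fix1)
  exact ⟨k, hk, by rw [e, pkP (by decide)]⟩

/-- notes/R24.md, section Base1 -/
theorem inv_class {g : Equiv.Perm GolayPt} (hg : g ∈ M24) (h2 : g * g = 1) (h1 : g ≠ 1) :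
    IsA g ∨ ∃ h ∈ M24, GE.pk (h * g * h⁻¹) = te 6 := by
  by_cases h : ∀ p, g p ≠ p
  · obtain ⟨k, hk, e⟩ := S5394.result.2.2.2 g hg (P 6) (sg_le _ (P_T (by decide))) (ord2 h2 h1)
      (ordP (by decide) (by decide) (by decide +kernel)) (iff_of_true h fix6)
    exact Or.inr ⟨k, hk, by rw [e, pkP (by decide)]⟩
  · push Not at h
    obtain ⟨a, ha⟩ := h
    exact Or.inl (isA_of_fix hg h2 h1 a ha)

/-- notes/R24.md, section Base1 -/
theorem conj_into {e : Equiv.Perm GolayPt} (he : GE.pk e = te 1) {A : Subgroup (Equiv.Perm GolayPt)} (hA : A ≤ M24) (h2 : IsPGroup 2 A)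
    (hc : ∀ a ∈ A, a * e = e * a) : ∃ h ∈ M24, h * e = e * h ∧ H70.cj h A ≤ Tx := by
  have s := syl_Tx.of_le (K := M24 ⊓ centralizer {e})
    (le_inf (sg_le _) fun g hg => mem_centralizer_singleton_iff.2 (cent_te1 he hg)) inf_le_left
  obtain ⟨h, hh, h3⟩ := s.exists_conj h2
    (le_inf hA fun a ha => mem_centralizer_singleton_iff.2 (hc a ha))
  exact ⟨h, hh.1, mem_centralizer_singleton_iff.1 hh.2, H70.cj_le_iff.2 h3⟩

end Cfsg.Agent.R24
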