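/-
Project R24 (notes/R24.md): basic facts on the module `V` and its normaliser.
-/
import Cfsg.Agent.R24.Base1

set_option autoImplicit false
set_option linter.unusedSectionVars false

namespace Cfsg.Agent.R24

open Subgroup Cfsg.Agent.H14
open scoped Pointwise

variable {G : Type*} [Group G] [Finite G] (S : St G)

/-- notes/R24.md, section Base2 -/
theorem im_xor (g : Equiv.Perm GolayPt) (a b : ℕ) : im (GE.pk g) (a ^^^ b) = im (GE.pk g) a ^^^ im (GE.pk g) b :=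
  bits_inj (GE.img_pk_lt g _) (Nat.xor_lt_two_pow (GE.img_pk_lt g _) (GE.img_pk_lt g _)) (by
    rw [bits_xor, ← smul_bits, ← smul_bits, ← smul_bits, bits_xor, perm_smul_symmDiff])

/-- notes/R24.md, section Base2 -/
theorem im_mul (g h : Equiv.Perm GolayPt) (a : ℕ) : im (GE.pk (g * h)) a = im (GE.pk g) (im (GE.pk h) a) :=
  bits_inj (GE.img_pk_lt _ _) (GE.img_pk_lt _ _) (by
    rw [← smul_bits, ← smul_bits, ← smul_bits, mul_smul])

/-- notes/R24.md, section Base2 -/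
theorem im_dom {g : Equiv.Perm GolayPt} (hg : g ∈ M24) {co : Bool} {m : ℕ} (h : Dom co m) : Dom co (im (GE.pk g) m) := by
  refine ⟨GE.img_pk_lt g m, ?_⟩
  have h2 := h.2
  cases co
  · simp only [Bool.false_eq_true, if_false] at h2 ⊢
    exact (bits_mem_iff_enc (GE.img_pk_lt g m)).1
      (smul_bits g m ▸ smul_mem_cSets hg (bits_mem_of_enc h2))
  · simp only [if_true] at h2 ⊢
    rwa [← card_bits, ← smul_bits, Finset.card_smul_finset, card_bits]

/-- notes/R24.md, section Base2 -/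
theorem rp_dom (co : Bool) : ∀ x < 2048, Dom co (rp co x) := by
  have : ∀ co : Bool, all2 32 64 (fun x => decide (Dom co (rp co x))) = true := by decide +kernel
  simp only [all2_iff, decide_eq_true_eq] at this
  exact this co

/-- notes/R24.md, section Base2 -/
theorem St.comm_κ {n : G} (hn : n ∈ S.N) {m : ℕ} (hm : Dom S.co m) :
    S.κ m * n * (S.κ m)⁻¹ * n⁻¹ = S.κ (m ^^^ im (GE.pk (S.p n)) m) := by
  rw [S.κ_xor _ _ hm (im_dom (S.p_mem n hn) hm), ← S.κ_conj n hn m hm,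
    inv_eq_of_mul_eq_one_right (S.sq (S.κ_mem m))]
  simp only [mul_assoc]

/-- notes/R24.md, section Base2 -/
theorem St.cent_κ {n : G} (hn : n ∈ S.N) {m : ℕ} (hm : Dom S.co m) :
    n * S.κ m = S.κ m * n ↔ Ker S.co (m ^^^ im (GE.pk (S.p n)) m) := by
  rw [← S.κ_eq_iff hm (im_dom (S.p_mem n hn) hm), ← S.κ_conj n hn m hm, eq_mul_inv_iff_mul_eq,
    eq_comm]

namespace Base2

theorem ker_even {co : Bool} {k l : ℕ} (hk : Ker co k) (hl : Dom (!co) l) :
    pc (k &&& l) % 2 = 0 := by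
  obtain ⟨h1, h2⟩ := hl
  cases co
  · simp only [Ker, Bool.false_eq_true, if_false, Bool.not_false, if_true] at hk h2
    rcases hk with rfl | rfl
    · rw [Nat.zero_and]; decide +kernel
    · rwa [Nat.and_comm, show (16777215 : ℕ) = 2 ^ 24 - 1 from rfl,
        Nat.and_two_pow_sub_one_of_lt_two_pow h1]
  · simp only [Ker, Bool.false_eq_true, if_false, Bool.not_true, if_true] at hk h2
    rw [← card_bits, bits_and]
    exact Nat.even_iff.1 (even_card_inter (bits_mem_of_enc hk) (bits_mem_of_enc h2))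

theorem code_eq {m : ℕ} (h : m < 2 ^ 24) (e : enc m = m) : ∃ x < 4096, m = enc x :=
  let ⟨x, hx, e⟩ := mem_cSets_iff.1 (bits_mem_of_enc e)
  ⟨x, hx, bits_inj h (enc_lt hx) e⟩

theorem xor_zero {a b : ℕ} (h : a ^^^ b = 0) : a = b := by
  rw [← Nat.xor_zero a, ← Nat.xor_self b, ← Nat.xor_assoc, h, Nat.zero_xor]

theorem rp_inj {co : Bool} {x y : ℕ} (hx : x < 2048) (hy : y < 2048)
    (h : Ker co (rp co x ^^^ rp co y)) : x = y := by
  have l := ((rp_dom co x hx).xor (rp_dom co y hy)).1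
  cases co
  · simp only [Ker, rp, Bool.false_eq_true, if_false, ← enc_xor] at h
    have h1 : x ^^^ y < 2048 := Nat.xor_lt_two_pow (n := 11) hx hy
    have h2 := enc_mod (x := x ^^^ y) (by omega)
    exact xor_zero (by omega)
  · simp only [Ker, rp, if_true] at h l
    obtain ⟨w, hw, e⟩ := code_eq l h
    have h2 := enc_mod hw
    rw [← e, show (4096 : ℕ) = 2 ^ 12 from rfl, Nat.xor_mod_two_pow, Nat.mul_mod_right,
      Nat.mul_mod_right, Nat.xor_self] at h2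
    subst h2
    have := xor_zero (e.trans (by decide))
    omega

/-- the mask of `z` -/
def zm (co : Bool) : ℕ := if co then 8388615 else 8536111

theorem dom_zm : ∀ co, Dom co (zm co) := by decide +kernel

theorem p_pow {a : G} (ha : a ∈ S.N) (n : ℕ) : S.p (a ^ n) = S.p a ^ n := map_pow S.π ⟨a, ha⟩ n

/-- `v ↦ [v, a]` -/
def dh {a : G} (ha : a ∈ S.N) : S.V →* G := MonoidHom.mk' (fun v => v * a * (v : G)⁻¹ * a⁻¹)
  fun v w => by
    have h1 := S.comm w.2 (H42.conj_mem_of_mem_normalizer ha (inv_mem v.2))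
    have h2 := S.comm (H42.conj_mem_of_mem_normalizer ha (inv_mem w.2))
      (H42.conj_mem_of_mem_normalizer ha (inv_mem v.2))
    push_cast
    calc (v : G) * w * a * ((v : G) * w)⁻¹ * a⁻¹
        = v * w * (a * (w : G)⁻¹ * a⁻¹ * (a * (v : G)⁻¹ * a⁻¹)) := by group
      _ = v * (w * (a * (v : G)⁻¹ * a⁻¹)) * (a * (w : G)⁻¹ * a⁻¹) := by rw [h2]; group
      _ = _ := by rw [h1]; group

theorem Dv_eq {a : G} (ha : a ∈ S.N) : Dv S.V a = (dh S ha).range := by
  rw [← closure_eq (dh S ha).range, Dv]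
  congr 1
  ext x
  exact ⟨fun ⟨v, hv, e⟩ => ⟨⟨v, hv⟩, e.symm⟩, fun ⟨v, e⟩ => ⟨v, v.2, e.symm⟩⟩

end Base2

open Base2

/-- notes/R24.md, section Base2 -/
theorem St.mem_par_iff {L : List ℕ} (hL : ∀ l ∈ L, Dom (!S.co) l) {m : ℕ} (hm : Dom S.co m) :
    S.κ m ∈ S.par L ↔ ∀ l ∈ L, pc (m &&& l) % 2 = 0 := by
  refine ⟨fun ⟨k, hk, e, h⟩ l hl => ?_, fun h => ⟨m, hm, rfl, h⟩⟩
  have h1 := ker_even ((S.κ_eq_iff hk hm).1 e) (hL l hl)
  have h2 := h l hl
  rw [Nat.and_xor_distrib_right, pc_xor] at h1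
  omega

/-- notes/R24.md, section Base2 -/
theorem St.rp_surj {v : G} (hv : v ∈ S.V) : ∃ x < 2048, S.κ (rp S.co x) = v := by
  obtain ⟨m, hm, rfl⟩ := S.κ_surj v hv
  suffices h : ∃ x < 2048, Ker S.co (rp S.co x ^^^ m) from
    let ⟨x, hx, e⟩ := h
    ⟨x, hx, (S.κ_eq_iff (rp_dom _ x hx) hm).2 e⟩
  revert hm
  generalize S.co = co
  rintro ⟨h1, h2⟩
  cases co
  · simp only [Ker, rp, Bool.false_eq_true, if_false] at h2 ⊢
    obtain ⟨x, hx, rfl⟩ := code_eq h1 h2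
    have : all2 64 64 (fun x => Nat.ble (Nat.succ x) 2048 ||
      Nat.ble (Nat.succ (Nat.xor x 4095)) 2048) = true := by decide +kernel
    simp only [all2_iff, Bool.or_eq_true, ble_iff] at this
    rcases this x hx with h | h
    · exact ⟨x, h, Or.inl (Nat.xor_self _)⟩
    · refine ⟨x ^^^ 4095, h, Or.inr ?_⟩
      rw [← enc_xor, Nat.xor_comm x, Nat.xor_assoc, Nat.xor_self, Nat.xor_zero]
      decide
  · simp only [Ker, if_true] at h2 ⊢
    have hy : m % 4096 < 4096 := Nat.mod_lt _ (by decide)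
    obtain ⟨e1, e2, e3, e4⟩ := enc_facts _ hy
    have l : m ^^^ enc (m % 4096) < 2 ^ 24 := Nat.xor_lt_two_pow h1 e2
    have z : (m ^^^ enc (m % 4096)) % 4096 = 0 := by
      have := @Nat.xor_mod_two_pow m (enc (m % 4096)) 12
      rw [show (2 : ℕ) ^ 12 = 4096 from rfl, e1, Nat.xor_self] at this
      exact this
    have p : pc (m ^^^ enc (m % 4096)) % 2 = 0 := by rw [pc_xor]; omega
    have : all2 64 64 (fun t => bimp (Nat.beq (pc (4096 * t) % 2) 0)
      (Nat.beq (rp true (t % 2048)) (4096 * t))) = true := by decide +kernel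
    simp only [all2_iff, bimp_iff, beq_iff] at this
    obtain ⟨t, ht⟩ := Nat.dvd_of_mod_eq_zero z
    refine ⟨t % 2048, Nat.mod_lt _ (by decide), ?_⟩
    rw [this t (by omega) (ht ▸ p), ← ht, Nat.xor_comm m, Nat.xor_assoc, Nat.xor_self,
      Nat.xor_zero, e3]

/-- notes/R24.md, section Base2 -/
theorem St.card_filter {A : Subgroup G} (hA : A ≤ S.V) (f : ℕ → Bool)
    (h : ∀ x < 2048, f x = true ↔ S.κ (rp S.co x) ∈ A) : Nat.card A = cnt2 32 64 f := by
  classical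
  have e : (A : Set G) = ((Finset.range (32 * 64)).filter fun x => f x = true).image
      fun x => S.κ (rp S.co x) := by
    ext g
    rw [SetLike.mem_coe, Finset.mem_coe, Finset.mem_image]
    simp only [Finset.mem_filter, Finset.mem_range]
    refine ⟨fun hg => ?_, fun ⟨x, ⟨hx, e⟩, h1⟩ => h1 ▸ (h x hx).1 e⟩
    obtain ⟨x, hx, rfl⟩ := S.rp_surj (hA hg)
    exact ⟨x, ⟨hx, (h x hx).2 hg⟩, rfl⟩
  rw [show Nat.card A = (A : Set G).ncard from rfl, e, Set.ncard_coe_finset,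
    Finset.card_image_of_injOn, cnt2_eq]
  intro x hx y hy h
  have hx' := Finset.mem_range.1 (Finset.mem_filter.1 hx).1
  have hy' := Finset.mem_range.1 (Finset.mem_filter.1 hy).1
  exact rp_inj hx' hy' ((S.κ_eq_iff (rp_dom _ x hx') (rp_dom _ y hy')).1 h)

/-- notes/R24.md, section Base2 -/
theorem St.card_V : Nat.card S.V = 2048 := by
  rw [S.card_filter le_rfl (fun _ => true) fun x _ => iff_of_true rfl (S.κ_mem _)]
  decide +kernel

/-- notes/R24.md, section Base2 -/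
theorem St.card_bar {B : Subgroup G} (hB : B ≤ S.N) : Nat.card B = Nat.card ↥(B ⊓ S.V) * Nat.card (S.bar B) := by
  have e : S.π.ker ⊓ B.subgroupOf S.N = (B ⊓ S.V).subgroupOf S.N := by
    ext x
    exact ⟨fun h => ⟨h.2, (S.p_one _ x.2).1 h.1⟩, fun h => ⟨(S.p_one _ x.2).2 h.2, h.1⟩⟩
  have := H42.card_mul_relIndex (inf_le_right : S.π.ker ⊓ B.subgroupOf S.N ≤ _)
  rw [inf_relIndex_right, relIndex_ker, e, Nat.card_congr (subgroupOfEquivOfLe hB).toEquiv,
    Nat.card_congr (subgroupOfEquivOfLe (inf_le_left.trans hB)).toEquiv] at this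
  exact this.symm

/-- notes/R24.md, section Base2 -/
theorem St.card_pre {A : Subgroup (Equiv.Perm GolayPt)} (hA : A ≤ M24) : Nat.card (S.pre A) = 2048 * Nat.card A := by
  have e : S.bar (S.pre A) = A := by
    ext g
    rw [S.mem_bar]
    refine ⟨fun ⟨b, hb, _, e⟩ => e ▸ hb.2, fun hg => ?_⟩
    obtain ⟨a, ha, rfl⟩ := S.p_surj g (hA hg)
    exact ⟨a, ⟨ha, hg⟩, ha, rfl⟩
  rw [S.card_bar (S.pre_le A), inf_eq_right.2 (S.V_le_pre A), S.card_V, e]

/-- notes/R24.md, section Base2 -/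
theorem St.norm_pre {A : Subgroup (Equiv.Perm GolayPt)} {n : G} (hn : n ∈ S.N) (h : S.p n ∈ normalizer (A : Set (Equiv.Perm GolayPt))) :
    n ∈ normalizer (S.pre A : Set G) :=
  H42.mem_normalizer_of_conj_mem fun x hx => ⟨mul_mem (mul_mem hn hx.1) (inv_mem hn), by
    rw [S.p_conj hn hx.1]; exact H42.conj_mem_of_mem_normalizer h hx.2⟩

/-- notes/R24.md, section Base2 -/
theorem St.z_ne : S.z ≠ 1 := fun e =>
  (by decide +kernel : ∀ co, ¬ Ker co (zm co)) _ ((S.κ_one _ (dom_zm _)).1 e)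

/-- notes/R24.md, section Base2 -/
theorem St.T_le_M : S.T ≤ S.M := fun x hx => by
  obtain ⟨e, he, -, h⟩ := (mem_sg (by decide) _).1 hx.2
  have : ∀ co : Bool, all2 32 32 (fun e => force (te e) fun P => force (im P (zm co)) fun m =>
    decide (Ker co (zm co ^^^ m))) = true := by decide +kernel
  simp only [all2_iff, force_eq, decide_eq_true_eq] at this
  exact ⟨hx.1, mem_centralizer_singleton_iff.2
    ((S.cent_κ hx.1 (dom_zm _)).2 (h ▸ this _ e he))⟩

theorem Base2.card_T : Nat.card S.T = 2 ^ 21 := by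
  rw [S.card_pre (sg_le _), card_sg (by decide)]; decide +kernel

/-- notes/R24.md, section Base2 -/
theorem St.two_T : IsPGroup 2 S.T := IsPGroup.of_card (card_T S)

/-- notes/R24.md, section Base2 -/
theorem St.syl_N : H42.SylIn 2 S.T S.N := by
  refine ⟨S.pre_le _, S.two_T, ?_⟩
  have h : Nat.card S.T * S.T.relIndex S.N = _ := H42.card_mul_relIndex (S.pre_le Tx)
  have e : S.N = S.pre M24 := le_antisymm (fun a ha => ⟨ha, S.p_mem a ha⟩) (S.pre_le _)
  have e2 : Nat.card S.N = 2048 * 244823040 := by rw [e, S.card_pre le_rfl, card_M24]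
  rw [card_T, e2] at h
  omega

/-- notes/R24.md, section Base2 -/
theorem St.lift_odd {g : Equiv.Perm GolayPt} (hg : g ∈ M24) {n : ℕ} (hn : Odd n) (h : g ^ n = 1) : ∃ a ∈ S.N, S.p a = g ∧ a ^ n = 1 := by
  obtain ⟨a, ha, rfl⟩ := S.p_surj g hg
  have hv : a ^ n ∈ S.V := (S.p_one _ (pow_mem ha n)).1 (by rw [p_pow S ha, h])
  refine ⟨a * a ^ n, mul_mem ha (S.V_le hv), by rw [S.p_mul _ ha _ (S.V_le hv), S.p_V hv, mul_one],
    ?_⟩
  obtain ⟨k, hk⟩ := hn
  rw [(Commute.self_pow a n).mul_pow, ← pow_succ', show n + 1 = 2 * (k + 1) by omega, pow_mul,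
    pow_two, S.sq hv, one_pow]

/-- notes/R24.md, section Base2 -/
theorem St.exists_om : ∃ ω, S.Om ω := by
  obtain ⟨g, hg, e⟩ := inG_M24 (P := om) (by decide +kernel) (by decide +kernel)
  obtain ⟨a, ha, rfl, h⟩ := S.lift_odd hg (n := 3) (by decide) (GE.pk_injective (by
    rw [pow_three', GE.pk_mul3, e, GE.pk_one]; decide +kernel))
  exact ⟨a, ha, e, h⟩

/-- notes/R24.md, section Base2 -/
theorem St.om_mem {ω : G} (h : S.Om ω) : ω ∈ S.M ∧ ω ∈ S.pre (Ag S.co) :=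
  ⟨⟨h.1, mem_centralizer_singleton_iff.2 ((S.cent_κ h.1 (dom_zm _)).2 (h.2.1 ▸
    (by decide +kernel : ∀ co, Ker co (zm co ^^^ im om (zm co))) _))⟩,
    h.1, mem_sup_right (subset_closure (Or.inl h.2.1))⟩

/-- notes/R24.md, section Base2 -/
theorem St.mem_Dv {a : G} (ha : a ∈ S.N) {x : G} : x ∈ Dv S.V a ↔ ∃ v ∈ S.V, x = v * a * v⁻¹ * a⁻¹ := by
  rw [Dv_eq S ha]
  exact ⟨fun ⟨v, e⟩ => ⟨v, v.2, e.symm⟩, fun ⟨v, hv, e⟩ => ⟨⟨v, hv⟩, e.symm⟩⟩

/-- notes/R24.md, section Base2 -/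
theorem St.card_cd {a : G} (ha : a ∈ S.N) : Nat.card (Cv S.V a) * Nat.card (Dv S.V a) = 2048 := by
  have e : (dh S ha).ker = (Cv S.V a).subgroupOf S.V := by
    ext v
    rw [MonoidHom.mem_ker, mem_subgroupOf, mem_inf, mem_centralizer_singleton_iff, and_iff_right v.2]
    show (v : G) * a * (v : G)⁻¹ * a⁻¹ = 1 ↔ _
    rw [mul_inv_eq_one, mul_inv_eq_iff_eq_mul]
  have := (dh S ha).ker.card_mul_index
  rwa [index_ker, e, Nat.card_congr (subgroupOfEquivOfLe inf_le_left).toEquiv, ← Dv_eq,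
    S.card_V] at this

/-- notes/R24.md, section Base2 -/
theorem St.four : ∃ n ∈ S.N, ∃ m ∈ S.N, n * S.z * n⁻¹ ∈ S.VQ ∧ n * S.z * n⁻¹ ≠ S.z ∧ S.z * (n * S.z * n⁻¹) = m * S.z * m⁻¹ := by
  have : ∀ co : Bool, ∃ P ∈ [0x20ab4995617a0038a92e39a5765a0d, 0x9b20415625b2174384096dc6e93cca],
      ∃ Q ∈ [0x389b28152143c038b16e25a9751a75, 0x55051234b31b8d00b160b5d09955e7],
      (valid (nat_lit 5) (nat_lit 32) (nat_lit 24) P = true ∧ inM24 P = true) ∧
      (valid (nat_lit 5) (nat_lit 32) (nat_lit 24) Q = true ∧ inM24 Q = true) ∧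
      (∀ l ∈ (if co then [8536111, 12656663, 8657159, 11010247]
        else [8388609, 8388610, 8388612, 8388616, 8388640, 8404992]),
        pc (im P (zm co) &&& l) % 2 = 0) ∧ ¬ Ker co (im P (zm co) ^^^ zm co) ∧
      Ker co (zm co ^^^ im P (zm co) ^^^ im Q (zm co)) := by decide +kernel
  obtain ⟨P, -, Q, -, hP, hQ, h1, h2, h3⟩ := this S.co
  obtain ⟨g, hg, rfl⟩ := inG_M24 hP.1 hP.2
  obtain ⟨k, hk, rfl⟩ := inG_M24 hQ.1 hQ.2
  obtain ⟨n, hn, rfl⟩ := S.p_surj g hg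
  obtain ⟨m, hm, rfl⟩ := S.p_surj k hk
  have d := dom_zm S.co
  refine ⟨n, hn, m, hm, ?_⟩
  rw [show S.z = S.κ (zm S.co) from rfl, S.κ_conj n hn _ d, S.κ_conj m hm _ d,
    ← S.κ_xor _ _ d (im_dom hg d)]
  exact ⟨⟨_, im_dom hg d, rfl, h1⟩, mt (S.κ_eq_iff (im_dom hg d) d).1 h2,
    (S.κ_eq_iff (d.xor (im_dom hg d)) (im_dom hk d)).2 h3⟩

end Cfsg.Agent.R24
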