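import Cfsg.Agent.R24.Base1
import Cfsg.Agent.R24.Base2

set_option autoImplicit false
set_option linter.unusedSectionVars false

namespace Cfsg.Agent.R24

open Subgroup Cfsg.Agent.H14

namespace B3

noncomputable section

def zm (co : Bool) : ℕ := if co then 8388615 else 8536111
def lq (co : Bool) : List ℕ :=
  if co then [8536111, 12656663, 8657159, 11010247] else [8388609, 8388610, 8388612, 8388616, 8388640, 8404992]
def rk (co : Bool) : ℕ := if co then 63 else 323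
def gi (co : Bool) : List ℕ := if co then [0, 1, 2, 3, 4, 5] else [0, 1, 6, 8]
def bV (co : Bool) : List ℕ :=
  if co then [8392704, 8396800, 8404992, 8421376, 8454144, 8519680, 8650752, 8912896, 9437184, 10485760, 12582912]
  else [13062145, 4845570, 13938692, 7221256, 10170384, 11952160, 15515712, 2019456, 4038912, 8077824, 11654144]
def bQ (co : Bool) : List ℕ :=
  if co then [0, 0, 0, 0, 73728, 147456, 266240, 8974336, 1081344, 10547200, 4202496]
  else [0, 0, 0, 0, 0, 8536111, 0, 6889680, 4038912, 832080, 6100032]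
def reps : List ℕ :=
  [12288, 20480, 24576, 36864, 40960, 49152, 61440, 8392704, 8396800, 8404992, 8417280, 8421376, 8433664, 8441856, 8445952]
def kerB (co : Bool) (m : ℕ) : Bool :=
  force m fun m => if co then Nat.beq (enc m) m else Nat.beq m 0 || Nat.beq m 16777215
def zB (co : Bool) (m : ℕ) : Bool := force m fun m => kerB co m || kerB co (Nat.xor m (zm co))
def parB (co : Bool) (m : ℕ) : Bool := force m fun m => allL (lq co) fun l => Nat.beq (Nat.mod (pc (Nat.land m l)) 2) 0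
def cm (P m : ℕ) : ℕ := Nat.xor m (im P m)
def inR (co : Bool) (e : ℕ) : Bool := Nat.beq (Nat.land e (rk co)) e

end

theorem kerB_iff {co : Bool} {m : ℕ} : kerB co m = true ↔ Ker co m := by
  cases co <;> simp [kerB, Ker]

theorem zB_iff {co : Bool} {m : ℕ} : zB co m = true ↔ Ker co m ∨ Ker co (m ^^^ zm co) := by
  rw [zB, force_eq, Bool.or_eq_true, kerB_iff, kerB_iff]; rfl

theorem parB_iff {co : Bool} {m : ℕ} : parB co m = true ↔ ∀ l ∈ lq co, pc (m &&& l) % 2 = 0 := by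
  rw [parB, force_eq, allL_iff]
  exact forall₂_congr fun l _ => beq_iff

theorem inR_iff {co : Bool} {e : ℕ} : inR co e = true ↔ e &&& rk co = e := beq_iff

theorem rk_mem (co : Bool) : rk co ∈ [1023, 511, 63, 207, 323, 3] := by cases co <;> decide
theorem rk_mem' (co : Bool) : rk co ∈ [63, 207, 323] := by cases co <;> decide
theorem zm_dom (co : Bool) : Dom co (zm co) := by cases co <;> decide +kernel
theorem lq_dom (co : Bool) : ∀ l ∈ lq co, Dom (!co) l := by cases co <;> decide +kernel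
theorem bV_dom (co : Bool) : ∀ l ∈ bV co, Dom co l := by cases co <;> decide +kernel
theorem bQ_dom (co : Bool) : ∀ l ∈ bQ co, Dom co l ∧ parB co l = true := by cases co <;> decide +kernel
theorem reps_dom : ∀ l ∈ reps, Dom true l := by decide +kernel
theorem gi_ok (co : Bool) : ∀ i ∈ gi co, i < 10 ∧ 2 ^ i < 1024 ∧ inR co (2 ^ i) = true := by cases co <;> decide +kernel
theorem zm_par (co : Bool) : parB co (zm co) = true := by cases co <;> decide +kernel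

theorem c0 (co : Bool) : all2 32 64 (fun x => force (rp co x) fun m => Nat.beq (encL (bV co) x) m &&
    bimp (parB co m) (Nat.beq (encL (bQ co) x) m)) = true := by cases co <;> decide +kernel
theorem c2 (co : Bool) : cnt2 32 64 (fun x => parB co (rp co x)) = if co then 128 else 32 := by
  cases co <;> decide +kernel
theorem c7 (co : Bool) : all2 32 32 (fun e => bimp (inR co e) (force (te e) fun P =>
    (allL (bV co) fun b => parB co (cm P b)) && (allL (bQ co) fun b => zB co (cm P b)) &&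
      bimp (allL (bQ co) fun b => kerB co (cm P b)) (Nat.beq e 0))) = true := by cases co <;> decide +kernel
theorem c9 (co : Bool) : all2 32 64 (fun x => force (rp co x) fun m =>
    bimp (allL (gi co) fun i => zB co (cm (gen i) m)) (parB co m &&
      bimp (allL (gi co) fun i => kerB co (cm (gen i) m)) (zB co m))) = true := by cases co <;> decide +kernel
theorem c11 (co : Bool) : all2 32 32 (fun e => force (te e) fun P =>
    bimp ((allL (bQ co) fun b => zB co (cm P b)) || allL (bV co) fun b => parB co (cm P b)) (inR co e)) = true := by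
  cases co <;> decide +kernel
theorem c14 : (allL (bV true) fun b => parB true (cm om b)) = true := by decide +kernel
theorem c15 : all2 32 64 (fun x => force (rp true x) fun m =>
    bimp (parB true m) (bimp (zB true (cm om m)) (zB true m))) = true := by decide +kernel
theorem c16 : all2 32 32 (fun e => bimp (inR true e) (force (te e) fun P =>
    bimp (Nat.beq (cmp om P) (cmp P om)) (Nat.beq e 0))) = true := by decide +kernel
theorem c17 : all2 32 64 (fun x => force (rp true x) fun m =>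
    parB true m || anyL reps fun c => parB true (Nat.xor m c)) = true := by decide +kernel
theorem c18 : (allL reps fun c => Nat.beq (cntN 64 fun e => zB true (cm (te e) c)) 4) = true := by decide +kernel
theorem c19 : all2 32 32 (fun e => Nat.beq (cond (inR true e) 1 0) (cond (Nat.ble (Nat.succ e) 64) 1 0)) = true := by
  decide +kernel

variable {G : Type*} [Group G] [Finite G] (S : St G)

theorem z_eq : S.z = S.κ (zm S.co) := rfl
theorem R_eq : S.R = S.pre (sg (rk S.co)) := by unfold St.R rk; cases S.co <;> rfl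
theorem mem_VQ {m : ℕ} (hm : Dom S.co m) : S.κ m ∈ S.VQ ↔ parB S.co m = true := by
  rw [parB_iff]; exact S.mem_par_iff (lq_dom S.co) hm

theorem mem_zp {y : G} : y ∈ zpowers S.z ↔ y = 1 ∨ y = S.z := by
  refine ⟨fun h => ?_, by rintro (rfl | rfl); exacts [one_mem _, mem_zpowers _]⟩
  let K : Subgroup G :=
    { carrier := {y | y = 1 ∨ y = S.z}
      one_mem' := Or.inl rfl
      mul_mem' := by rintro _ _ (rfl | rfl) (rfl | rfl) <;> simp [S.z_sq]
      inv_mem' := by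
        rintro _ (rfl | rfl)
        · exact Or.inl inv_one
        · exact Or.inr (inv_eq_of_mul_eq_one_right S.z_sq) }
  exact (zpowers_le (H := K)).2 (Or.inr rfl) h

theorem mem_zp_κ {m : ℕ} (hm : Dom S.co m) : S.κ m ∈ zpowers S.z ↔ zB S.co m = true := by
  rw [mem_zp, zB_iff, S.κ_one _ hm, z_eq, S.κ_eq_iff hm (zm_dom _)]

theorem cm_dom {n : G} (hn : n ∈ S.N) {m : ℕ} (hm : Dom S.co m) : Dom S.co (cm (GE.pk (S.p n)) m) :=
  hm.xor (im_dom (S.p_mem n hn) hm)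

theorem cmm {n : G} (hn : n ∈ S.N) {m : ℕ} (hm : Dom S.co m) :
    S.κ m * n * (S.κ m)⁻¹ * n⁻¹ = S.κ (cm (GE.pk (S.p n)) m) := S.comm_κ hn hm

theorem conj_V {n v : G} (hn : n ∈ S.N) (hv : v ∈ S.V) : n * v * n⁻¹ ∈ S.V := (mem_normalizer_iff.1 hn v).1 hv

theorem inv_V {v : G} (hv : v ∈ S.V) : v⁻¹ = v := inv_eq_of_mul_eq_one_right (S.sq hv)

theorem tz_iff {n v : G} (hn : n ∈ S.N) (hv : v ∈ S.V) :
    (n * v * n⁻¹ = v ∨ n * v * n⁻¹ = S.z * v) ↔ v * n * v⁻¹ * n⁻¹ ∈ zpowers S.z := by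
  have e : v * n * v⁻¹ * n⁻¹ = n * v * n⁻¹ * v⁻¹ := by
    rw [inv_V S hv, S.comm (conj_V S hn hv) hv]; group
  rw [mem_zp, e, mul_inv_eq_one, mul_inv_eq_iff_eq_mul (b := v)]

theorem tz_κ {n : G} (hn : n ∈ S.N) {m : ℕ} (hm : Dom S.co m) :
    (n * S.κ m * n⁻¹ = S.κ m ∨ n * S.κ m * n⁻¹ = S.z * S.κ m) ↔ zB S.co (cm (GE.pk (S.p n)) m) = true := by
  rw [tz_iff S hn (S.κ_mem m), cmm S hn hm, mem_zp_κ S (cm_dom S hn hm)]

theorem comm_mul {n v w : G} (hn : n ∈ S.N) (hv : v ∈ S.V) (hw : w ∈ S.V) :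
    v * w * n * (v * w)⁻¹ * n⁻¹ = v * n * v⁻¹ * n⁻¹ * (w * n * w⁻¹ * n⁻¹) := by
  have h1 := S.comm (conj_V S hn (inv_mem hv)) (mul_mem hw (conj_V S hn (inv_mem hw)))
  calc _ = v * (w * (n * w⁻¹ * n⁻¹) * (n * v⁻¹ * n⁻¹)) := by group
    _ = _ := by rw [← h1]; group

theorem ind {n : G} (hn : n ∈ S.N) (U : Subgroup G) (L : List ℕ)
    (hL : ∀ b ∈ L, Dom S.co b ∧ S.κ b * n * (S.κ b)⁻¹ * n⁻¹ ∈ U) (x : ℕ) :
    Dom S.co (encL L x) ∧ S.κ (encL L x) * n * (S.κ (encL L x))⁻¹ * n⁻¹ ∈ U := by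
  have h0 : Dom S.co 0 ∧ S.κ 0 * n * (S.κ 0)⁻¹ * n⁻¹ ∈ U := ⟨dom_zero _, by simp [S.κ_zero, one_mem]⟩
  induction L generalizing x with
  | nil => exact h0
  | cons r rs ih =>
    have h1 := ih (fun b hb => hL b (List.mem_cons_of_mem _ hb)) (x / 2)
    have h2 : Dom S.co (r * (x % 2)) ∧ S.κ (r * (x % 2)) * n * (S.κ (r * (x % 2)))⁻¹ * n⁻¹ ∈ U := by
      rcases Nat.mod_two_eq_zero_or_one x with hx | hx <;> rw [hx]
      · exact h0
      · rw [Nat.mul_one]; exact hL r List.mem_cons_self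
    rw [encL_cons]
    refine ⟨h2.1.xor h1.1, ?_⟩
    rw [S.κ_xor _ _ h2.1 h1.1, comm_mul S hn (S.κ_mem _) (S.κ_mem _)]
    exact mul_mem h2.2 h1.2

theorem c0' (co : Bool) {x : ℕ} (hx : x < 2048) : encL (bV co) x = rp co x ∧
    (parB co (rp co x) = true → encL (bQ co) x = rp co x) := by
  have := all2_iff.1 (c0 co) x hx
  rwa [force_eq, Bool.and_eq_true, bimp_iff, beq_iff, beq_iff] at this

theorem indV {n v : G} (hn : n ∈ S.N) (U : Subgroup G) (hL : ∀ b ∈ bV S.co, S.κ (cm (GE.pk (S.p n)) b) ∈ U)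
    (hv : v ∈ S.V) : v * n * v⁻¹ * n⁻¹ ∈ U := by
  obtain ⟨x, hx, rfl⟩ := S.rp_surj hv
  rw [← (c0' S.co hx).1]
  exact (ind S hn U _ (fun b hb => ⟨bV_dom _ b hb, cmm S hn (bV_dom _ b hb) ▸ hL b hb⟩) x).2

theorem indQ {n v : G} (hn : n ∈ S.N) (U : Subgroup G) (hL : ∀ b ∈ bQ S.co, S.κ (cm (GE.pk (S.p n)) b) ∈ U)
    (hv : v ∈ S.VQ) : v * n * v⁻¹ * n⁻¹ ∈ U := by
  obtain ⟨x, hx, rfl⟩ := S.rp_surj (S.par_le _ hv)
  rw [← (c0' S.co hx).2 ((mem_VQ S (rp_dom _ x hx)).1 hv)]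
  exact (ind S hn U _ (fun b hb => ⟨(bQ_dom _ b hb).1, cmm S hn (bQ_dom _ b hb).1 ▸ hL b hb⟩) x).2

theorem of_R {r : G} (hr : r ∈ S.R) : r ∈ S.N ∧ ∃ e < 1024, inR S.co e = true ∧ GE.pk (S.p r) = te e := by
  rw [R_eq] at hr
  obtain ⟨e, h1, h2, h3⟩ := (mem_sg (rk_mem _) _).1 hr.2
  exact ⟨hr.1, e, h1, inR_iff.2 h2, h3⟩

theorem to_R {r : G} (hr : r ∈ S.N) {e : ℕ} (he : e < 1024) (h : inR S.co e = true) (k : GE.pk (S.p r) = te e) :
    r ∈ S.R := by
  rw [R_eq]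
  exact ⟨hr, (mem_sg (rk_mem _) _).2 ⟨e, he, inR_iff.1 h, k⟩⟩

theorem of_T {r : G} (hr : r ∈ S.T) : ∃ e < 1024, GE.pk (S.p r) = te e := by
  obtain ⟨e, h1, -, h3⟩ := (mem_sg (k := 1023) (by decide) _).1 hr.2
  exact ⟨e, h1, h3⟩

theorem lift {e : ℕ} (he : e < 1024) (h : inR S.co e = true) : ∃ r ∈ S.R, GE.pk (S.p r) = te e := by
  obtain ⟨g, hg, k⟩ := exists_te he
  obtain ⟨a, ha, rfl⟩ := S.p_surj g (sg_le _ hg)
  exact ⟨a, to_R S ha he h k, k⟩

theorem lift_gen {i : ℕ} (hi : i ∈ gi S.co) : ∃ r ∈ S.R, GE.pk (S.p r) = gen i := by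
  obtain ⟨h1, h2, h3⟩ := gi_ok _ i hi
  rw [← te_two_pow i h1]
  exact lift S h2 h3

theorem c7' (co : Bool) {e : ℕ} (he : e < 1024) (h : inR co e = true) :
    (∀ b ∈ bV co, parB co (cm (te e) b) = true) ∧ (∀ b ∈ bQ co, zB co (cm (te e) b) = true) ∧
      ((∀ b ∈ bQ co, kerB co (cm (te e) b) = true) → e = 0) := by
  have := bimp_iff.1 (all2_iff.1 (c7 co) e he) h
  rwa [force_eq, Bool.and_eq_true, Bool.and_eq_true, bimp_iff, allL_iff, allL_iff, allL_iff, beq_iff,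
    and_assoc] at this

theorem c9' (co : Bool) {x : ℕ} (hx : x < 2048) (h : ∀ i ∈ gi co, zB co (cm (gen i) (rp co x)) = true) :
    parB co (rp co x) = true ∧ ((∀ i ∈ gi co, kerB co (cm (gen i) (rp co x)) = true) → zB co (rp co x) = true) := by
  have := all2_iff.1 (c9 co) x hx
  rw [force_eq, bimp_iff, Bool.and_eq_true, bimp_iff, allL_iff, allL_iff] at this
  exact this h

theorem c11' (co : Bool) {e : ℕ} (he : e < 1024) (h : (∀ b ∈ bQ co, zB co (cm (te e) b) = true) ∨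
    ∀ b ∈ bV co, parB co (cm (te e) b) = true) : inR co e = true := by
  have := all2_iff.1 (c11 co) e he
  rw [force_eq, bimp_iff, Bool.or_eq_true, allL_iff, allL_iff] at this
  exact this h

theorem mem_V {r : G} (hr : r ∈ S.N) (h : GE.pk (S.p r) = te 0) : r ∈ S.V :=
  (S.p_one r hr).1 (GE.pk_injective (h.trans te_zero))

end B3

open B3

variable {G : Type*} [Group G] [Finite G] (S : St G)

theorem St.z_VQ : S.z ∈ S.VQ := (mem_VQ S (zm_dom _)).2 (zm_par _)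

theorem St.card_VQ : Nat.card S.VQ = if S.co then 128 else 32 :=
  (S.card_filter (S.par_le _) _ fun x hx => (mem_VQ S (rp_dom _ x hx)).symm).trans (c2 _)

theorem St.card_R : Nat.card S.R = if S.co then 131072 else 32768 := by
  rw [R_eq, S.card_pre (sg_le _), card_sg (rk_mem _)]
  cases S.co <;> decide +kernel

theorem St.R_le_T : S.R ≤ S.T := by
  rw [R_eq]
  exact fun _ h => ⟨h.1, sg_le_T _ h.2⟩

theorem St.V_le_R : S.V ≤ S.R := S.V_le_pre _

theorem St.T_norm_R : S.T ≤ normalizer (S.R : Set G) := by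
  rw [R_eq]
  exact fun _ h => S.norm_pre h.1 (norm_sg (rk_mem' _) h.2)

theorem St.cVR {v r : G} (hv : v ∈ S.V) (hr : r ∈ S.R) : v * r * v⁻¹ * r⁻¹ ∈ S.VQ := by
  obtain ⟨hn, e, he, h, k⟩ := of_R S hr
  exact indV S hn _ (fun b hb => (mem_VQ S (cm_dom S hn (bV_dom _ b hb))).2 (k ▸ (c7' _ he h).1 b hb)) hv

theorem St.cQR {r : G} (hr : r ∈ S.R) : S.Tz S.VQ r := fun v hv => by
  obtain ⟨hn, e, he, h, k⟩ := of_R S hr
  exact (tz_iff S hn (S.par_le _ hv)).2 (indQ S hn _ (fun b hb =>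
    (mem_zp_κ S (cm_dom S hn (bQ_dom _ b hb).1)).2 (k ▸ (c7' _ he h).2.1 b hb)) hv)

theorem St.vq_of {v : G} (hv : v ∈ S.V) (h : ∀ r ∈ S.R, r * v * r⁻¹ = v ∨ r * v * r⁻¹ = S.z * v) : v ∈ S.VQ := by
  obtain ⟨x, hx, rfl⟩ := S.rp_surj hv
  refine (mem_VQ S (rp_dom _ x hx)).2 (c9' _ hx fun i hi => ?_).1
  obtain ⟨r, hr, k⟩ := lift_gen S hi
  exact k ▸ (tz_κ S (of_R S hr).1 (rp_dom _ x hx)).1 (h r hr)

theorem St.cR {v : G} (hv : v ∈ S.V) (h : ∀ r ∈ S.R, r * v = v * r) : v = 1 ∨ v = S.z := by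
  obtain ⟨x, hx, rfl⟩ := S.rp_surj hv
  have key : ∀ i ∈ gi S.co, kerB S.co (cm (gen i) (rp S.co x)) = true := fun i hi => by
    obtain ⟨r, hr, k⟩ := lift_gen S hi
    exact k ▸ kerB_iff.2 ((S.cent_κ (of_R S hr).1 (rp_dom _ x hx)).1 (h r hr))
  exact (mem_zp S).1 ((mem_zp_κ S (rp_dom _ x hx)).2
    ((c9' _ hx fun i hi => zB_iff.2 (Or.inl (kerB_iff.1 (key i hi)))).2 key))

theorem St.tzT {x : G} (hx : x ∈ S.T) (h : S.Tz S.VQ x) : x ∈ S.R := by
  obtain ⟨e, he, k⟩ := of_T S hx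
  refine to_R S hx.1 he (c11' _ he (Or.inl fun b hb => ?_)) k
  exact k ▸ (tz_κ S hx.1 (bQ_dom _ b hb).1).1 (h _ ((mem_VQ S (bQ_dom _ b hb).1).2 (bQ_dom _ b hb).2))

theorem St.tvT {x : G} (hx : x ∈ S.T) (h : ∀ v ∈ S.V, v * x * v⁻¹ * x⁻¹ ∈ S.VQ) : x ∈ S.R := by
  obtain ⟨e, he, k⟩ := of_T S hx
  refine to_R S hx.1 he (c11' _ he (Or.inr fun b hb => ?_)) k
  exact k ▸ (mem_VQ S (cm_dom S hx.1 (bV_dom _ b hb))).1 (cmm S hx.1 (bV_dom _ b hb) ▸ h _ (S.κ_mem b))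

theorem St.cVQ {r : G} (hr : r ∈ S.R) (h : ∀ v ∈ S.VQ, r * v = v * r) : r ∈ S.V := by
  obtain ⟨hn, e, he, h1, k⟩ := of_R S hr
  refine mem_V S hn (((c7' _ he h1).2.2 fun b hb => ?_) ▸ k)
  exact k ▸ kerB_iff.2 ((S.cent_κ hn (bQ_dom _ b hb).1).1 (h _ ((mem_VQ S (bQ_dom _ b hb).1).2 (bQ_dom _ b hb).2)))

theorem St.om_V (hco : S.co = true) {ω v : G} (h : S.Om ω) (hv : v ∈ S.V) : v * ω * v⁻¹ * ω⁻¹ ∈ S.VQ := by
  refine indV S h.1 _ (fun b hb => (mem_VQ S (cm_dom S h.1 (bV_dom _ b hb))).2 ?_) hv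
  rw [h.2.1]
  rw [hco] at hb ⊢
  exact allL_iff.1 c14 b hb

theorem St.om_VQ (hco : S.co = true) {ω v : G} (h : S.Om ω) (hv : v ∈ S.VQ)
    (hf : ω * v * ω⁻¹ = v ∨ ω * v * ω⁻¹ = S.z * v) : v = 1 ∨ v = S.z := by
  obtain ⟨x, hx, rfl⟩ := S.rp_surj (S.par_le _ hv)
  have h1 := (mem_VQ S (rp_dom _ x hx)).1 hv
  have h2 := (tz_κ S h.1 (rp_dom _ x hx)).1 hf
  refine (mem_zp S).1 ((mem_zp_κ S (rp_dom _ x hx)).2 ?_)
  have := all2_iff.1 c15 x hx
  rw [force_eq, bimp_iff, bimp_iff] at this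
  rw [h.2.1] at h2
  rw [hco] at h1 h2 ⊢
  exact this h1 h2

theorem St.om_R (hco : S.co = true) {ω r : G} (h : S.Om ω) (hr : r ∈ S.R) (hf : ω * r * ω⁻¹ * r⁻¹ ∈ S.V) : r ∈ S.V := by
  obtain ⟨hn, e, he, h1, k⟩ := of_R S hr
  have h2 := S.p_V hf
  rw [S.p_mul _ (mul_mem (mul_mem h.1 hn) (inv_mem h.1)) _ (inv_mem hn), S.p_conj h.1 hn, S.p_inv hn,
    mul_inv_eq_one, mul_inv_eq_iff_eq_mul] at h2
  have h3 := congrArg GE.pk h2
  rw [GE.pk_mul, GE.pk_mul, h.2.1, k] at h3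
  have := bimp_iff.1 (all2_iff.1 c16 e he) (hco ▸ h1)
  rw [force_eq, bimp_iff, beq_iff, beq_iff] at this
  exact mem_V S hn (this h3 ▸ k)

theorem St.four_e (hco : S.co = true) {v : G} (hv : v ∈ S.V) (hq : v ∉ S.VQ) :
    Nat.card ↥(S.R ⊓ H70.relCent {v} (zpowers S.z)) = 8192 := by
  obtain ⟨x, hx, rfl⟩ := S.rp_surj hv
  have hd := rp_dom S.co x hx
  have h1 : parB S.co (rp S.co x) = true ∨ ∃ c ∈ reps, parB S.co (rp S.co x ^^^ c) = true := by
    have h1 := all2_iff.1 c17 x hx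
    rw [force_eq, Bool.or_eq_true, anyL_iff] at h1
    rw [hco]
    exact h1
  obtain ⟨c, hc, h2⟩ := h1.resolve_left fun k => hq ((mem_VQ S hd).2 k)
  have cd : Dom S.co c := hco ▸ reps_dom c hc
  have h3 : S.κ (rp S.co x) * S.κ c ∈ S.VQ := S.κ_xor _ _ hd cd ▸ (mem_VQ S (hd.xor cd)).2 h2
  generalize S.κ (rp S.co x) = v at hv h3
  have hz : ∀ r ∈ S.R, r ∈ normalizer (zpowers S.z : Set G) := fun r hr =>
    centralizer_le_normalizer _ (fun y hy => by
      rcases (mem_zp S).1 hy with rfl | rfl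
      · rw [one_mul, mul_one]
      · exact (mem_centralizer_singleton_iff.1 (S.T_le_M (S.R_le_T hr)).2).symm)
  have key0 : ∀ r ∈ S.R, r ∈ H70.relCent {v} (zpowers S.z) ↔ v * r * v⁻¹ * r⁻¹ ∈ zpowers S.z := fun r hr => by
    have e : r * v * r⁻¹ * v⁻¹ = (v * r * v⁻¹ * r⁻¹)⁻¹ := by group
    refine ⟨fun k => ?_, fun k => ⟨hz r hr, ?_⟩⟩
    · have k' : r * v * r⁻¹ * v⁻¹ ∈ zpowers S.z := k.2 v rfl
      rwa [e, inv_mem_iff] at k'
    · intro y hy
      obtain rfl : y = v := hy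
      show r * y * r⁻¹ * y⁻¹ ∈ zpowers S.z
      rw [e]; exact inv_mem k
  have key : ∀ r ∈ S.R, r ∈ H70.relCent {v} (zpowers S.z) ↔ zB true (cm (GE.pk (S.p r)) c) = true := fun r hr => by
    have hn := (of_R S hr).1
    have e2 := (tz_iff S hn (S.par_le _ h3)).1 (S.cQR hr _ h3)
    rw [comm_mul S hn hv (S.κ_mem c)] at e2
    have e3 := mem_zp_κ S (cm_dom S hn cd)
    rw [← cmm S hn cd, hco] at e3
    rw [key0 r hr, ← e3]
    exact ⟨fun k => (Subgroup.mul_mem_cancel_left _ k).1 e2, fun k => (Subgroup.mul_mem_cancel_right _ k).1 e2⟩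
  have hV : S.V ≤ S.R ⊓ H70.relCent {v} (zpowers S.z) := fun w hw =>
    ⟨S.V_le_R hw, (key0 w (S.V_le_R hw)).2 (by rw [S.comm hv hw]; simp)⟩
  have hB : S.R ⊓ H70.relCent {v} (zpowers S.z) ≤ S.N := fun r hr => (of_R S hr.1).1
  rw [S.card_bar hB, inf_eq_right.2 hV, S.card_V]
  have c4 := beq_iff.1 (allL_iff.1 c18 c hc)
  rw [cntN_eq] at c4
  have lt : ∀ e < 1024, inR S.co e = true ↔ e < 64 := fun e he => by
    have := beq_iff.1 (all2_iff.1 c19 e he)
    rw [hco, ← Nat.succ_le_iff, ← ble_iff]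
    revert this
    cases inR true e <;> cases Nat.ble (Nat.succ e) 64 <;> simp
  have e4 : GE.pk '' (S.bar (S.R ⊓ H70.relCent {v} (zpowers S.z)) : Set (Equiv.Perm GolayPt)) =
      te '' ((Finset.range 64).filter fun e => zB true (cm (te e) c) = true : Finset ℕ) := by
    ext P
    simp only [Set.mem_image, SetLike.mem_coe, S.mem_bar, Finset.coe_filter, Finset.mem_range, Set.mem_ofPred_eq]
    constructor
    · rintro ⟨_, ⟨r, hr, -, rfl⟩, rfl⟩
      obtain ⟨-, e, he, h4, k⟩ := of_R S hr.1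
      exact ⟨e, ⟨(lt e he).1 h4, k ▸ (key r hr.1).1 hr.2⟩, k.symm⟩
    · rintro ⟨e, ⟨he, h4⟩, rfl⟩
      have he' : e < 1024 := by omega
      obtain ⟨r, hr, k⟩ := lift S he' ((lt e he').2 he)
      exact ⟨_, ⟨r, ⟨hr, (key r hr).2 (k ▸ h4)⟩, (of_R S hr).1, rfl⟩, k⟩
  have e5 := congrArg Set.ncard e4
  rw [Set.ncard_image_of_injective _ GE.pk_injective, Set.InjOn.ncard_image (fun a ha b hb k => by
    simp only [Finset.coe_filter, Finset.mem_range, Set.mem_ofPred_eq] at ha hb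
    exact te_inj a (by omega) b (by omega) k), Set.ncard_coe_finset, c4] at e5
  have e6 : Nat.card (S.bar (S.R ⊓ H70.relCent {v} (zpowers S.z))) = 4 := e5
  rw [e6]

end Cfsg.Agent.R24
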