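/-
Project R24 (notes/R24.md), section CIa.
-/
import Cfsg.Agent.R24.Base1
import Cfsg.Agent.R24.Base2

set_option autoImplicit false
set_option linter.unusedSectionVars false

namespace Cfsg.Agent.R24

open Subgroup Cfsg.Agent.H14

variable {G : Type*} [Group G] [Finite G] (S : St G)

def ciaQ : List ℕ := [8388609, 8388610, 8388612, 8388616, 8388640, 8404992]
def ciaI : List ℕ := [3, 5, 8388609, 40, 16392, 8208, 65552]
def ciaJ : List ℕ := [3, 5, 8388609, 40, 16392]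

noncomputable def ciaK (m : ℕ) : Bool := Nat.beq m 0 || Nat.beq m 16777215
noncomputable def ciaP (L : List ℕ) (m : ℕ) : Bool := allL L fun l => Nat.beq (pc (m &&& l) % 2) 0
noncomputable def ciaZ (P m : ℕ) : Bool := force (im P m) fun a => ciaK (a ^^^ m) || ciaK (a ^^^ (8536111 ^^^ m))
noncomputable def ciaO (m : ℕ) : Bool := Nat.beq (pc m) 8 || Nat.beq (pc (m ^^^ 16777215)) 8

theorem ciaK_iff {m : ℕ} : ciaK m = true ↔ Ker false m := by
  simp [ciaK, Ker]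

theorem ciaP_iff {L : List ℕ} {m : ℕ} : ciaP L m = true ↔ ∀ l ∈ L, pc (m &&& l) % 2 = 0 := by
  simp only [ciaP, allL_iff, beq_iff]

theorem cia_loop {f : ℕ → Bool} (h : all2 32 64 (fun x => force (enc x) f) = true) {x : ℕ} (hx : x < 2048) :
    f (enc x) = true := by
  have k := all2_iff.1 h x (by omega)
  rwa [force_eq] at k

theorem cia_cI1 : all2 32 64 (fun x => force (enc x) fun m =>
    bimp (allL [1, 2, 4, 8, 16, 32] fun e => ciaK (m ^^^ im (te e) m)) (ciaP ciaI m)) = true := by decide +kernel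
theorem cia_cI2 : all2 32 64 (fun x => force (enc x) fun m =>
    bimp (ciaP ciaI m) (allN 64 fun e => ciaK (m ^^^ im (te e) m))) = true := by decide +kernel
theorem cia_cJ : all2 32 64 (fun x => force (enc x) fun m =>
    bimp (ciaP ciaQ m || ciaP ciaI m) (ciaP ciaJ m) &&
      bimp (ciaP ciaJ m) (ciaP ciaQ m || ciaP ciaQ (m ^^^ 416040))) = true := by decide +kernel
theorem cia_c1 : all2 32 64 (fun x => force (enc x) fun m =>
    bimp (allL [1, 2, 64, 256] fun e => ciaP ciaI (m ^^^ im (te e) m)) (ciaP ciaJ m)) = true := by decide +kernel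
theorem cia_c2 : all2 16 64 (fun e => bimp (Nat.beq (e &&& 63) e)
    (bimp (allL [1, 2, 64, 256] fun f => Nat.beq (cmp (te e) (te f)) (cmp (te f) (te e))) (Nat.beq (e &&& 323) e))) = true := by
  decide +kernel
theorem cia_c3 : all2 32 64 (fun x => force (enc x) fun m =>
    bimp (ciaP ciaJ m) (ciaP ciaI m || (bimp (ciaO m) (ciaP ciaQ m) && bimp (ciaP ciaQ m) (ciaO m)))) = true := by
  decide +kernel
theorem cia_c5 : all2 32 64 (fun x => force (enc x) fun m =>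
    bimp (ciaZ (te 1) m) (bimp (ciaZ (te 2) m) (ciaP ciaJ m))) = true := by decide +kernel
theorem cia_c6 : all2 32 64 (fun x => force (enc x) fun m =>
    bimp (ciaP ciaI m) (ciaK (m ^^^ im om m))) = true := by decide +kernel
theorem cia_c7 : all2 32 64 (fun x => force (enc x) fun m =>
    bimp (ciaP ciaI m) (ciaP ciaQ m ||
      !(ciaZ (te 64) m || ciaZ (te 256) m || ciaZ (cmp (te 64) (te 256)) m))) = true := by decide +kernel

theorem cia_rep (hco : S.co = false) {v : G} (hv : v ∈ S.V) : ∃ x < 2048, Dom S.co (enc x) ∧ S.κ (enc x) = v := by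
  obtain ⟨x, hx, e⟩ := S.rp_surj hv
  have h := rp_dom S.co x hx
  rw [show rp S.co x = enc x by simp [rp, hco]] at e h
  exact ⟨x, hx, h, e⟩

theorem cia_par (hco : S.co = false) {L : List ℕ} (hL : ∀ l ∈ L, Dom true l) {m : ℕ} (hm : Dom S.co m) :
    S.κ m ∈ S.par L ↔ ciaP L m = true := by
  rw [ciaP_iff]
  exact S.mem_par_iff (by rw [hco]; exact hL) hm

theorem cia_Q (hco : S.co = false) {m : ℕ} (hm : Dom S.co m) : S.κ m ∈ S.VQ ↔ ciaP ciaQ m = true := by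
  rw [show S.VQ = S.par ciaQ by simp [St.VQ, hco, ciaQ]]
  exact cia_par S hco (by decide +kernel) hm

omit [Finite G] in
theorem cia_lift {k : ℕ} (hk : k ∈ [1023, 511, 63, 207, 323, 3]) {e : ℕ} (he : e < 1024) (h : e &&& k = e) :
    ∃ r ∈ S.pre (sg k), GE.pk (S.p r) = te e := by
  obtain ⟨g, hg, e1⟩ := exists_te he
  obtain ⟨r, hr, rfl⟩ := S.p_surj g (sg_le _ hg)
  exact ⟨r, ⟨hr, (mem_sg hk _).2 ⟨e, he, h, e1⟩⟩, e1⟩

theorem cia_Ieq (hco : S.co = false) : S.IX .cH = S.par ciaI := by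
  apply le_antisymm
  · rintro v ⟨hv, hc⟩
    obtain ⟨x, hx, hd, rfl⟩ := cia_rep S hco hv
    rw [cia_par S hco (by decide +kernel) hd]
    refine bimp_iff.1 (cia_loop cia_cI1 hx) (allL_iff.2 fun e he => ?_)
    have he' : e < 1024 ∧ e &&& 63 = e := by revert e; decide
    obtain ⟨r, hr, e1⟩ := cia_lift S (k := 63) (by simp) he'.1 he'.2
    rw [ciaK_iff, ← e1, ← hco, ← S.cent_κ hr.1 hd]
    exact hc r hr
  · intro v hv
    obtain ⟨x, hx, hd, rfl⟩ := cia_rep S hco (S.par_le _ hv)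
    rw [cia_par S hco (by decide +kernel) hd] at hv
    refine ⟨S.κ_mem _, fun r hr => ?_⟩
    obtain ⟨e, he, h1, e1⟩ := (mem_sg (k := 63) (by simp) _).1 hr.2
    have h2 : e < 64 := by rw [← h1]; exact Nat.and_lt_two_pow (n := 6) _ (by norm_num)
    have k := allN_iff.1 (bimp_iff.1 (cia_loop cia_cI2 hx) hv) e h2
    rw [ciaK_iff, ← e1, ← hco, ← S.cent_κ hr.1 hd] at k
    exact k

theorem cia_I (hco : S.co = false) {m : ℕ} (hm : Dom S.co m) : S.κ m ∈ S.IX .cH ↔ ciaP ciaI m = true := by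
  rw [cia_Ieq S hco]
  exact cia_par S hco (by decide +kernel) hm

theorem cia_Jeq (hco : S.co = false) : S.VQ ⊔ S.IX .cH = S.par ciaJ := by
  apply le_antisymm
  · refine sup_le (fun v hv => ?_) (fun v hv => ?_)
    · obtain ⟨x, hx, hd, rfl⟩ := cia_rep S hco (S.par_le _ hv)
      rw [cia_Q S hco hd] at hv
      rw [cia_par S hco (by decide +kernel) hd]
      exact bimp_iff.1 (Bool.and_eq_true_iff.1 (cia_loop cia_cJ hx)).1 (by rw [hv]; rfl)
    · obtain ⟨x, hx, hd, rfl⟩ := cia_rep S hco hv.1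
      rw [cia_I S hco hd] at hv
      rw [cia_par S hco (by decide +kernel) hd]
      exact bimp_iff.1 (Bool.and_eq_true_iff.1 (cia_loop cia_cJ hx)).1 (by rw [hv, Bool.or_true])
  · intro v hv
    obtain ⟨x, hx, hd, rfl⟩ := cia_rep S hco (S.par_le _ hv)
    rw [cia_par S hco (by decide +kernel) hd] at hv
    have d0 : Dom S.co 416040 := by rw [hco]; decide +kernel
    rcases Bool.or_eq_true_iff.1 (bimp_iff.1 (Bool.and_eq_true_iff.1 (cia_loop cia_cJ hx)).2 hv) with h | h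
    · exact mem_sup_left ((cia_Q S hco hd).2 h)
    · have e : S.κ (enc x) = S.κ (enc x ^^^ 416040) * S.κ 416040 := by
        rw [S.κ_xor _ _ hd d0, mul_assoc, S.sq (S.κ_mem _), mul_one]
      rw [e]
      exact mul_mem (mem_sup_left ((cia_Q S hco (hd.xor d0)).2 h))
        (mem_sup_right ((cia_I S hco d0).2 (by decide +kernel)))

theorem cia_J (hco : S.co = false) {m : ℕ} (hm : Dom S.co m) : S.κ m ∈ S.VQ ⊔ S.IX .cH ↔ ciaP ciaJ m = true := by
  rw [cia_Jeq S hco]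
  exact cia_par S hco (by decide +kernel) hm

omit [Finite G] in
theorem cia_R (hco : S.co = false) : S.R = S.pre (sg 323) := by simp [St.R, hco]

omit [Finite G] in
theorem cia_z (hco : S.co = false) : S.z = S.κ 8536111 := by simp [St.z, hco]

omit [Finite G] in
theorem cia_RR (hco : S.co = false) : S.R ⊓ S.RX .cH = S.pre (sg 3) := by
  rw [cia_R S hco]
  ext r
  constructor
  · rintro ⟨⟨hr, h1⟩, -, h2⟩
    obtain ⟨e, he, a1, e1⟩ := (mem_sg (k := 323) (by simp) _).1 h1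
    obtain ⟨f, hf, a2, e2⟩ := (mem_sg (k := 63) (by simp) _).1 h2
    obtain rfl := te_inj e he f hf (e1.symm.trans e2)
    refine ⟨hr, (mem_sg (by simp) _).2 ⟨e, he, ?_, e1⟩⟩
    rw [show (3 : ℕ) = 323 &&& 63 by decide, ← Nat.and_assoc, a1, a2]
  · rintro ⟨hr, h1⟩
    obtain ⟨e, he, a1, e1⟩ := (mem_sg (k := 3) (by simp) _).1 h1
    refine ⟨⟨hr, (mem_sg (by simp) _).2 ⟨e, he, ?_, e1⟩⟩, hr, (mem_sg (k := 63) (by simp) _).2 ⟨e, he, ?_, e1⟩⟩
    · rw [← a1, Nat.and_assoc]; rfl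
    · rw [← a1, Nat.and_assoc]; rfl

omit [Finite G] in
theorem cia_Z (hco : S.co = false) {r : G} (hr : r ∈ S.N) {m : ℕ} (hm : Dom S.co m) :
    (r * S.κ m * r⁻¹ = S.κ m ∨ r * S.κ m * r⁻¹ = S.z * S.κ m) ↔ ciaZ (GE.pk (S.p r)) m = true := by
  have d0 : Dom S.co 8536111 := by rw [hco]; decide +kernel
  have d1 := im_dom (S.p_mem r hr) hm
  rw [ciaZ, force_eq, Bool.or_eq_true_iff, ciaK_iff, ciaK_iff, ← hco, S.κ_conj r hr m hm, cia_z S hco,
    ← S.κ_xor _ _ d0 hm, S.κ_eq_iff d1 hm, S.κ_eq_iff d1 (d0.xor hm)]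

omit [Finite G] in
theorem cia_pc {a m : G} (ha : a ∈ S.N) (hm : m ∈ S.N) (h : m * a * m⁻¹ * a⁻¹ ∈ S.V) :
    cmp (GE.pk (S.p m)) (GE.pk (S.p a)) = cmp (GE.pk (S.p a)) (GE.pk (S.p m)) := by
  have h1 : m * a * m⁻¹ ∈ S.N := mul_mem (mul_mem hm ha) (inv_mem hm)
  rw [← S.p_one _ (mul_mem h1 (inv_mem ha)), S.p_mul _ h1 _ (inv_mem ha), S.p_conj hm ha, S.p_inv ha,
    mul_inv_eq_one, mul_inv_eq_iff_eq_mul] at h
  exact (GE.pk_mul _ _).symm.trans ((congrArg GE.pk h).trans (GE.pk_mul _ _))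

/-- notes/R24.md, section CIa -/
theorem St.ci1 (hco : S.co = false) {v : G} (hv : v ∈ S.V) (h : ∀ r ∈ S.R, v * r * v⁻¹ * r⁻¹ ∈ S.IX .cH) : v ∈ S.VQ ⊔ S.IX .cH := by
  obtain ⟨x, hx, hd, rfl⟩ := cia_rep S hco hv
  rw [cia_J S hco hd]
  refine bimp_iff.1 (cia_loop cia_c1 hx) (allL_iff.2 fun e he => ?_)
  have he' : e < 1024 ∧ e &&& 323 = e := by revert e; decide
  obtain ⟨r, hr, e1⟩ := cia_lift S (k := 323) (by simp) he'.1 he'.2
  have k := h r (by rw [cia_R S hco]; exact hr)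
  rw [S.comm_κ hr.1 hd, cia_I S hco (hd.xor (im_dom (S.p_mem r hr.1) hd)), e1] at k
  exact k

/-- notes/R24.md, section CIa -/
theorem St.ci2 (hco : S.co = false) {x : G} (hx : x ∈ S.RX .cH) (h : ∀ r ∈ S.R, x * r * x⁻¹ * r⁻¹ ∈ S.V) : x ∈ S.R := by
  obtain ⟨e, he, a1, e1⟩ := (mem_sg (k := 63) (by simp) _).1 hx.2
  have k := all2_iff.1 cia_c2 e (by omega)
  rw [bimp_iff, bimp_iff] at k
  rw [cia_R S hco] at h ⊢
  refine ⟨hx.1, (mem_sg (by simp) _).2 ⟨e, he, beq_iff.1 (k (beq_iff.2 a1) (allL_iff.2 fun f hf => ?_)), e1⟩⟩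
  have hf' : f < 1024 ∧ f &&& 323 = f := by revert f; decide
  obtain ⟨r, hr, e2⟩ := cia_lift S (k := 323) (by simp) hf'.1 hf'.2
  rw [beq_iff, ← e1, ← e2]
  exact cia_pc S hr.1 hx.1 (h r hr)

/-- notes/R24.md, section CIa -/
theorem St.ci3 (hco : S.co = false) {v : G} (hv : v ∈ S.VQ ⊔ S.IX .cH) (h : v ∉ S.IX .cH) : (∃ n ∈ S.N, n * S.z * n⁻¹ = v) ↔ v ∈ S.VQ := by
  have hv' : v ∈ S.V := by rw [cia_Jeq S hco] at hv; exact S.par_le _ hv
  obtain ⟨x, hx, hd, rfl⟩ := cia_rep S hco hv'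
  rw [cia_J S hco hd] at hv
  rw [cia_I S hco hd] at h
  rw [cia_Q S hco hd]
  have d0 : Dom S.co 8536111 := by rw [hco]; decide +kernel
  have d1 : Dom S.co 16777215 := by rw [hco]; decide +kernel
  have k := (Bool.or_eq_true_iff.1 (bimp_iff.1 (cia_loop cia_c3 hx) hv)).resolve_left h
  rw [Bool.and_eq_true_iff, bimp_iff, bimp_iff, ciaO, Bool.or_eq_true_iff, beq_iff, beq_iff] at k
  constructor
  · rintro ⟨n, hn, e⟩
    apply k.1
    have d2 := im_dom (S.p_mem n hn) d0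
    rw [cia_z S hco, S.κ_conj n hn _ d0, S.κ_eq_iff d2 hd, hco] at e
    have h8 : pc (im (GE.pk (S.p n)) 8536111) = 8 := by
      rw [← card_bits, ← smul_bits, Finset.card_smul_finset, card_bits]
      decide +kernel
    have e' : im (GE.pk (S.p n)) 8536111 ^^^ enc x = 0 ∨ im (GE.pk (S.p n)) 8536111 ^^^ enc x = 16777215 := by
      simpa [Ker] using e
    rcases e' with e | e
    · left; rw [← Nat.xor_eq_zero_iff.1 e]; exact h8
    · right; rw [← e, Nat.xor_comm (im _ _), ← Nat.xor_assoc, Nat.xor_self, Nat.zero_xor]; exact h8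
  · intro hq
    have key : ∀ m, Dom S.co m → pc m = 8 → ∃ n ∈ S.N, n * S.z * n⁻¹ = S.κ m := by
      intro m hm h8
      have hm2 : enc m = m := by have := hm.2; rw [hco] at this; simpa using this
      obtain ⟨g, hg, e⟩ := m24_octad_transitive (bits_mem_octads (m := 8536111) (by decide +kernel) (by decide +kernel))
        (bits_mem_octads hm2 h8)
      obtain ⟨n, hn, rfl⟩ := S.p_surj g hg
      rw [smul_bits] at e
      refine ⟨n, hn, ?_⟩
      rw [cia_z S hco, S.κ_conj n hn _ d0]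
      exact congrArg S.κ (bits_inj (im_dom (S.p_mem n hn) d0).1 hm.1 e)
    rcases k.2 hq with h8 | h8
    · exact key _ hd h8
    · have e1 : S.κ 16777215 = 1 := (S.κ_one _ d1).2 (by rw [hco]; decide)
      have e : S.κ (enc x) = S.κ (enc x ^^^ 16777215) := by rw [S.κ_xor _ _ hd d1, e1, mul_one]
      rw [e]
      exact key _ (hd.xor d1) h8

/-- notes/R24.md, section CIa -/
theorem St.ci4 (hco : S.co = false) : Nat.card ↥(S.VQ ⊓ S.IX .cH) = 8 ∧ Nat.card ↥(S.VQ ⊔ S.IX .cH) = 64 ∧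
    Nat.card ↥(S.R ⊓ S.RX .cH) = 8192 := by
  have er : ∀ x, rp S.co x = enc x := fun x => by simp [rp, hco]
  have hd : ∀ x < 2048, Dom S.co (enc x) := fun x hx => er x ▸ rp_dom S.co x hx
  refine ⟨?_, ?_, ?_⟩
  · rw [S.card_filter (A := S.VQ ⊓ S.IX .cH) (fun _ h => h.2.1) (fun x => force (enc x) fun m => ciaP ciaQ m && ciaP ciaI m)
      fun x hx => by rw [force_eq, er, mem_inf, cia_Q S hco (hd x hx), cia_I S hco (hd x hx), Bool.and_eq_true_iff]]
    decide +kernel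
  · rw [S.card_filter (by rw [cia_Jeq S hco]; exact S.par_le _) (fun x => force (enc x) fun m => ciaP ciaJ m)
      fun x hx => by rw [force_eq, er, cia_J S hco (hd x hx)]]
    decide +kernel
  · rw [cia_RR S hco, S.card_pre (sg_le _), card_sg (by simp)]
    decide +kernel

/-- notes/R24.md, section CIa -/
theorem St.ci5 (hco : S.co = false) {v : G} (hv : v ∈ S.V)
    (h : ∀ r ∈ S.R ⊓ S.RX .cH, r * v * r⁻¹ = v ∨ r * v * r⁻¹ = S.z * v) : v ∈ S.VQ ⊔ S.IX .cH := by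
  obtain ⟨x, hx, hd, rfl⟩ := cia_rep S hco hv
  rw [cia_J S hco hd]
  rw [cia_RR S hco] at h
  obtain ⟨r, hr, e1⟩ := cia_lift S (k := 3) (e := 1) (by simp) (by norm_num) (by decide)
  obtain ⟨s, hs, e2⟩ := cia_lift S (k := 3) (e := 2) (by simp) (by norm_num) (by decide)
  refine bimp_iff.1 (bimp_iff.1 (cia_loop cia_c5 hx) ?_) ?_
  · rw [← e1, ← cia_Z S hco hr.1 hd]; exact h r hr
  · rw [← e2, ← cia_Z S hco hs.1 hd]; exact h s hs

/-- notes/R24.md, section CIa -/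
theorem St.ci6 (hco : S.co = false) {ω : G} (hω : S.Om ω) : (∀ i ∈ S.IX .cH, ω * i = i * ω) ∧
    ∀ x ∈ S.R ⊓ S.RX .cH, ω * x * ω⁻¹ * x⁻¹ ∈ S.V → x ∈ S.V := by
  constructor
  · intro i hi
    obtain ⟨x, hx, hd, rfl⟩ := cia_rep S hco hi.1
    rw [cia_I S hco hd] at hi
    rw [S.cent_κ hω.1 hd, hω.2.1, hco, ← ciaK_iff]
    exact bimp_iff.1 (cia_loop cia_c6 hx) hi
  · intro x hx h
    rw [cia_RR S hco] at hx
    obtain ⟨e, he, a1, e1⟩ := (mem_sg (k := 3) (by simp) _).1 hx.2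
    have h2 : e < 4 := by rw [← a1]; exact Nat.and_lt_two_pow (n := 2) _ (by norm_num)
    have k := cia_pc S hx.1 hω.1 h
    rw [e1, hω.2.1] at k
    have c : ∀ e < 4, cmp om (te e) = cmp (te e) om → e = 0 := by decide +kernel
    rw [c e h2 k, te_zero, GE.pk_inj] at e1
    exact (S.p_one x hx.1).1 e1

/-- notes/R24.md, section CIa -/
theorem St.ci7 (hco : S.co = false) {i : G} (hi : i ∈ S.IX .cH) (h : i ∉ S.VQ) : ∃ a ∈ S.R, ∃ b ∈ S.R, ∀ c, c = a ∨ c = b ∨ c = a * b →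
    c * i * c⁻¹ ≠ i ∧ c * i * c⁻¹ ≠ S.z * i := by
  obtain ⟨x, hx, hd, rfl⟩ := cia_rep S hco hi.1
  rw [cia_I S hco hd] at hi
  rw [cia_Q S hco hd] at h
  obtain ⟨r, hr, e1⟩ := cia_lift S (k := 323) (e := 64) (by simp) (by norm_num) (by decide)
  obtain ⟨s, hs, e2⟩ := cia_lift S (k := 323) (e := 256) (by simp) (by norm_num) (by decide)
  have k := (Bool.or_eq_true_iff.1 (bimp_iff.1 (cia_loop cia_c7 hx) hi)).resolve_left h
  rw [Bool.not_eq_true', ← Bool.not_eq_true, Bool.or_eq_true_iff, Bool.or_eq_true_iff, not_or, not_or] at k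
  rw [cia_R S hco]
  refine ⟨r, hr, s, hs, fun c hc => ?_⟩
  rw [← not_or]
  rcases hc with rfl | rfl | rfl
  · rw [cia_Z S hco hr.1 hd, e1]; exact k.1.1
  · rw [cia_Z S hco hs.1 hd, e2]; exact k.1.2
  · rw [cia_Z S hco (mul_mem hr.1 hs.1) hd, S.p_mul _ hr.1 _ hs.1, GE.pk_mul, e1, e2]; exact k.2

end Cfsg.Agent.R24
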