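import Cfsg.Agent.R24.Base1
import Cfsg.Agent.R24.Base2
import Cfsg.Agent.H56.OctStab

set_option autoImplicit false
set_option synthInstance.maxSize 1000

namespace Cfsg.Agent.R24

open Subgroup Cfsg.Agent.H14

variable {G : Type*} [Group G] [Finite G] (S : St G)

namespace Oc

open scoped Pointwise

theorem oct : bits 8536111 ∈ octads := bits_mem_octads (by decide +kernel) (by decide +kernel)

theorem Ex_eq : Ex = H56.octK (bits 8536111) := by
  have k : all2 32 32 (fun x => decide (x &&& 323 = x → ∀ i : ℕ, i < 24 → Nat.testBit 8536111 i = true →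
      app (nat_lit 5) (nat_lit 32) (te x) i = i)) = true := by decide +kernel
  refine eq_of_le_of_card_ge (fun g hg => H56.mem_octK.2 ⟨sg_le _ hg, fun p hp => ?_⟩) ?_
  · obtain ⟨x, hx, h1, h2⟩ := (mem_sg (by decide) g).1 hg
    refine idx_injective ?_
    have := GE.app_pk g p
    rw [h2] at this
    exact this.symm.trans (of_decide_eq_true (all2_iff.1 k x hx) h1 _ (idx_lt p) (mem_bits.1 hp))
  · rw [(S0381.result _ oct).1, card_sg (by decide)]
    decide +kernel

theorem im_iff {g : Equiv.Perm GolayPt} {m : ℕ} (hm : m < 2 ^ 24) : im (GE.pk g) m = m ↔ g • bits m = bits m := by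
  rw [smul_bits]
  exact ⟨congrArg bits, bits_inj (GE.img_pk_lt _ _) hm⟩

theorem par_pair {s : Finset GolayPt} {a b : GolayPt} (hab : a ≠ b) (h : (s ∩ {a, b}).card % 2 = 0) :
    a ∈ s ↔ b ∈ s := by
  by_cases ha : a ∈ s <;> by_cases hb : b ∈ s <;> simp_all

theorem tb_im (g : Equiv.Perm GolayPt) (m : ℕ) (p : GolayPt) :
    (im (GE.pk g) m).testBit (idx p) = m.testBit (idx (g⁻¹ p)) := by
  rw [Bool.eq_iff_iff, ← mem_bits, ← mem_bits, ← smul_bits, mem_perm_smul_finset]

variable {S}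

omit [Finite G] in
theorem R_eq (hco : S.co = false) : S.R = S.pre Ex := by simp [St.R, hco]

omit [Finite G] in
theorem z_eq (hco : S.co = false) : S.z = S.κ 8536111 := by simp [St.z, hco]

theorem mem_VQ (hco : S.co = false) {m : ℕ} (hm : Dom S.co m) : S.κ m ∈ S.VQ ↔
    ∀ l ∈ [8388609, 8388610, 8388612, 8388616, 8388640, 8404992], pc (m &&& l) % 2 = 0 := by
  rw [St.VQ, if_neg (by simp [hco])]
  exact S.mem_par_iff (by rw [hco]; decide +kernel) hm

end Oc

open Oc

/-- notes/R24.md, section Oct -/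
theorem oc_E {g : Equiv.Perm GolayPt} (hg : g ∈ M24) : g ∈ Ex ↔ ∀ a ∈ bits 8536111, g a = a := by
  rw [Ex_eq, H56.mem_octK, and_iff_right hg]

/-- notes/R24.md, section Oct -/
theorem oc_norm {g : Equiv.Perm GolayPt} (hg : g ∈ M24) (h : im (GE.pk g) 8536111 = 8536111) : g ∈ normalizer (Ex : Set (Equiv.Perm GolayPt)) := by
  refine mem_normalizer_fintype fun e he => ?_
  have h1 := sg_le _ he
  refine (oc_E (mul_mem (mul_mem hg h1) (inv_mem hg))).2 fun a ha => ?_
  rw [← (im_iff (by norm_num)).1 h, mem_perm_smul_finset] at ha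
  rw [Equiv.Perm.mul_apply, Equiv.Perm.mul_apply, (oc_E h1).1 he _ ha]
  simp

/-- notes/R24.md, section Oct -/
theorem St.oc_mem (hco : S.co = false) {m : G} (hm : m ∈ S.N) : m ∈ S.C ↔ im (GE.pk (S.p m)) 8536111 = 8536111 := by
  rw [mem_centralizer_singleton_iff, z_eq hco, S.cent_κ hm (by rw [hco]; decide +kernel), hco]
  simp only [Ker, Bool.false_eq_true, if_false]
  refine ⟨fun h => h.elim (fun h => (Nat.xor_eq_zero_iff.1 h).symm) fun h => ?_, fun h => .inl (by rw [h, Nat.xor_self])⟩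
  have h1 : pc (im (GE.pk (S.p m)) 8536111) = pc 8536111 := by
    rw [← card_bits, ← smul_bits, Finset.card_smul_finset, card_bits]
  rw [show im (GE.pk (S.p m)) 8536111 = 8536111 ^^^ 16777215 by rw [← h, ← Nat.xor_assoc, Nat.xor_self, Nat.zero_xor]] at h1
  exact absurd h1 (by decide +kernel)

/-- notes/R24.md, section Oct -/
theorem St.card_M (hco : S.co = false) : Nat.card S.M = 660602880 := by
  have : S.M = S.pre (H56.octH (bits 8536111)) := by
    ext m
    exact and_congr_right fun hm => (S.oc_mem hco hm).trans ((im_iff (by norm_num)).trans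
      (and_iff_right (S.p_mem m hm)).symm)
  rw [this, S.card_pre inf_le_left, H56.card_octH oct]

/-- notes/R24.md, section Oct -/
theorem St.oc_faith (hco : S.co = false) {m : G} (hm : m ∈ S.M) (h : ∀ v ∈ S.V, v * m * v⁻¹ * m⁻¹ ∈ S.VQ) : m ∈ S.R := by
  have k : ∀ a < 24, Nat.testBit 8536111 a = true → ∀ b < 24, Nat.testBit 8536111 b = true →
      ∀ i ∈ [0, 1, 2, 3, 5, 14], (∀ c ∈ [8499969, 8436754, 8401364, 8464984, 8490656, 8439632, 8592704],
        ((Nat.testBit c 23 ^^ Nat.testBit c a) = true ↔ (Nat.testBit c i ^^ Nat.testBit c b) = true)) →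
        (a = 23 ∧ b = i) ∨ (a = i ∧ b = 23) := by decide +kernel
  have k1 : ∀ c ∈ [8499969, 8436754, 8401364, 8464984, 8490656, 8439632, 8592704], Dom false c := by decide +kernel
  have k2 : ∀ i ∈ [0, 1, 2, 3, 5, 14], i < 23 ∧ Nat.testBit 8536111 i = true ∧
      ∃ l ∈ [8388609, 8388610, 8388612, 8388616, 8388640, 8404992], bits l = {none, pt i} := by decide +kernel
  have k3 : ∀ i < 24, Nat.testBit 8536111 i = true → i = 23 ∨ i ∈ [0, 1, 2, 3, 5, 14] ∨ i = 17 := by decide +kernel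
  have hg := S.p_mem m hm.1
  have hO := (im_iff (by norm_num)).1 ((S.oc_mem hco hm.1).1 hm.2)
  have hO' : ∀ a ∈ bits 8536111, (S.p m)⁻¹ a ∈ bits 8536111 := fun a ha => by
    rwa [← hO, mem_perm_smul_finset] at ha
  have n0 : none ∈ bits 8536111 := by decide +kernel
  have key : ∀ i ∈ [0, 1, 2, 3, 5, 14], (idx ((S.p m)⁻¹ none) = 23 ∧ idx ((S.p m)⁻¹ (pt i)) = i) ∨
      (idx ((S.p m)⁻¹ none) = i ∧ idx ((S.p m)⁻¹ (pt i)) = 23) := fun i hi => by
    obtain ⟨h1, h2, l, hl, e⟩ := k2 i hi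
    have h3 : i < 24 := by omega
    refine k _ (idx_lt _) (mem_bits.1 (hO' _ n0)) _ (idx_lt _) (mem_bits.1 (hO' _ ((pt_mem_bits h3).2 h2))) i hi
      fun c hc => ?_
    have hd : Dom S.co c := hco ▸ k1 c hc
    have := h _ (S.κ_mem c)
    rw [S.comm_κ hm.1 hd, mem_VQ hco (hd.xor (im_dom hg hd))] at this
    have := this l hl
    rw [← card_bits, bits_and, e] at this
    have := par_pair (fun e => by
      have := congrArg idx e
      rw [idx_pt h3] at this
      change 23 = i at this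
      omega) this
    rwa [mem_bits, mem_bits, Nat.testBit_xor, Nat.testBit_xor, tb_im, tb_im, idx_pt h3] at this
  have f0 : idx ((S.p m)⁻¹ none) = 23 := by
    have h0 := key 0 (by simp)
    have h1 := key 1 (by simp)
    omega
  have f1 : ∀ a ∈ bits 8536111, idx a ≠ 17 → (S.p m)⁻¹ a = a := fun a ha h17 => by
    rcases k3 _ (idx_lt a) (mem_bits.1 ha) with e | e | e
    · obtain rfl : a = none := idx_injective e
      exact idx_injective f0
    · have := key _ e
      have := (k2 _ e).1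
      rw [pt_idx] at *
      exact idx_injective (by omega)
    · exact absurd e h17
  rw [R_eq hco]
  refine ⟨hm.1, inv_mem_iff.1 ((oc_E (inv_mem hg)).2 fun a ha => ?_)⟩
  by_cases h17 : idx a = 17
  · by_contra hn
    exact hn ((S.p m)⁻¹.injective (f1 _ (hO' a ha) fun e => hn (idx_injective (e.trans h17.symm))))
  · exact f1 a ha h17

/-- notes/R24.md, section Oct -/
theorem St.oc_five (hco : S.co = false) : ∃ g ∈ S.M, g ^ 5 = 1 ∧ ∀ v ∈ S.VQ, g * v * g⁻¹ = v → v = 1 ∨ v = S.z := by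
  have k : all2 32 64 (fun x => force (rp false x) fun m => decide
      ((∀ l ∈ [8388609, 8388610, 8388612, 8388616, 8388640, 8404992], pc (m &&& l) % 2 = 0) →
        Ker false (m ^^^ im 0xbb10baa8b038693935f6225c688860 m) → Ker false m ∨ Ker false (m ^^^ 8536111))) = true := by
    decide +kernel
  obtain ⟨g, hg, e⟩ := inG_M24 (P := 0xbb10baa8b038693935f6225c688860) (by decide +kernel) (by decide +kernel)
  obtain ⟨a, ha, h1, h2⟩ := S.lift_odd hg (n := 5) (by decide) (GE.pk_inj.1 (by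
    simp only [pow_succ, pow_zero, GE.pk_mul, GE.pk_one, e]; decide +kernel))
  refine ⟨a, ⟨ha, (S.oc_mem hco ha).2 (by rw [h1, e]; decide +kernel)⟩, h2, fun v hv h => ?_⟩
  obtain ⟨x, hx, rfl⟩ := S.rp_surj (S.par_le _ hv)
  have hd := rp_dom S.co x hx
  rw [mul_inv_eq_iff_eq_mul, S.cent_κ ha hd, h1, e] at h
  rw [mem_VQ hco hd] at hv
  rw [z_eq hco, S.κ_one _ hd, S.κ_eq_iff hd (by rw [hco]; decide +kernel)]
  rw [hco] at h hv ⊢
  have := all2_iff.1 k x hx
  rw [force_eq] at this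
  exact of_decide_eq_true this hv h

/-- notes/R24.md, section Oct -/
theorem St.oc_duad (hco : S.co = false) : ∃ a ∈ S.V, ∃ b ∈ S.V, ∀ c, c = a ∨ c = b ∨ c = a * b →
    ∀ v ∈ S.VQ, ∃ r ∈ S.R, v = r * c * r⁻¹ * c⁻¹ ∨ v = S.z * (r * c * r⁻¹ * c⁻¹) := by
  have k : all2 32 64 (fun x => force (rp false x) fun m => decide
      ((∀ l ∈ [8388609, 8388610, 8388612, 8388616, 8388640, 8404992], pc (m &&& l) % 2 = 0) →
        ∀ c ∈ [8499969, 69395, 8499969 ^^^ 69395], ∃ e ∈ [0, 1, 2, 3, 64, 65, 66, 67, 256, 257, 258, 259, 320, 321, 322, 323],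
          Ker false (m ^^^ (im (te e) c ^^^ c)) ∨ Ker false (m ^^^ (8536111 ^^^ (im (te e) c ^^^ c))))) = true := by
    decide +kernel
  have k1 : ∀ c ∈ [8499969, 69395, 8499969 ^^^ 69395], Dom S.co c := by rw [hco]; decide +kernel
  have k2 : ∀ e ∈ [0, 1, 2, 3, 64, 65, 66, 67, 256, 257, 258, 259, 320, 321, 322, 323], e < 1024 ∧ e &&& 323 = e := by
    decide +kernel
  refine ⟨_, S.κ_mem 8499969, _, S.κ_mem 69395, fun c hc v hv => ?_⟩
  obtain ⟨n, hn, rfl⟩ : ∃ n ∈ [8499969, 69395, 8499969 ^^^ 69395], c = S.κ n := by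
    rcases hc with rfl | rfl | rfl
    exacts [⟨_, .head _, rfl⟩, ⟨_, .tail _ (.head _), rfl⟩,
      ⟨_, .tail _ (.tail _ (.head _)), (S.κ_xor _ _ (k1 _ (.head _)) (k1 _ (.tail _ (.head _)))).symm⟩]
  obtain ⟨x, hx, rfl⟩ := S.rp_surj (S.par_le _ hv)
  have hd := rp_dom S.co x hx
  rw [mem_VQ hco hd] at hv
  have := all2_iff.1 k x hx
  rw [force_eq] at this
  obtain ⟨e, he, h⟩ := of_decide_eq_true this (hco ▸ hv) n hn
  obtain ⟨g, hg, e1⟩ := exists_te (k2 e he).1
  obtain ⟨r, hr, rfl⟩ := S.p_surj g (sg_le _ hg)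
  have d1 := k1 n hn
  have d2 := im_dom (S.p_mem r hr) d1
  have d3 : Dom S.co 8536111 := by rw [hco]; decide +kernel
  refine ⟨r, R_eq hco ▸ ⟨hr, (mem_sg (by decide) _).2 ⟨e, (k2 e he).1, (k2 e he).2, e1⟩⟩, ?_⟩
  rw [S.κ_conj r hr n d1, inv_eq_of_mul_eq_one_right (S.sq (S.κ_mem n)), ← S.κ_xor _ _ d2 d1, z_eq hco,
    ← S.κ_xor _ _ d3 (d2.xor d1), S.κ_eq_iff hd (d2.xor d1), S.κ_eq_iff hd (d3.xor (d2.xor d1)), e1, hco]
  exact h

end Cfsg.Agent.R24
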