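/-
Project R24 (notes/R24.md, section Sxt): the action of the stabiliser of the sextet on the six tetrads.
-/
import Cfsg.Agent.R24.Base1
import Cfsg.Agent.R24.Base2
import Cfsg.Agent.H14.Search

set_option autoImplicit false

namespace Cfsg.Agent.R24

open Subgroup Cfsg.Agent.H14

variable {G : Type*} [Group G] [Finite G] (S : St G)

private theorem sxt_inj : ∀ i j : Fin 6, tet i = tet j → i = j := by decide +kernel

/-- notes/R24.md, section Sxt -/
theorem sx_uniq {σ τ : Equiv.Perm (Fin 6)} {g : Equiv.Perm GolayPt} (h : Sg σ g) (h' : Sg τ g) : σ = τ :=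
  Equiv.ext fun j => sxt_inj _ _ ((h j).symm.trans (h' j))

/-- notes/R24.md, section Sxt -/
theorem sx_mul {σ τ : Equiv.Perm (Fin 6)} {g h : Equiv.Perm GolayPt} (hg : Sg σ g) (hh : Sg τ h) : Sg (σ * τ) (g * h) := by
  intro j
  rw [im_mul, hh j, hg (τ j), Equiv.Perm.mul_apply]

private theorem sxt_one : Sg 1 1 := by
  have k : ∀ j : Fin 6, im (idP (nat_lit 5) (nat_lit 24)) (tet j) = tet j := by decide +kernel
  intro j
  rw [GE.pk_one]
  exact k j

private theorem sxt_back (g : Equiv.Perm GolayPt) (j : Fin 6) :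
    im (GE.pk g⁻¹) (im (GE.pk g) (tet j)) = tet j := by
  rw [← im_mul, inv_mul_cancel]
  exact sxt_one j

private theorem sxt_inv {σ : Equiv.Perm (Fin 6)} {g : Equiv.Perm GolayPt} (hg : Sg σ g) : Sg σ⁻¹ g⁻¹ := by
  intro j
  have k := sxt_back g (σ⁻¹ j)
  have e : σ (σ⁻¹ j) = j := by simp
  rwa [hg (σ⁻¹ j), e] at k

private theorem sxt_of_fun {g : Equiv.Perm GolayPt} (f : Fin 6 → Fin 6)
    (h : ∀ j : Fin 6, im (GE.pk g) (tet j) = tet (f j)) : ∃ σ, Sg σ g ∧ ∀ j, σ j = f j := by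
  have hi : Function.Injective f := fun i j e => sxt_inj _ _ (by
    rw [← sxt_back g i, ← sxt_back g j, h i, h j, e])
  exact ⟨Equiv.ofBijective f (Finite.injective_iff_bijective.1 hi), h, fun _ => rfl⟩

/-- the test for membership in the hexacode group -/
private noncomputable def sxtH (Q : ℕ) : Bool := force Q fun Q => anyN 64 fun x => Nat.beq Q (te x)

private theorem sxtH_sound {g : Equiv.Perm GolayPt} (h : sxtH (GE.pk g) = true) : g ∈ Hx := by
  rw [sxtH, force_eq, anyN_iff] at h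
  obtain ⟨x, hx, e⟩ := h
  have k : ∀ x < 64, x &&& 63 = x := by decide +kernel
  exact (mem_sg (by decide) g).2 ⟨x, by omega, k x hx, beq_iff.1 e⟩

private theorem sxt_norm {g : Equiv.Perm GolayPt}
    (h : allN 6 (fun i => sxtH (cmp (cmp (GE.pk g) (gen i)) (ivp (GE.pk g)))) = true) :
    g ∈ normalizer (Hx : Set (Equiv.Perm GolayPt)) := by
  refine mem_normalizer_fintype fun n hn => ?_
  have hn' : n ∈ Hx := hn
  show g * n * g⁻¹ ∈ Hx
  clear hn
  induction hn' using closure_induction with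
  | mem a ha =>
    obtain ⟨i, hi, hb, e⟩ := ha
    have k : ∀ i < 10, (63 : ℕ).testBit i = true → i < 6 := by decide
    apply sxtH_sound
    rw [GE.pk_mul, GE.pk_mul, GE.pk_inv, e]
    exact allN_iff.1 h i (k i hi hb)
  | one => rw [mul_one, mul_inv_cancel]; exact one_mem _
  | mul a b _ _ ha hb =>
    have e : g * (a * b) * g⁻¹ = g * a * g⁻¹ * (g * b * g⁻¹) := by group
    rw [e]; exact mul_mem ha hb
  | inv a _ ha =>
    have e : g * a⁻¹ * g⁻¹ = (g * a * g⁻¹)⁻¹ := by group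
    rw [e]; exact inv_mem ha

private theorem sxt_om_norm {o : Equiv.Perm GolayPt} (ho : GE.pk o = om) :
    o ∈ normalizer (Hx : Set (Equiv.Perm GolayPt)) := by
  apply sxt_norm
  rw [ho]
  decide +kernel

private theorem sxt_om_cube {o : Equiv.Perm GolayPt} (ho : GE.pk o = om) : o * o * o = 1 := by
  apply GE.pk_injective
  rw [GE.pk_mul, GE.pk_mul, GE.pk_one, ho]
  decide +kernel

private theorem sxt_om_ex : ∃ o : Equiv.Perm GolayPt, GE.pk o = om :=
  GE.exists_pk_of_valid (by decide +kernel)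

private theorem sxt_gen {o : Equiv.Perm GolayPt} (ho : GE.pk o = om) {P : ℕ} {σ : Equiv.Perm (Fin 6)}
    (hv : valid (nat_lit 5) (nat_lit 32) (nat_lit 24) P = true) (hm : inM24 P = true)
    (hs : ∀ j : Fin 6, im P (tet j) = tet (σ j)) (hn : allN 6 (fun i => sxtH (cmp (cmp P (gen i)) (ivp P))) = true)
    (hi : cmp (cmp P om) (ivp P) = ivp om) (hσ : Equiv.Perm.sign σ = -1) :
    ∃ g ∈ M24, Sg σ g ∧ g ∈ normalizer (Hx : Set (Equiv.Perm GolayPt)) ∧
      g * o * g⁻¹ = if Equiv.Perm.sign σ = 1 then o else o⁻¹ := by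
  obtain ⟨g, hg, rfl⟩ := inG_M24 hv hm
  refine ⟨g, hg, hs, sxt_norm hn, ?_⟩
  rw [hσ, if_neg (by decide)]
  apply GE.pk_injective
  rw [GE.pk_mul, GE.pk_mul, GE.pk_inv, GE.pk_inv, ho]
  exact hi

private theorem sxt_lift {o : Equiv.Perm GolayPt} (ho : GE.pk o = om) (σ : Equiv.Perm (Fin 6)) :
    ∃ g ∈ M24, Sg σ g ∧ g ∈ normalizer (Hx : Set (Equiv.Perm GolayPt)) ∧
      g * o * g⁻¹ = if Equiv.Perm.sign σ = 1 then o else o⁻¹ := by
  have hσ : σ ∈ closure ({finRotate 6, Equiv.swap 0 (finRotate 6 0)} : Set (Equiv.Perm (Fin 6))) := by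
    rw [Equiv.Perm.closure_cycle_adjacent_swap (isCycle_finRotate (n := 4)) (support_finRotate (n := 4)) 0]
    exact mem_top σ
  induction hσ using closure_induction with
  | mem a ha =>
    rcases ha with rfl | rfl
    · exact sxt_gen ho (P := 0x1ad217d5b2041079dc46552cc23a25) (by decide +kernel) (by decide +kernel)
        (by decide +kernel) (by decide +kernel) (by decide +kernel) (by rw [sign_finRotate]; decide)
    · exact sxt_gen ho (P := gen 9) (by decide +kernel) (by decide +kernel)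
        (by decide +kernel) (by decide +kernel) (by decide +kernel) (Equiv.Perm.sign_swap (by decide))
  | one => exact ⟨1, one_mem _, sxt_one, one_mem _, by simp⟩
  | mul a b _ _ ha hb =>
    obtain ⟨g, hg, h1, h2, h3⟩ := ha
    obtain ⟨h, hh, k1, k2, k3⟩ := hb
    refine ⟨g * h, mul_mem hg hh, sx_mul h1 k1, mul_mem h2 k2, ?_⟩
    have e : g * h * o * (g * h)⁻¹ = g * (h * o * h⁻¹) * g⁻¹ := by group
    have e' : g * o⁻¹ * g⁻¹ = (g * o * g⁻¹)⁻¹ := by group
    rw [e, k3, map_mul]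
    rcases Int.units_eq_one_or (Equiv.Perm.sign a) with u | u <;>
      rcases Int.units_eq_one_or (Equiv.Perm.sign b) with v | v <;> rw [u] at h3 <;> rw [u, v]
    · simpa using h3
    · rw [if_neg (by decide), if_neg (by decide), e', h3, if_pos rfl]
    · rw [if_pos rfl, if_neg (by decide), h3, if_neg (by decide)]
    · rw [if_neg (by decide), if_pos (by decide), e', h3, if_neg (by decide), inv_inv]
  | inv a _ ha =>
    obtain ⟨g, hg, h1, h2, h3⟩ := ha
    refine ⟨g⁻¹, inv_mem hg, sxt_inv h1, inv_mem h2, ?_⟩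
    rw [Equiv.Perm.sign_inv]
    split_ifs at h3 ⊢ with u
    · conv_lhs => rw [← h3]
      group
    · have e : o = (g * o * g⁻¹)⁻¹ := by rw [h3, inv_inv]
      conv_lhs => rw [e]
      group

/-- notes/R24.md, section Sxt -/
theorem sx_surj (σ : Equiv.Perm (Fin 6)) : ∃ g ∈ M24, Sg σ g := by
  obtain ⟨o, ho⟩ := sxt_om_ex
  obtain ⟨g, hg, h, -⟩ := sxt_lift ho σ
  exact ⟨g, hg, h⟩

/-- notes/R24.md, section Sxt -/
theorem sx_H {g : Equiv.Perm GolayPt} (hg : g ∈ Hx) : Sg 1 g := by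
  have key : allN 64 (fun x => force (te x) fun P => allN 6 fun j => Nat.beq (im P (tet j)) (tet j)) = true := by
    decide +kernel
  obtain ⟨x, -, hx, e⟩ := (mem_sg (by decide) g).1 hg
  have hx' : x < 64 := by
    rw [← hx]; exact Nat.lt_succ_of_le Nat.and_le_right
  have k := allN_iff.1 key x hx'
  rw [force_eq, allN_iff] at k
  intro j
  rw [e]
  exact beq_iff.1 (k j j.2)

/-- notes/R24.md, section Sxt -/
theorem sx_om {o : Equiv.Perm GolayPt} (ho : GE.pk o = om) : Sg 1 o := by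
  have k : ∀ j : Fin 6, im om (tet j) = tet j := by decide +kernel
  intro j
  rw [ho]
  exact k j

/-- the permutations of the columns induced by the `te (64 s)` -/
private noncomputable def sxtF (s j : ℕ) : ℕ :=
  app (nat_lit 3) (nat_lit 8) (nth [181896, 152776, 181441, 153217, 109320, 80200, 80641, 108865, 181889, 152769,
    181448, 153224, 109313, 80193, 80648, 108872] s) j

/-- notes/R24.md, section Sxt -/
theorem sx_T {g : Equiv.Perm GolayPt} (hg : g ∈ Tx) : ∃ σ, Sg σ g ∧ Dd σ := by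
  have key : all2 32 32 (fun x => force (te x) fun P => allN 6 fun j =>
      Nat.beq (im P (tet j)) (tet (sxtF (Nat.div x 64) j))) = true := by decide +kernel
  have k2 : ∀ s < 16, (∀ j < 6, sxtF s j < 6) ∧ sxtF s 0 / 2 = 0 ∧ sxtF s 1 / 2 = 0 ∧
      sxtF s 2 / 2 = sxtF s 3 / 2 := by decide +kernel
  obtain ⟨x, hx, -, e⟩ := (mem_sg (by decide) g).1 hg
  have k := all2_iff.1 key x hx
  rw [force_eq, allN_iff] at k
  obtain ⟨h1, h2⟩ := k2 (Nat.div x 64) (by show x / 64 < 16; omega)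
  obtain ⟨σ, hσ, hf⟩ := sxt_of_fun (g := g) (fun j => ⟨sxtF (Nat.div x 64) j, h1 j j.2⟩) fun j => by
    rw [e]; exact beq_iff.1 (k j j.2)
  refine ⟨σ, hσ, ?_⟩
  rw [Dd, hf, hf, hf, hf]
  exact h2

/-- the column of a point -/
private def sxtC : ℕ := nat_lit 0x88520c2228443194a32102208000

/-- notes/R24.md, section Sxt -/
theorem sx_ker {g o : Equiv.Perm GolayPt} (hg : g ∈ M24) (h : Sg 1 g) (ho : GE.pk o = om) : ∃ h ∈ Hx, ∃ k : ℕ, g = h * o ^ k := by
  have key : allI (nat_lit 5) (nat_lit 32) (nat_lit 24) m24CertL 0 [] [(sxtC, sxtC)]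
      (fun H => sxtH H || (sxtH (cmp H om) || sxtH (cmp (cmp H om) om))) = true := by decide +kernel
  have k1 : ∀ i < 24, app (nat_lit 5) (nat_lit 32) sxtC i < 6 ∧
      (tet (app (nat_lit 5) (nat_lit 32) sxtC i)).testBit i = true := by decide +kernel
  have k2 : ∀ j < 6, ∀ i < 24, (tet j).testBit i = true → app (nat_lit 5) (nat_lit 32) sxtC i = j := by
    decide +kernel
  have h2 := m24_chain.forall_of_allI (GE.fixes_zero _) key g hg ⟨fun _ hc => absurd hc List.not_mem_nil,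
    fun d hd p => by
      rw [List.mem_singleton.1 hd]
      obtain ⟨a, b⟩ := k1 _ (GE.ix_lt p)
      refine k2 _ a _ (GE.ix_lt _) ?_
      have e : im (GE.pk g) (tet (app (nat_lit 5) (nat_lit 32) sxtC (GE.ix p))) =
        tet (app (nat_lit 5) (nat_lit 32) sxtC (GE.ix p)) := h ⟨_, a⟩
      rw [← e]
      exact (testBit_img ..).2 ⟨_, GE.ix_lt p, b, GE.app_pk g p⟩⟩
  have c := sxt_om_cube ho
  have e1 : cmp (GE.pk g) om = GE.pk (g * o) := by rw [GE.pk_mul, ho]
  have e2 : cmp (GE.pk (g * o)) om = GE.pk (g * o * o) := by rw [GE.pk_mul (g * o), ho]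
  rw [Bool.or_eq_true, Bool.or_eq_true, e1, e2] at h2
  rcases h2 with h2 | h2 | h2
  · exact ⟨g, sxtH_sound h2, 0, by rw [pow_zero, mul_one]⟩
  · refine ⟨g * o, sxtH_sound h2, 2, ?_⟩
    rw [pow_two, mul_assoc, ← mul_assoc o, c, mul_one]
  · refine ⟨g * o * o, sxtH_sound h2, 1, ?_⟩
    rw [pow_one, mul_assoc, mul_assoc, ← mul_assoc o, c, mul_one]

private theorem sxt_dec {σ : Equiv.Perm (Fin 6)} {g o : Equiv.Perm GolayPt} (hg : g ∈ M24) (h : Sg σ g)
    (ho : GE.pk o = om) : ∃ h ∈ Hx, ∃ k : ℕ, ∃ u ∈ normalizer (Hx : Set (Equiv.Perm GolayPt)),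
      g = h * o ^ k * u ∧ u * o * u⁻¹ = if Equiv.Perm.sign σ = 1 then o else o⁻¹ := by
  obtain ⟨u, hu, h1, h2, h3⟩ := sxt_lift ho σ
  have k := sx_mul h (sxt_inv h1)
  rw [mul_inv_cancel] at k
  obtain ⟨a, ha, n, e⟩ := sx_ker (mul_mem hg (inv_mem hu)) k ho
  exact ⟨a, ha, n, u, h2, by rw [← e, inv_mul_cancel_right], h3⟩

/-- notes/R24.md, section Sxt -/
theorem sx_norm {σ : Equiv.Perm (Fin 6)} {g : Equiv.Perm GolayPt} (hg : g ∈ M24) (h : Sg σ g) : g ∈ normalizer (Hx : Set (Equiv.Perm GolayPt)) := by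
  obtain ⟨o, ho⟩ := sxt_om_ex
  obtain ⟨a, ha, n, u, hu, rfl, -⟩ := sxt_dec hg h ho
  exact mul_mem (mul_mem (le_normalizer ha) (pow_mem (sxt_om_norm ho) n)) hu

/-- notes/R24.md, section Sxt -/
theorem sx_sgn {σ : Equiv.Perm (Fin 6)} {g o : Equiv.Perm GolayPt} (hg : g ∈ M24) (h : Sg σ g) (ho : GE.pk o = om) :
    ∃ h ∈ Hx, g * o * g⁻¹ = h * if Equiv.Perm.sign σ = 1 then o else o⁻¹ := by
  obtain ⟨a, ha, n, u, -, rfl, h3⟩ := sxt_dec hg h ho
  have e : a * o ^ n * u * o * (a * o ^ n * u)⁻¹ = a * (o ^ n * (u * o * u⁻¹) * (o ^ n)⁻¹) * a⁻¹ := by group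
  have hn := sxt_om_norm ho
  rw [e, h3]
  split_ifs
  · exact ⟨a * (o * a⁻¹ * o⁻¹), mul_mem ha ((mem_normalizer_iff.1 hn _).1 (inv_mem ha)), by group⟩
  · exact ⟨a * (o⁻¹ * a⁻¹ * o⁻¹⁻¹), mul_mem ha ((mem_normalizer_iff.1 (inv_mem hn) _).1 (inv_mem ha)), by group⟩

/-- notes/R24.md, section Sxt -/
theorem St.sx_mem (hco : S.co = true) {m : G} (hm : m ∈ S.N) : m ∈ S.C ↔ ∃ σ, Sg σ (S.p m) := by
  have hz : S.z = S.κ (tet 0) := by rw [St.z, if_pos hco]; rfl
  have hd : Dom S.co (tet 0) := by rw [hco]; decide +kernel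
  have k1 : ∀ j : Fin 6, Dom false (tet 0 ^^^ tet j) ∧ pc (tet j) = 4 := by decide +kernel
  have key : all2 64 64 (fun x => force (tet 0 ^^^ enc x) fun a =>
      bimp (Nat.beq (pc a) 4) (anyN 6 fun i => Nat.beq a (tet i))) = true := by decide +kernel
  rw [mem_centralizer_singleton_iff, hz, S.cent_κ hm hd, hco]
  simp only [Ker, if_true]
  constructor
  · intro h
    have hj : ∀ j : Fin 6, ∃ i : Fin 6, im (GE.pk (S.p m)) (tet j) = tet i := fun j => by
      obtain ⟨a, b⟩ := k1 j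
      have d1 : Dom false (tet 0 ^^^ im (GE.pk (S.p m)) (tet 0)) :=
        ⟨Nat.xor_lt_two_pow (by decide +kernel) (GE.img_pk_lt _ _), by simpa using h⟩
      have d2 := d1.xor (im_dom (S.p_mem m hm) a)
      rw [im_xor, Nat.xor_assoc, Nat.xor_xor_cancel_left] at d2
      obtain ⟨x, hx, e⟩ := mem_cSets_iff.1 (bits_mem_of_enc (by simpa using d2.2))
      have e2 : im (GE.pk (S.p m)) (tet j) = tet 0 ^^^ enc x := by
        rw [← bits_inj d2.1 (enc_lt hx) e, Nat.xor_xor_cancel_left]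
      have k := all2_iff.1 key x hx
      rw [force_eq, bimp_iff, ← e2, anyN_iff, beq_iff, ← card_bits, ← smul_bits, Finset.card_smul_finset,
        card_bits] at k
      obtain ⟨i, hi, e3⟩ := k b
      exact ⟨⟨i, hi⟩, beq_iff.1 e3⟩
    choose f hf using hj
    obtain ⟨σ, hσ, -⟩ := sxt_of_fun f hf
    exact ⟨σ, hσ⟩
  · rintro ⟨σ, hσ⟩
    have e : im (GE.pk (S.p m)) (tet 0) = tet (σ 0) := hσ 0
    rw [e]
    simpa using (k1 (σ 0)).1.2

end Cfsg.Agent.R24
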