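import Cfsg.Agent.R24.Base2
import Cfsg.Agent.R24.Base3
import Cfsg.Agent.R24.Sxt
import Cfsg.Agent.R24.Oct

set_option autoImplicit false

namespace Cfsg.Agent.R24

open Subgroup Cfsg.Agent.H14

variable {G : Type*} [Group G] [Finite G] (S : St G)

/-- notes/R24.md, section MN -/
theorem St.norm_R : S.M ≤ normalizer (S.R : Set G) := by
  intro m hm
  refine S.norm_pre hm.1 ?_
  cases hco : S.co
  · exact oc_norm (S.p_mem m hm.1) ((S.oc_mem hco hm.1).1 hm.2)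
  · obtain ⟨σ, hσ⟩ := (S.sx_mem hco hm.1).1 hm.2
    exact sx_norm (S.p_mem m hm.1) hσ

/-- notes/R24.md, section MN -/
theorem St.norm_VQ : S.M ≤ normalizer (S.VQ : Set G) := by
  rw [le_normalizer_iff]
  intro m hm v hv
  refine S.vq_of ((mem_normalizer_iff.1 hm.1 v).1 (S.par_le _ hv)) fun r hr => ?_
  have h1 : m⁻¹ * r * m⁻¹⁻¹ ∈ S.R := (mem_normalizer_iff.1 (S.norm_R (inv_mem hm)) r).1 hr
  have e : m * S.z = S.z * m := mem_centralizer_singleton_iff.1 hm.2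
  have k : r * (m * v * m⁻¹) * r⁻¹ = m * (m⁻¹ * r * m⁻¹⁻¹ * v * (m⁻¹ * r * m⁻¹⁻¹)⁻¹) * m⁻¹ := by group
  rcases S.cQR h1 v hv with h | h
  · left; rw [k, h]
  · right; rw [k, h, ← mul_assoc, e]; group

end Cfsg.Agent.R24
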