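/-
Project R24 (notes/R24.md, section TyF): model facts on the three types.
-/
import Cfsg.Agent.R24.Base2
import Cfsg.Agent.R24.Base1

set_option autoImplicit false

namespace Cfsg.Agent.R24

open Subgroup Cfsg.Agent.H14

namespace TyF

noncomputable def kb (co : Bool) (m : ℕ) : Bool :=
  Bool.rec (Bool.rec (Nat.beq m (nat_lit 16777215)) true (Nat.beq m (nat_lit 0))) (Nat.beq (enc m) m) co

theorem kb_iff {co : Bool} {m : ℕ} : kb co m = true ↔ Ker co m := by
  cases co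
  · show Bool.rec (Nat.beq m 16777215) true (Nat.beq m 0) = true ↔ (m = 0 ∨ m = 16777215)
    rw [← beq_iff (a := m) (b := 0), ← beq_iff (a := m) (b := 16777215)]
    cases Nat.beq m 0 <;> simp
  · exact beq_iff

/-- `P` fixes the member named by `m` -/
noncomputable def fx (co : Bool) (P m : ℕ) : Bool := force (Nat.xor m (im P m)) fun a => kb co a

theorem fx_iff {co : Bool} {P m : ℕ} : fx co P m = true ↔ Ker co (m ^^^ im P m) := by
  rw [fx, force_eq, kb_iff]; rfl

noncomputable def ev (L : List ℕ) (m : ℕ) : Bool :=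
  allL L fun l => Nat.beq (Nat.mod (pc (Nat.land m l)) (nat_lit 2)) (nat_lit 0)

theorem ev_iff {L : List ℕ} {m : ℕ} : ev L m = true ↔ ∀ l ∈ L, pc (m &&& l) % 2 = 0 := by
  rw [ev, allL_iff]
  exact forall₂_congr fun l _ => beq_iff

noncomputable def gl : Ty → List ℕ
  | .cH => [gen 0, gen 1, gen 2, gen 3, gen 4, gen 5]
  | .oE => [gen 0, gen 1, gen 6, gen 8]
  | .oF => [gen 0, gen 1, gen 2, gen 3, gen 6, gen 7]

theorem mem_gl {y : Ty} {P : ℕ} : P ∈ gl y ↔ ∃ i < 10, y.msk.testBit i = true ∧ P = gen i := by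
  constructor
  · revert P
    cases y <;> decide +kernel
  · rintro ⟨i, hi, h, rfl⟩
    revert i
    cases y <;> decide +kernel

noncomputable def inI (y : Ty) (m : ℕ) : Bool := allL (gl y) fun P => fx y.co P m

def BV : Bool → List ℕ
  | false => [13062145, 4845570, 13938692, 7221256, 10170384, 11952160, 15515712, 2019456, 4038912, 8077824, 11654144]
  | true => [8392704, 8396800, 8404992, 8421376, 8454144, 8519680, 8650752, 8912896, 9437184, 10485760, 12582912]

def BW : Ty → List ℕ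
  | .cH => [13062145, 0, 13938692, 7221256, 13811730, 16748578, 10825794, 2019456, 4038912, 8077824, 16262146]
  | .oE => [0, 12288, 8404992, 36864, 69632, 8519680, 266240, 528384, 1052672, 2101248, 4198400]
  | .oF => [0, 12288, 8404992, 0, 69632, 8519680, 266240, 557056, 1081344, 2129920, 4198400]

def TR : Ty → List ℕ
  | .cH => [4845570]
  | .oE => [8392704]
  | .oF => [8392704, 8421376, 36864]

theorem rp_BV (co : Bool) : ∀ x < 2048, rp co x = encL (BV co) x := by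
  have h : all2 32 64 (fun x => Nat.beq (rp co x) (encL (BV co) x)) = true := by
    cases co <;> decide +kernel
  exact fun x hx => beq_iff.1 (all2_iff.1 h x hx)

theorem rp_BW (y : Ty) : ∀ x < 2048, ev y.lw (rp y.co x) = true → rp y.co x = encL (BW y) x := by
  have h : all2 32 64 (fun x => force (rp y.co x) fun m => bimp (ev y.lw m) (Nat.beq m (encL (BW y) x))) = true := by
    cases y <;> decide +kernel
  intro x hx h1
  have := all2_iff.1 h x hx
  rw [force_eq, bimp_iff] at this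
  exact beq_iff.1 (this h1)

theorem rp_TR (y : Ty) : ∀ x < 2048, ev y.lw (rp y.co x) = true ∨ ∃ t ∈ TR y, ev y.lw (t ^^^ rp y.co x) = true := by
  have h : all2 32 64 (fun x => force (rp y.co x) fun m =>
      ev y.lw m || anyL (TR y) fun t => ev y.lw (Nat.xor t m)) = true := by
    cases y <;> decide +kernel
  intro x hx
  have := all2_iff.1 h x hx
  rw [force_eq, Bool.or_eq_true, anyL_iff] at this
  exact this

theorem lw_dom (y : Ty) : ∀ l ∈ y.lw, Dom (!y.co) l := by cases y <;> decide +kernel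
theorem BV_dom (co : Bool) : ∀ l ∈ BV co, Dom co l := by cases co <;> decide +kernel
theorem BW_dom (y : Ty) : ∀ l ∈ BW y, Dom y.co l := by cases y <;> decide +kernel
theorem TR_dom (y : Ty) : ∀ l ∈ TR y, Dom y.co l := by cases y <;> decide +kernel
theorem msk_mem (y : Ty) : y.msk ∈ [1023, 511, 63, 207, 323, 3] := by cases y <;> decide
theorem msk_mem' (y : Ty) : y.msk ∈ [63, 207, 323] := by cases y <;> decide

/-- a check over the members of `sg y.msk` -/
noncomputable def allX (y : Ty) (f : ℕ → ℕ → Bool) : Bool :=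
  all2 32 32 fun e => bimp (Nat.beq (Nat.land e y.msk) e) (force (te e) fun P => f e P)

theorem allX_iff {y : Ty} {f : ℕ → ℕ → Bool} (h : allX y f = true) {e : ℕ} (he : e < 1024) (h1 : e &&& y.msk = e) :
    f e (te e) = true := by
  have := all2_iff.1 h e he
  rw [bimp_iff, force_eq] at this
  exact this (beq_iff.2 h1)

theorem ckV (y : Ty) : allX y (fun _ P => allL (BV y.co) fun b => force (Nat.xor b (im P b)) fun c => ev y.lw c) = true := by
  cases y <;> decide +kernel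

theorem ckW (y : Ty) : allX y (fun _ P => allL (BW y) fun b => force (Nat.xor b (im P b)) fun c => inI y c) = true := by
  cases y <;> decide +kernel

theorem ckF (y : Ty) : allX y (fun e P => Nat.beq e (nat_lit 0) ||
    allL (TR y) fun b => force (Nat.xor b (im P b)) fun c => !inI y c) = true := by
  cases y <;> decide +kernel

theorem ckI (y : Ty) : cnt2 32 64 (fun x => force (rp y.co x) fun m => inI y m) = y.ni := by
  cases y <;> decide +kernel

theorem ckWc (y : Ty) : cnt2 32 64 (fun x => force (rp y.co x) fun m => ev y.lw m) = y.ni * y.nx := by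
  cases y <;> decide +kernel

theorem ckIW (y : Ty) : all2 32 64 (fun x => force (rp y.co x) fun m => ev y.lw m || !inI y m) = true := by
  cases y <;> decide +kernel

def LQ (co : Bool) : List ℕ :=
  if co then [8536111, 12656663, 8657159, 11010247] else [8388609, 8388610, 8388612, 8388616, 8388640, 8404992]

theorem LQ_dom (co : Bool) : ∀ l ∈ LQ co, Dom (!co) l := by cases co <;> decide +kernel

theorem ckQ (y : Ty) : all2 32 64 (fun x => force (rp y.co x) fun m => bimp (ev (LQ y.co) m) (ev y.lw m)) = true := by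
  cases y <;> decide +kernel

theorem ckX {y : Ty} (hy : y ≠ .oE) : all2 32 64 (fun x => force (rp y.co x) fun m =>
    (anyL (gl y) fun P => !fx y.co P m && anyL (gl y).reverse fun Q => force (im Q m) fun a =>
      !kb y.co (Nat.xor m a) && force (Nat.xor m (im P a)) fun c => !kb y.co c) || inI y m) = true := by
  cases y
  · decide +kernel
  · exact absurd rfl hy
  · decide +kernel

theorem span_ind {P : ℕ → Prop} (h0 : P 0) (hx : ∀ a b, P a → P b → P (a ^^^ b)) {rs : List ℕ}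
    (h : ∀ r ∈ rs, P r) (x : ℕ) : P (encL rs x) := by
  induction rs generalizing x with
  | nil => exact h0
  | cons r rs ih =>
    rw [encL_cons]
    refine hx _ _ ?_ (ih (fun s hs => h s (List.mem_cons_of_mem _ hs)) _)
    rcases Nat.mod_two_eq_zero_or_one x with hx | hx <;> rw [hx]
    · rw [Nat.mul_zero]; exact h0
    · rw [Nat.mul_one]; exact h r List.mem_cons_self

theorem exists_gen {i : ℕ} (hi : i < 10) : ∃ g : Equiv.Perm GolayPt, GE.pk g = gen i := by
  obtain ⟨g, -, hg⟩ := exists_te (x := 2 ^ i) (Nat.pow_lt_pow_right (by norm_num) hi)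
  exact ⟨g, hg.trans (te_two_pow i hi)⟩

theorem gen_mem {k i : ℕ} (hi : i < 10) (hk : k.testBit i = true) {g : Equiv.Perm GolayPt} (hg : GE.pk g = gen i) :
    g ∈ sg k := subset_closure ⟨i, hi, hk, hg⟩

theorem norm_of {k : ℕ} (hk : k ∈ [1023, 511, 63, 207, 323, 3]) {g : Equiv.Perm GolayPt} (W : List ℕ)
    (h : allN 10 (fun i => bimp (tb k i) (force (nth W i) fun e => Nat.ble e (nat_lit 1023) &&
      Nat.beq (Nat.land e k) e && Nat.beq (comp3 (nat_lit 5) (nat_lit 32) (nat_lit 24) (GE.pk g) (gen i)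
        (ivp (GE.pk g))) (te e))) = true) : g ∈ normalizer (sg k : Set (Equiv.Perm GolayPt)) := by
  refine Subgroup.mem_normalizer_fintype fun a ha => ?_
  induction ha using closure_induction with
  | mem a ha =>
    obtain ⟨i, hi, h1, h2⟩ := ha
    have := allN_iff.1 h i hi
    rw [bimp_iff, tb_eq, force_eq, Bool.and_eq_true, Bool.and_eq_true, ble_iff, beq_iff, beq_iff] at this
    obtain ⟨⟨h3, h4⟩, h5⟩ := this h1
    refine (mem_sg hk _).2 ⟨nth W i, Nat.lt_succ_of_le h3, h4, ?_⟩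
    rw [GE.pk_mul3, GE.pk_inv, h2]; exact h5
  | one => simp
  | mul a b _ _ h1 h2 =>
    have : g * (a * b) * g⁻¹ = g * a * g⁻¹ * (g * b * g⁻¹) := by group
    rw [this]; exact mul_mem h1 h2
  | inv a _ h1 =>
    have : g * a⁻¹ * g⁻¹ = (g * a * g⁻¹)⁻¹ := by group
    rw [this]; exact inv_mem h1

theorem ag_le (y : Ty) : Ag y.co ≤ normalizer (sg y.msk : Set (Equiv.Perm GolayPt)) := by
  refine sup_le ?_ ((closure_le _).2 ?_)
  · refine le_trans ?_ (norm_sg (msk_mem' y))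
    split <;> exact sg_le_T _
  · rintro g (h | ⟨h1, h⟩)
    · cases y
      · exact norm_of (msk_mem _) [2, 3, 8, 12, 32, 48, 0, 0, 0, 0] (by rw [h]; decide +kernel)
      · exact norm_of (msk_mem _) [2, 3, 0, 0, 0, 0, 64, 0, 256, 0] (by rw [h]; decide +kernel)
      · exact norm_of (msk_mem _) [2, 3, 8, 12, 0, 0, 64, 128, 0, 0] (by rw [h]; decide +kernel)
    · cases y
      · exact norm_of (msk_mem _) [2, 3, 46, 55, 17, 34, 0, 0, 0, 0] (by rw [h]; decide +kernel)
      · exact absurd h1 (by decide)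
      · exact absurd h1 (by decide)

variable {G : Type*} [Group G] [Finite G] (S : St G)

omit [Finite G] in
theorem lift_gen {k i : ℕ} (hi : i < 10) (hk : k.testBit i = true) : ∃ n ∈ S.pre (sg k), GE.pk (S.p n) = gen i := by
  obtain ⟨g, hg⟩ := exists_gen hi
  have h1 := gen_mem hi hk hg
  obtain ⟨n, hn, e⟩ := S.p_surj g (sg_le k h1)
  exact ⟨n, ⟨hn, e ▸ h1⟩, e ▸ hg⟩

omit [Finite G] in
theorem pre_le {k : ℕ} {K : Subgroup G} (hV : S.V ≤ K)
    (h : ∀ i < 10, k.testBit i = true → ∀ n ∈ S.N, GE.pk (S.p n) = gen i → n ∈ K) : S.pre (sg k) ≤ K := by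
  have h1 : sg k ≤ S.bar K := (closure_le _).2 (by
    rintro g ⟨i, hi, h2, h3⟩
    obtain ⟨n, hn, e⟩ := S.p_surj g (sg_le k (gen_mem hi h2 h3))
    exact S.mem_bar.2 ⟨n, h i hi h2 n hn (e ▸ h3), hn, e⟩)
  intro r hr
  obtain ⟨b, hb, hn, e⟩ := S.mem_bar.1 (h1 hr.2)
  have := mul_mem hb (hV ((S.p_eq_iff hn hr.1).1 e))
  rwa [mul_inv_cancel_left] at this

theorem mem_IX {y : Ty} (ok : S.co = y.co) {m : ℕ} (hm : Dom y.co m) : S.κ m ∈ S.IX y ↔ inI y m = true := by
  rw [inI, allL_iff]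
  have hm' : Dom S.co m := ok ▸ hm
  constructor
  · intro h P hP
    obtain ⟨i, hi, h1, rfl⟩ := mem_gl.1 hP
    obtain ⟨n, hn, e⟩ := lift_gen S hi h1
    rw [fx_iff, ← e, ← ok, ← S.cent_κ hn.1 hm']
    exact h.2 n hn
  · intro h
    refine ⟨S.κ_mem m, fun r hr => ?_⟩
    have : S.RX y ≤ centralizer ({S.κ m} : Set G) := by
      refine pre_le S (fun v hv => mem_centralizer_singleton_iff.2 (S.comm hv (S.κ_mem m))) fun i hi h1 n hn e => ?_
      rw [mem_centralizer_singleton_iff, S.cent_κ hn hm', e, ok, ← fx_iff]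
      exact h _ (mem_gl.2 ⟨i, hi, h1, rfl⟩)
    exact mem_centralizer_singleton_iff.1 (this hr)

theorem mem_par {L : List ℕ} {co : Bool} (ok : S.co = co) (hL : ∀ l ∈ L, Dom (!co) l) {m : ℕ} (hm : Dom co m) :
    S.κ m ∈ S.par L ↔ ev L m = true := by
  subst ok
  rw [ev_iff, S.mem_par_iff hL hm]

theorem mem_WX {y : Ty} (ok : S.co = y.co) {m : ℕ} (hm : Dom y.co m) : S.κ m ∈ S.WX y ↔ ev y.lw m = true :=
  mem_par S ok (lw_dom y) hm

omit [Finite G] in
theorem comm_mul {a b r : G} (ha : a ∈ S.V) (hb : b ∈ S.V) (hr : r ∈ S.N) :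
    a * b * r * (a * b)⁻¹ * r⁻¹ = a * r * a⁻¹ * r⁻¹ * (b * r * b⁻¹ * r⁻¹) := by
  have h1 : r * a⁻¹ * r⁻¹ ∈ S.V := (mem_normalizer_iff.1 hr _).1 (inv_mem ha)
  have h2 : b * (r * b⁻¹ * r⁻¹) ∈ S.V := mul_mem hb ((mem_normalizer_iff.1 hr _).1 (inv_mem hb))
  calc a * b * r * (a * b)⁻¹ * r⁻¹ = a * (b * (r * b⁻¹ * r⁻¹) * (r * a⁻¹ * r⁻¹)) := by group
    _ = a * (r * a⁻¹ * r⁻¹ * (b * (r * b⁻¹ * r⁻¹))) := by rw [S.comm h2 h1]
    _ = _ := by group

theorem comm_span {r : G} (hr : r ∈ S.N) {K : Subgroup G} {B : List ℕ} (hB : ∀ b ∈ B, Dom S.co b)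
    (h : ∀ b ∈ B, S.κ (b ^^^ im (GE.pk (S.p r)) b) ∈ K) (x : ℕ) :
    S.κ (encL B x) * r * (S.κ (encL B x))⁻¹ * r⁻¹ ∈ K := by
  refine (span_ind (P := fun m => Dom S.co m ∧ S.κ m * r * (S.κ m)⁻¹ * r⁻¹ ∈ K) ⟨dom_zero _, ?_⟩ ?_ ?_ x).2
  · rw [S.κ_zero]; simp
  · rintro a b ⟨ha, h1⟩ ⟨hb, h2⟩
    refine ⟨ha.xor hb, ?_⟩
    rw [S.κ_xor _ _ ha hb, comm_mul S (S.κ_mem a) (S.κ_mem b) hr]
    exact mul_mem h1 h2
  · intro b hb
    refine ⟨hB b hb, ?_⟩
    rw [S.comm_κ hr (hB b hb)]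
    exact h b hb

omit [Finite G] in
theorem c_dom {co : Bool} {r : G} (hr : r ∈ S.N) {b : ℕ} (hb : Dom co b) : Dom co (b ^^^ im (GE.pk (S.p r)) b) :=
  hb.xor (im_dom (S.p_mem r hr) hb)

end TyF

open TyF

variable {G : Type*} [Group G] [Finite G] (S : St G)

/-- notes/R24.md, section TyF -/
theorem St.cVX {y : Ty} (ok : S.co = y.co) {v r : G} (hv : v ∈ S.V) (hr : r ∈ S.RX y) : v * r * v⁻¹ * r⁻¹ ∈ S.WX y := by
  obtain ⟨x, hx, rfl⟩ := S.rp_surj hv
  obtain ⟨e, he, h1, h2⟩ := (mem_sg (msk_mem y) _).1 hr.2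
  rw [rp_BV _ x hx]
  refine comm_span S hr.1 (BV_dom _) (fun b hb => ?_) x
  rw [ok] at hb
  rw [mem_WX S ok (c_dom S hr.1 (BV_dom _ b hb)), h2]
  have := allL_iff.1 (allX_iff (ckV y) he h1) b hb
  rwa [force_eq] at this

/-- notes/R24.md, section TyF -/
theorem St.cWX {y : Ty} (ok : S.co = y.co) {w r : G} (hw : w ∈ S.WX y) (hr : r ∈ S.RX y) : w * r * w⁻¹ * r⁻¹ ∈ S.IX y := by
  obtain ⟨x, hx, rfl⟩ := S.rp_surj (S.par_le _ hw)
  obtain ⟨e, he, h1, h2⟩ := (mem_sg (msk_mem y) _).1 hr.2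
  rw [ok] at hw ⊢
  rw [rp_BW y x hx ((mem_WX S ok (rp_dom _ x hx)).1 hw)]
  refine comm_span S hr.1 (ok ▸ BW_dom y) (fun b hb => ?_) x
  rw [mem_IX S ok (c_dom S hr.1 (BW_dom _ b hb)), h2]
  have := allL_iff.1 (allX_iff (ckW y) he h1) b hb
  rwa [force_eq] at this

/-- notes/R24.md, section TyF -/
theorem St.freeX {y : Ty} (ok : S.co = y.co) {v r : G} (hv : v ∈ S.V) (hw : v ∉ S.WX y) (hr : r ∈ S.RX y)
    (h : v * r * v⁻¹ * r⁻¹ ∈ S.IX y) : r ∈ S.V := by
  obtain ⟨x, hx, rfl⟩ := S.rp_surj hv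
  obtain ⟨e, he, h1, h2⟩ := (mem_sg (msk_mem y) _).1 hr.2
  rw [ok] at hw h hv
  have hd := rp_dom y.co x hx
  rcases rp_TR y x hx with h3 | ⟨t, ht, h3⟩
  · exact absurd ((mem_WX S ok hd).2 h3) hw
  have hT := TR_dom y t ht
  have h4 := S.cWX ok ((mem_WX S ok (hT.xor hd)).2 h3) hr
  rw [S.κ_xor _ _ (ok ▸ hT) (ok ▸ hd), comm_mul S (S.κ_mem t) hv hr.1, mul_mem_cancel_right h,
    S.comm_κ hr.1 (ok ▸ hT), mem_IX S ok (c_dom S hr.1 hT), h2] at h4
  have h5 := allX_iff (ckF y) he h1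
  rw [Bool.or_eq_true, beq_iff, allL_iff] at h5
  rcases h5 with h5 | h5
  · have h6 : e = 0 := h5
    rw [h6, te_zero, GE.pk_inj] at h2
    exact (S.p_one r hr.1).1 h2
  · have h6 := h5 t ht
    rw [force_eq] at h6
    have h7 : (!inI y (t ^^^ im (te e) t)) = true := h6
    rw [h4] at h7
    exact absurd h7 (by decide)

/-- notes/R24.md, section TyF -/
theorem St.card_IX {y : Ty} (ok : S.co = y.co) : Nat.card (S.IX y) = y.ni := by
  rw [← ckI]
  refine S.card_filter inf_le_left _ fun x hx => ?_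
  rw [force_eq, ok, mem_IX S ok (rp_dom _ x hx)]

/-- notes/R24.md, section TyF -/
theorem St.card_WX {y : Ty} (ok : S.co = y.co) : Nat.card (S.WX y) = y.ni * y.nx := by
  rw [← ckWc]
  refine S.card_filter (S.par_le _) _ fun x hx => ?_
  rw [force_eq, ok, mem_WX S ok (rp_dom _ x hx)]

/-- notes/R24.md, section TyF -/
theorem St.card_RX (y : Ty) : Nat.card (S.RX y) = 2048 * y.nx := by
  rw [S.card_pre (sg_le _), card_sg (msk_mem y)]
  cases y <;> decide +kernel

/-- notes/R24.md, section TyF -/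
theorem St.z_IX {y : Ty} (ok : S.co = y.co) : S.z ∈ S.IX y := by
  rw [St.z, ok, mem_IX S ok (by cases y <;> decide +kernel)]
  cases y <;> decide +kernel

/-- notes/R24.md, section TyF -/
theorem St.VQ_le_WX {y : Ty} (ok : S.co = y.co) : S.VQ ≤ S.WX y := by
  intro v hv
  obtain ⟨x, hx, rfl⟩ := S.rp_surj (S.par_le _ hv)
  have h1 : S.κ (rp S.co x) ∈ S.par (LQ S.co) := hv
  rw [TyF.mem_par S rfl (LQ_dom _) (rp_dom _ x hx), ok] at h1
  rw [ok, mem_WX S ok (rp_dom _ x hx)]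
  have := all2_iff.1 (ckQ y) x hx
  rw [force_eq, bimp_iff] at this
  exact this h1

/-- notes/R24.md, section TyF -/
theorem St.IX_le_WX {y : Ty} (ok : S.co = y.co) : S.IX y ≤ S.WX y := by
  intro v hv
  obtain ⟨x, hx, rfl⟩ := S.rp_surj hv.1
  rw [ok, mem_IX S ok (rp_dom _ x hx)] at hv
  rw [ok, mem_WX S ok (rp_dom _ x hx)]
  have := all2_iff.1 (ckIW y) x hx
  rw [force_eq, hv] at this
  simpa using this

/-- notes/R24.md, section TyF -/
theorem St.t0_not {y : Ty} (ok : S.co = y.co) : Dom S.co y.t0 ∧ S.κ y.t0 ∉ S.WX y := by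
  have h : Dom y.co y.t0 := by cases y <;> decide +kernel
  refine ⟨ok ▸ h, ?_⟩
  rw [mem_WX S ok h]
  cases y <;> decide +kernel

/-- notes/R24.md, section TyF -/
theorem St.ag_norm {y : Ty} (ok : S.co = y.co) : S.pre (Ag S.co) ≤ normalizer (S.RX y : Set G) := by
  rw [ok]
  exact fun n hn => S.norm_pre hn.1 (ag_le y hn.2)

/-- notes/R24.md, section TyF -/
theorem St.fixX {y : Ty} (ok : S.co = y.co) (hy : y ≠ .oE) {B : Subgroup G} (hB : B ≤ S.RX y)
    (hc : 32 * Nat.card ↥(B ⊓ S.V) ≤ Nat.card B) {v : G} (hv : v ∈ S.V) (h : ∀ b ∈ B, b * v = v * b) : v ∈ S.IX y := by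
  obtain ⟨x, hx, rfl⟩ := S.rp_surj hv
  have hd := rp_dom S.co x hx
  have hN : B ≤ S.N := hB.trans (S.pre_le _)
  have h1 : 32 ≤ Nat.card (S.bar B) := by
    rw [S.card_bar hN, Nat.mul_comm] at hc
    exact Nat.le_of_mul_le_mul_left hc Nat.card_pos
  have h2 : S.bar B ≤ sg y.msk := fun g hg => by
    obtain ⟨b, hb, -, rfl⟩ := S.mem_bar.1 hg
    exact (hB hb).2
  have h3 : Nat.card (sg y.msk) = 64 := by
    rw [card_sg (msk_mem y)]
    cases y
    · decide +kernel
    · exact absurd rfl hy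
    · decide +kernel
  have h4 := ((S.bar B).subgroupOf (sg y.msk)).card_mul_index
  rw [h3, Nat.card_congr (subgroupOfEquivOfLe h2).toEquiv] at h4
  have h5 : ∀ a ∈ sg y.msk, ∀ b ∈ sg y.msk, a ∈ S.bar B ∨ b ∈ S.bar B ∨ a * b ∈ S.bar B := by
    intro a ha b hb
    have h6 : ((S.bar B).subgroupOf (sg y.msk)).index = 1 ∨ ((S.bar B).subgroupOf (sg y.msk)).index = 2 := by
      have h7 : ((S.bar B).subgroupOf (sg y.msk)).index ≠ 0 := by
        intro h7; rw [h7] at h4; omega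
      have h8 : ((S.bar B).subgroupOf (sg y.msk)).index < 3 := by nlinarith
      omega
    rcases h6 with h6 | h6
    · left
      have : (⟨a, ha⟩ : sg y.msk) ∈ (S.bar B).subgroupOf (sg y.msk) := by rw [index_eq_one.1 h6]; trivial
      exact this
    · have := mul_mem_iff_of_index_two h6 (a := ⟨a, ha⟩) (b := ⟨b, hb⟩)
      simp only [mem_subgroupOf, coe_mul] at this
      tauto
  have h6 : ∀ g ∈ S.bar B, kb y.co (rp y.co x ^^^ im (GE.pk g) (rp y.co x)) = true := by
    intro g hg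
    obtain ⟨b, hb, hn, rfl⟩ := S.mem_bar.1 hg
    rw [kb_iff, ← ok, ← S.cent_κ hn hd]
    exact h b hb
  rw [ok, mem_IX S ok (rp_dom _ x hx)]
  have h7 := all2_iff.1 (ckX hy) x hx
  rw [force_eq, Bool.or_eq_true, anyL_iff] at h7
  refine h7.resolve_left ?_
  rintro ⟨P, hP, h8⟩
  rw [Bool.and_eq_true, anyL_iff] at h8
  obtain ⟨h8, Q, hQ, h9⟩ := h8
  rw [force_eq, Bool.and_eq_true, force_eq] at h9
  rw [fx, force_eq] at h8
  obtain ⟨i, hi, hi', rfl⟩ := mem_gl.1 hP
  obtain ⟨j, hj, hj', rfl⟩ := mem_gl.1 (List.mem_reverse.1 hQ)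
  obtain ⟨a, ha⟩ := exists_gen hi
  obtain ⟨b, hb⟩ := exists_gen hj
  rcases h5 a (gen_mem hi hi' ha) b (gen_mem hj hj' hb) with k | k | k
  · have k1 := h6 _ k
    rw [ha] at k1
    have k2 : (!kb y.co (rp y.co x ^^^ im (gen i) (rp y.co x))) = true := h8
    rw [k1] at k2
    exact absurd k2 (by decide)
  · have k1 := h6 _ k
    rw [hb] at k1
    have k2 : (!kb y.co (rp y.co x ^^^ im (gen j) (rp y.co x))) = true := h9.1
    rw [k1] at k2
    exact absurd k2 (by decide)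
  · have k1 := h6 _ k
    rw [im_mul, ha, hb] at k1
    have k2 : (!kb y.co (rp y.co x ^^^ im (gen i) (im (gen j) (rp y.co x)))) = true := h9.2
    rw [k1] at k2
    exact absurd k2 (by decide)

end Cfsg.Agent.R24
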