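import Cfsg.Agent.R24.Defs2
import Cfsg.Agent.R24.Base1
import Cfsg.Agent.R24.Base2
import Cfsg.Agent.R24.TyF
import Cfsg.Agent.R24.PsiC

set_option autoImplicit false

namespace Cfsg.Agent.R24

open Subgroup Cfsg.Agent.H14

variable {G : Type*} [Group G] [Finite G] (S : St G)

theorem psi_msk (y : Ty) : y.msk ∈ [63, 207, 323] := by cases y <;> decide

theorem psi_msk' (y : Ty) : y.msk ∈ [1023, 511, 63, 207, 323, 3] := by cases y <;> decide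

theorem psi_lt {y : Ty} {e : ℕ} (h : e &&& y.msk = e) : e < 1024 :=
  lt_of_le_of_lt (h ▸ Nat.and_le_right) (by cases y <;> decide)

theorem psi_par (y : Ty) : ∀ P ∈ y.gens, ∀ l ∈ y.lw, pc ((y.t0 ^^^ im P y.t0) &&& l) % 2 = 0 := by
  cases y <;> decide +kernel

theorem psi_gen (y : Ty) : ∀ i < 10, (if y.co then 63 else 323 : ℕ).testBit i = true → gen i ∈ y.gens := by
  cases y <;> decide +kernel

theorem psi_om (y : Ty) : om ∈ y.gens ∧ (y.co = false → dl ∈ y.gens) := by cases y <;> decide +kernel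

theorem psi_in : inM24 om = true ∧ inM24 dl = true := by decide +kernel

namespace St

/-- the commutator with the fixed element outside `WX` -/
def psiC (y : Ty) (s : G) : G := S.κ y.t0 * s * (S.κ y.t0)⁻¹ * s⁻¹

/-- the property to be proved -/
def PsiP (A B : Subgroup G) (g : G) : Prop :=
  ∀ a ∈ A, ∀ v ∈ S.V, a * v ∈ B → ∀ a' ∈ A, a'⁻¹ * (g * a * g⁻¹) ∈ S.V → a' * (g * v * g⁻¹) ∈ B

variable {S} {y : Ty} {A B : Subgroup G}

omit [Finite G] in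
theorem psi_cV {g v : G} (hg : g ∈ S.N) (hv : v ∈ S.V) : g * v * g⁻¹ ∈ S.V := (mem_normalizer_iff.1 hg v).1 hv

omit [Finite G] in
theorem psi_cI {g v : G} (hg : g ∈ S.N) (hr : g ∈ normalizer (S.RX y : Set G)) (hv : v ∈ S.IX y) :
    g * v * g⁻¹ ∈ S.IX y := ⟨psi_cV hg hv.1, fun r h => by
  have := hv.2 _ ((mem_normalizer_iff.1 (inv_mem hr) r).1 h)
  calc r * (g * v * g⁻¹) = g * (g⁻¹ * r * g⁻¹⁻¹ * v) * g⁻¹ := by group
    _ = _ := by rw [this]; group⟩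

omit [Finite G] in
theorem psi_mem (hB : S.Cand y B) {x : G} (hv : x ∈ S.V) : x ∈ B ↔ x ∈ S.IX y :=
  ⟨fun h => hB.inf.le ⟨h, hv⟩, fun h => (hB.inf.ge h).1⟩

theorem psi_W (ok : S.co = y.co) {s : G} (hs : s ∈ S.RX y) : S.psiC y s ∈ S.WX y := S.cVX ok (S.κ_mem _) hs

theorem psi_K1 (ok : S.co = y.co) {s s' : G} (hs : s ∈ S.RX y) (hs' : s' ∈ S.RX y) :
    (S.psiC y s)⁻¹ * S.psiC y s' ∈ S.IX y ↔ s⁻¹ * s' ∈ S.V := by
  have e : (S.psiC y s)⁻¹ * S.psiC y s' = s * S.psiC y (s⁻¹ * s') * s⁻¹ := by unfold psiC; group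
  rw [e]
  refine ⟨fun h => S.freeX ok (S.κ_mem _) (S.t0_not ok).2 (mul_mem (inv_mem hs) hs') ?_, fun h => ?_⟩
  · have := psi_cI (inv_mem hs.1) (inv_mem (le_normalizer hs)) h
    rwa [show s⁻¹ * (s * S.psiC y (s⁻¹ * s') * s⁻¹) * s⁻¹⁻¹ = S.psiC y (s⁻¹ * s') by group] at this
  · rw [psiC, S.comm (S.κ_mem _) h]
    simp only [mul_inv_cancel_right, mul_inv_cancel, mul_one, one_mem]

theorem psi_K2 (ok : S.co = y.co) {w : G} (hw : w ∈ S.WX y) : ∃ s ∈ S.RX y, w⁻¹ * S.psiC y s ∈ S.IX y := by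
  let f : S.RX y ⧸ S.V.subgroupOf (S.RX y) → S.WX y ⧸ (S.IX y).subgroupOf (S.WX y) :=
    fun q => QuotientGroup.mk ⟨S.psiC y q.out, psi_W ok q.out.2⟩
  have hf : Function.Injective f := fun q q' h => by
    rw [← q.out_eq', ← q'.out_eq', QuotientGroup.eq]
    have h' := QuotientGroup.eq.1 h
    exact (psi_K1 ok q.out.2 q'.out.2).1 h'
  have h1 := (S.V.subgroupOf (S.RX y)).card_mul_index
  have h2 := ((S.IX y).subgroupOf (S.WX y)).card_mul_index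
  rw [Nat.card_congr (subgroupOfEquivOfLe (S.V_le_pre _)).toEquiv, S.card_V, S.card_RX] at h1
  rw [Nat.card_congr (subgroupOfEquivOfLe (S.IX_le_WX ok)).toEquiv, S.card_IX ok, S.card_WX ok] at h2
  have hb := (Nat.bijective_iff_injective_and_card f).2 ⟨hf, (Nat.eq_of_mul_eq_mul_left (by norm_num) h1).trans
    (Nat.eq_of_mul_eq_mul_left (by cases y <;> decide) h2).symm⟩
  obtain ⟨q, hq⟩ := hb.2 (QuotientGroup.mk ⟨w, hw⟩)
  have h' := QuotientGroup.eq.1 hq.symm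
  exact ⟨q.out, q.out.2, h'⟩

omit [Finite G] in
theorem psi_alt (hA : S.Cand y A) (hB : S.Cand y B) {a v : G} (ha : a ∈ A) (hv : v ∈ S.V) (h : a * v ∈ B) :
    v * a * v⁻¹ * a⁻¹ = 1 := by
  rw [inv_eq_of_mul_eq_one_right (S.sq hv), inv_eq_of_mul_eq_one_right (hA.sq a ha)]
  calc v * a * v * a = a⁻¹ * (a * v * (a * v)) * a := by group
    _ = 1 := by rw [hB.sq _ h]; group

theorem psi_ex (hA : S.Cand y A) (hB : S.Cand y B) {a : G} (ha : a ∈ A) :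
    ∃ s ∈ S.RX y, a * S.psiC y s ∈ B := by
  obtain ⟨b, hb, v, hv, e⟩ := hB.sup a (hA.le ha)
  have h : a * v⁻¹ ∈ B := by rw [e, mul_inv_cancel_right]; exact hb
  have hw : v⁻¹ ∈ S.WX y := by
    by_contra hw
    have := S.freeX hA.ok (inv_mem hv) hw (hA.le ha) (by rw [psi_alt hA hB ha (inv_mem hv) h]; exact one_mem _)
    exact hw (S.IX_le_WX hA.ok (by
      simpa using mul_mem (inv_mem ((psi_mem hA this).1 ha)) ((psi_mem hB (mul_mem this (inv_mem hv))).1 h)))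
  obtain ⟨s, hs, h1⟩ := psi_K2 hA.ok hw
  exact ⟨s, hs, by simpa [mul_assoc] using mul_mem h (hB.inf.ge h1).1⟩

omit [Finite G] in
theorem psi_tr (hA : S.Cand y A) (hB : S.Cand y B) {a a' v v' : G} (ha : a ∈ A) (ha' : a' ∈ A)
    (e : a⁻¹ * a' ∈ S.V) (hv : v ∈ S.V) (h : a * v ∈ B) (h' : v⁻¹ * v' ∈ S.IX y) : a' * v' ∈ B := by
  have h1 := (psi_mem hB e).2 ((psi_mem hA e).1 (mul_mem (inv_mem ha) ha'))
  have h2 := mul_mem (mul_mem h h1) (hB.inf.ge h').1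
  rwa [mul_assoc a, ← S.comm e hv, show a * (a⁻¹ * a' * v) * (v⁻¹ * v') = a' * v' by group] at h2

theorem psi_add (hA : S.Cand y A) (hB : S.Cand y B) {a a' s s' : G} (ha' : a' ∈ A) (hs : s ∈ S.RX y)
    (hs' : s' ∈ S.RX y) (h : a * S.psiC y s ∈ B) (h' : a' * S.psiC y s' ∈ B) : a * a' * S.psiC y (s * s') ∈ B := by
  have i1 := S.cWX hA.ok (inv_mem (psi_W hA.ok hs)) (inv_mem (hA.le ha'))
  have i2 := S.cWX hA.ok (inv_mem (psi_W hA.ok hs')) hs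
  have c := S.comm i1.1 (S.par_le _ (psi_W hA.ok hs'))
  have e : S.psiC y (s * s') = S.psiC y s * (s * S.psiC y s' * s⁻¹) := by unfold psiC; group
  have := mul_mem (mul_mem (mul_mem h h') (inv_mem (hB.inf.ge i1).1)) (hB.inf.ge i2).1
  rw [e]
  generalize S.psiC y s = u at *
  generalize S.psiC y s' = u' at *
  rwa [show a * u * (a' * u') = a * a' * u * (u⁻¹ * a'⁻¹ * u⁻¹⁻¹ * a'⁻¹⁻¹ * u') by group, c,
    show ∀ i : G, a * a' * u * (u' * i) * i⁻¹ * (u'⁻¹ * s * u'⁻¹⁻¹ * s⁻¹) = a * a' * (u * (s * u' * s⁻¹)) from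
      fun i => by group] at this

omit [Finite G] in
theorem psi_comm {A : Subgroup G} (h : ∀ a ∈ A, a * a = 1) {a b : G} (ha : a ∈ A) (hb : b ∈ A) : a * b = b * a := by
  rw [← inv_eq_of_mul_eq_one_right (h _ (mul_mem ha hb)), mul_inv_rev, inv_eq_of_mul_eq_one_right (h a ha),
    inv_eq_of_mul_eq_one_right (h b hb)]

omit [Finite G] in
theorem psi_sym (hA : S.Cand y A) (hB : S.Cand y B) {a a' u u' : G} (ha : a ∈ A) (ha' : a' ∈ A) (hu : u ∈ S.V)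
    (hu' : u' ∈ S.V) (h : a * u ∈ B) (h' : a' * u' ∈ B) : u * a' * u⁻¹ * a'⁻¹ = u' * a * u'⁻¹ * a⁻¹ := by
  have e := psi_comm hB.sq h h'
  have k := inv_eq_of_mul_eq_one_right (hA.sq a ha)
  have k' := inv_eq_of_mul_eq_one_right (hA.sq a' ha')
  have hx := psi_cV (hA.le ha).1 hu'
  rw [show a * u * (a' * u') = a * a' * (a'⁻¹ * u * a' * u') by group,
    show a' * u' * (a * u) = a' * a * (a⁻¹ * u' * a * u) by group, psi_comm hA.sq ha ha', mul_right_inj, k, k'] at e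
  rw [k] at hx
  rw [inv_eq_of_mul_eq_one_right (S.sq hu), inv_eq_of_mul_eq_one_right (S.sq hu'), k, k']
  calc u * a' * u * a' = u * (a' * u * a' * u') * u' * (u' * u')⁻¹ := by group
    _ = a * u' * a * (u * u) * u' := by rw [e, S.comm hu (mul_mem hx hu), S.sq hu']; group
    _ = _ := by rw [S.sq hu, mul_one, S.comm hx hu']; group

theorem psi_κ (ok : S.co = y.co) {s a : G} {e f : ℕ} (hs : s ∈ S.RX y) (ha : a ∈ S.RX y)
    (ps : GE.pk (S.p s) = te f) (pa : GE.pk (S.p a) = te e) :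
    Dom S.co (y.cc f e) ∧ S.psiC y s * a * (S.psiC y s)⁻¹ * a⁻¹ = S.κ (y.cc f e) := by
  have d0 := (S.t0_not ok).1
  have d1 : Dom S.co (y.c1 f) := d0.xor (ps ▸ im_dom (S.p_mem s hs.1) d0)
  refine ⟨d1.xor (pa ▸ im_dom (S.p_mem a ha.1) d1), ?_⟩
  rw [psiC, S.comm_κ hs.1 d0, ps, Ty.cc, ← pa]
  exact S.comm_κ ha.1 d1

theorem psi_lift (hA : S.Cand y A) {e : ℕ} (he : e &&& y.msk = e) : ∃ a ∈ A, GE.pk (S.p a) = te e := by
  obtain ⟨g, hg, h⟩ := exists_te (psi_lt he)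
  obtain ⟨r, hr, rfl⟩ := S.p_surj g (sg_le _ hg)
  obtain ⟨a, ha, v, hv, rfl⟩ := hA.sup r ⟨hr, (mem_sg (psi_msk' y) _).2 ⟨e, psi_lt he, he, h⟩⟩
  exact ⟨a, ha, by rwa [S.p_mul _ (hA.le ha).1 _ (S.V_le hv), S.p_V hv, mul_one] at h⟩

theorem psi_fun (hA : S.Cand y A) (hB : S.Cand y B) : ∃ ψ : ℕ → ℕ, ∀ e, e &&& y.msk = e →
    ψ e &&& y.msk = ψ e ∧ ∀ a ∈ A, GE.pk (S.p a) = te e → ∀ s ∈ S.RX y,
      (GE.pk (S.p s) = te (ψ e) ↔ a * S.psiC y s ∈ B) := by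
  refine (Classical.skolem (p := fun e f => e &&& y.msk = e → f &&& y.msk = f ∧ ∀ a ∈ A,
    GE.pk (S.p a) = te e → ∀ s ∈ S.RX y, (GE.pk (S.p s) = te f ↔ a * S.psiC y s ∈ B))).1 fun e => ?_
  by_cases he : e &&& y.msk = e
  · obtain ⟨a, ha, pa⟩ := psi_lift hA he
    obtain ⟨s, hs, h⟩ := psi_ex hA hB ha
    obtain ⟨f, -, hf, ps⟩ := (mem_sg (psi_msk' y) _).1 hs.2
    refine ⟨f, fun _ => ⟨hf, fun a' ha' pa' s' hs' => ?_⟩⟩
    have e1 := (S.p_eq_iff (hA.le ha).1 (hA.le ha').1).1 (GE.pk_inj.1 (pa.trans pa'.symm))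
    have w := S.par_le _ (psi_W hA.ok hs)
    rw [← ps, GE.pk_inj, eq_comm, S.p_eq_iff hs.1 hs'.1, ← psi_K1 hA.ok hs hs']
    refine ⟨psi_tr hA hB ha ha' e1 w h, fun h' => (psi_mem hB (mul_mem (inv_mem w)
      (S.par_le _ (psi_W hA.ok hs')))).1 ?_⟩
    simpa [mul_assoc] using mul_mem (inv_mem (psi_tr hA hB ha ha' e1 w h (by simpa using one_mem _))) h'
  · exact ⟨0, fun h => (he h).elim⟩

theorem psi_one (hA : S.Cand y A) (hB : S.Cand y B) {g : G} (hg : g ∈ S.pre (Ag S.co))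
    (hP : GE.pk (S.p g) ∈ y.gens) : S.PsiP A B g := by
  obtain ⟨ψ, hψ⟩ := psi_fun hA hB
  have ok := hA.ok
  have data : ∀ e, e &&& y.msk = e → ∃ a ∈ A, ∃ s ∈ S.RX y, GE.pk (S.p a) = te e ∧
      GE.pk (S.p s) = te (ψ e) ∧ a * S.psiC y s ∈ B := fun e he => by
    obtain ⟨a, ha, pa⟩ := psi_lift hA he
    obtain ⟨s, hs, ps⟩ := psi_lift hA (hψ e he).1
    exact ⟨a, ha, s, hA.le hs, pa, ps, ((hψ e he).2 a ha pa s (hA.le hs)).1 ps⟩
  have mx : ∀ {a b : G} {e f : ℕ}, a ∈ S.N → b ∈ S.N → e &&& y.msk = e → f &&& y.msk = f →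
      GE.pk (S.p a) = te e → GE.pk (S.p b) = te f → GE.pk (S.p (a * b)) = te (e ^^^ f) :=
    fun ha hb he hf pa pb => by
      rw [S.p_mul _ ha _ hb, GE.pk_mul, pa, pb, ← mulx_xor (psi_msk y) _ (psi_lt he) _ (psi_lt hf) he hf]
      exact te_mul _ (psi_lt he) _ (psi_lt hf)
  have ax : ∀ {e f : ℕ}, e &&& y.msk = e → f &&& y.msk = f → (e ^^^ f) &&& y.msk = e ^^^ f := fun he hf => by
    rw [Nat.and_xor_distrib_right, he, hf]
  have key := R24.psiC y ψ (fun e he => (hψ e he).1) (fun e f he hf => by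
    obtain ⟨a, ha, s, hs, pa, ps, h⟩ := data e he
    obtain ⟨a', ha', s', hs', pa', ps', h'⟩ := data f hf
    have := ((hψ _ (ax he hf)).2 _ (mul_mem ha ha') (mx (hA.le ha).1 (hA.le ha').1 he hf pa pa') _
      (mul_mem hs hs')).2 (psi_add hA hB ha' hs hs' h h')
    rw [mx hs.1 hs'.1 (hψ e he).1 (hψ f hf).1 ps ps'] at this
    exact te_inj _ (psi_lt (hψ _ (ax he hf)).1) _ (psi_lt (ax (hψ e he).1 (hψ f hf).1)) this.symm)
    (fun e he => by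
      obtain ⟨a, ha, s, hs, pa, ps, h⟩ := data e he
      obtain ⟨d, k⟩ := psi_κ ok hs (hA.le ha) ps pa
      rw [psi_alt hA hB ha (S.par_le _ (psi_W ok hs)) h] at k
      exact ok ▸ (S.κ_one _ d).1 k.symm)
    (fun e f he hf => by
      obtain ⟨a, ha, s, hs, pa, ps, h⟩ := data e he
      obtain ⟨a', ha', s', hs', pa', ps', h'⟩ := data f hf
      obtain ⟨d, k⟩ := psi_κ ok hs (hA.le ha') ps pa'
      obtain ⟨d', k'⟩ := psi_κ ok hs' (hA.le ha) ps' pa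
      rw [psi_sym hA hB ha ha' (S.par_le _ (psi_W ok hs)) (S.par_le _ (psi_W ok hs')) h h', k'] at k
      exact ok ▸ (S.κ_eq_iff d d').1 k.symm) _ hP
  intro a ha v hv h a' ha' e1
  have hN := (hA.le ha).1
  have hN' := (hA.le ha').1
  have gR := S.ag_norm ok hg
  obtain ⟨e, -, he, pa⟩ := (mem_sg (psi_msk' y) _).1 (hA.le ha).2
  obtain ⟨e', -, he', pa'⟩ := (mem_sg (psi_msk' y) _).1 (hA.le ha').2
  have e2 := (S.p_eq_iff hN' (mul_mem (mul_mem hg.1 hN) (inv_mem hg.1))).2 e1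
  rw [S.p_conj hg.1 hN, eq_mul_inv_iff_mul_eq] at e2
  have e3 := key e e' he he' (by rw [← pa, ← pa']; exact (GE.pk_mul _ _).symm.trans (e2 ▸ GE.pk_mul _ _))
  obtain ⟨s, hs, ps⟩ := psi_lift hA (hψ e he).1
  obtain ⟨s', hs', ps'⟩ := psi_lift hA (hψ e' he').1
  replace hs := hA.le hs
  replace hs' := hA.le hs'
  have b := ((hψ e he).2 a ha pa s hs).1 ps
  have b' := ((hψ e' he').2 a' ha' pa' s' hs').1 ps'
  have gs : g * s * g⁻¹ ∈ S.RX y := (mem_normalizer_iff.1 gR s).1 hs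
  rw [← ps, ← ps'] at e3
  have e4 : S.p s' = S.p (g * s * g⁻¹) := by
    rw [S.p_conj hg.1 hs.1, eq_mul_inv_iff_mul_eq]
    exact GE.pk_inj.1 ((GE.pk_mul _ _).trans (e3.symm.trans (GE.pk_mul _ _).symm))
  have i1 := (psi_K1 ok hs' gs).2 ((S.p_eq_iff hs'.1 gs.1).1 e4)
  have d0 := (S.t0_not ok).1
  have hw : S.psiC y g ∈ S.WX y :=
    ⟨_, d0.xor (im_dom (S.p_mem g hg.1) d0), (S.comm_κ hg.1 d0).symm, psi_par y _ hP⟩
  have i2 := S.cWX ok (inv_mem hw) gs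
  have w := S.par_le _ (psi_W ok hs)
  have i3 : (S.psiC y s)⁻¹ * v ∈ S.IX y := (psi_mem hB (mul_mem (inv_mem w) hv)).1 (by
    simpa [mul_assoc] using mul_mem (inv_mem b) h)
  have i4 := psi_cI hg.1 gR i3
  have e5 : g * S.psiC y s * g⁻¹ = (S.psiC y g)⁻¹ * (S.psiC y (g * s * g⁻¹) *
      (g * s * g⁻¹ * S.psiC y g * (g * s * g⁻¹)⁻¹)) := by unfold psiC; group
  rw [← mul_assoc, ← S.comm (S.par_le _ (psi_W ok gs)) (inv_mem (S.par_le _ hw))] at e5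
  have := mul_mem (mul_mem (mul_mem b' (hB.inf.ge i1).1) (hB.inf.ge i2).1) (hB.inf.ge i4).1
  rwa [show a' * S.psiC y s' * ((S.psiC y s')⁻¹ * S.psiC y (g * s * g⁻¹)) *
      ((S.psiC y g)⁻¹ * (g * s * g⁻¹) * (S.psiC y g)⁻¹⁻¹ * (g * s * g⁻¹)⁻¹) * (g * ((S.psiC y s)⁻¹ * v) * g⁻¹) =
      a' * (S.psiC y (g * s * g⁻¹) * (S.psiC y g)⁻¹ * (g * s * g⁻¹ * S.psiC y g * (g * s * g⁻¹)⁻¹)) *
        (g * S.psiC y s * g⁻¹)⁻¹ * (g * v * g⁻¹) by group, ← e5, mul_inv_cancel_right] at this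

theorem psi_mul (hA : S.Cand y A) {g h : G} (hg : g ∈ S.N) (hh : h ∈ S.pre (Ag S.co)) (pg : S.PsiP A B g)
    (ph : S.PsiP A B h) : S.PsiP A B (g * h) := fun a ha v hv b a'' ha'' e => by
  obtain ⟨a', ha', v', hv', e1⟩ := hA.sup _ ((mem_normalizer_iff.1 (S.ag_norm hA.ok hh) a).1 (hA.le ha))
  have := pg a' ha' _ (psi_cV hh.1 hv) (ph a ha v hv b a' ha' (by rw [e1, inv_mul_cancel_left]; exact hv')) a'' ha'' (by
    have := mul_mem e (psi_cV hg (inv_mem hv'))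
    rwa [show g * h * a * (g * h)⁻¹ = g * (h * a * h⁻¹) * g⁻¹ by group, e1,
      show a''⁻¹ * (g * (a' * v') * g⁻¹) * (g * v'⁻¹ * g⁻¹) = a''⁻¹ * (g * a' * g⁻¹) by group] at this)
  rwa [show g * (h * v * h⁻¹) * g⁻¹ = g * h * v * (g * h)⁻¹ by group] at this

theorem psi_V (hA : S.Cand y A) (hB : S.Cand y B) {g : G} (hg : g ∈ S.V) : S.PsiP A B g :=
  fun a ha v hv b a' ha' e => by
    rw [S.comm hg hv, mul_inv_cancel_right]
    refine psi_tr hA hB ha ha' ?_ hv b (by simpa using one_mem _)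
    have := inv_mem (mul_mem (mul_mem e hg) (psi_cV (inv_mem (hA.le ha).1) (inv_mem hg)))
    rwa [show (a'⁻¹ * (g * a * g⁻¹) * g * (a⁻¹ * g⁻¹ * a⁻¹⁻¹))⁻¹ = a⁻¹ * a' by group] at this

end St

/-- notes/R24.md, section Psi -/
theorem St.psi_inv {y : Ty} {A B : Subgroup G} (hA : S.Cand y A) (hB : S.Cand y B) {g a v a' : G}
    (hg : g ∈ S.pre (Ag S.co)) (ha : a ∈ A) (hv : v ∈ S.V) (h : a * v ∈ B) (ha' : a' ∈ A)
    (e : a'⁻¹ * (g * a * g⁻¹) ∈ S.V) : a' * (g * v * g⁻¹) ∈ B := by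
  have pw : ∀ {g : G}, g ∈ S.pre (Ag S.co) → S.PsiP A B g → ∀ n : ℕ, S.PsiP A B (g ^ n) := fun hg h n => by
    induction n with
    | zero => rw [pow_zero]; exact St.psi_V hA hB (one_mem _)
    | succ n ih => rw [pow_succ]; exact St.psi_mul hA (pow_mem hg.1 n) hg ih h
  let U : Subgroup G :=
    { carrier := {g | g ∈ S.pre (Ag S.co) ∧ S.PsiP A B g}
      one_mem' := ⟨one_mem _, St.psi_V hA hB (one_mem _)⟩
      mul_mem' := fun hg hh => ⟨mul_mem hg.1 hh.1, St.psi_mul hA hg.1.1 hh.1 hg.2 hh.2⟩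
      inv_mem' := fun {g} hg => ⟨inv_mem hg.1, by
        obtain ⟨n, hn⟩ := mem_powers_iff_mem_zpowers.2 (inv_mem (mem_zpowers g))
        exact hn ▸ pw hg.1 hg.2 n⟩ }
  have gen : ∀ γ ∈ Ag S.co, γ ∈ M24 → GE.pk γ ∈ y.gens → γ ∈ S.bar U := fun γ h1 h2 h3 => by
    obtain ⟨u, hu, rfl⟩ := S.p_surj γ h2
    exact S.mem_bar.2 ⟨u, ⟨⟨hu, h1⟩, St.psi_one hA hB ⟨hu, h1⟩ h3⟩, hu, rfl⟩
  have hU : Ag S.co ≤ S.bar U := by
    refine sup_le ?_ ((closure_le _).2 fun γ hγ => gen γ (mem_sup_right (subset_closure hγ)) ?_ ?_)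
    · have : (if S.co then Hx else Ex) = sg (if y.co then 63 else 323) := by rw [hA.ok]; cases y.co <;> rfl
      rw [this]
      refine (closure_le _).2 fun γ hγ => gen γ (mem_sup_left (this ▸ subset_closure hγ))
        (sg_le _ (subset_closure hγ)) ?_
      obtain ⟨i, hi, h1, h2⟩ := hγ
      exact h2 ▸ psi_gen y i hi h1
    · rw [mem_M24_iff_inM24]
      rcases hγ with h | ⟨-, h⟩ <;> rw [h]
      exacts [psi_in.1, psi_in.2]
    · rcases hγ with h | ⟨c, h⟩ <;> rw [h]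
      exacts [(psi_om y).1, (psi_om y).2 (hA.ok ▸ c)]
  obtain ⟨u, hu, hN, pu⟩ := S.mem_bar.1 (hU hg.2)
  have hv' := (S.p_eq_iff hN hg.1).1 pu
  have := St.psi_mul hA hN (S.V_le_pre _ hv') hu.2 (St.psi_V hA hB hv')
  rw [mul_inv_cancel_left] at this
  exact this a ha v hv h a' ha' e

end Cfsg.Agent.R24
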