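import Cfsg.Agent.R24.Base1
import Cfsg.Agent.R24.Base2
import Cfsg.Agent.R24.Base3
import Cfsg.Agent.R24.TyF
import Cfsg.Agent.R24.Psi

set_option autoImplicit false

namespace Cfsg.Agent.R24

open Subgroup Cfsg.Agent.H14

variable {G : Type*} [Group G] [Finite G] (S : St G)

namespace QNormAux

open H70

omit [Finite G] in
theorem cand_cj {y : Ty} {A : Subgroup G} (hA : S.Cand y A) {δ : G} (hN : δ ∈ S.N)
    (hR : δ ∈ normalizer (S.RX y : Set G)) : S.Cand y (cj δ A) where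
  ok := hA.ok
  le := cj_le_of_mem_norm hR hA.le
  sq := fun a ha => by
    have := hA.sq _ (mem_cj.1 ha)
    calc a * a = δ * (δ⁻¹ * a * δ * (δ⁻¹ * a * δ)) * δ⁻¹ := by group
      _ = 1 := by rw [this]; group
  inf := by
    conv_lhs => rw [← cj_eq_self hN, ← cj_inf, hA.inf]
    rw [cj_inf, cj_eq_self hN, cj_centralizer, cj_eq_self hR]
  sup := fun r hr => by
    obtain ⟨a, ha, v, hv, e⟩ := hA.sup _ (conj_mem_of_mem_norm' hR hr)
    refine ⟨_, conj_mem_cj δ ha, _, conj_mem_of_mem_norm hN hv, ?_⟩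
    rw [conj_mul, ← e]
    group

theorem dl_fpf : allN 1024 (fun x => bimp (Nat.beq (x &&& 323) x)
    (bimp (Nat.beq (cmp dl (te x)) (cmp (te x) dl)) (Nat.beq x 0))) = true := by decide +kernel

/-- an element of order three acting without fixed points on `R / V` -/
theorem exists_δ : ∃ δ ∈ S.M, δ ∈ S.pre (Ag S.co) ∧ δ ^ 3 = 1 ∧
    ∀ r ∈ S.R, δ * r * δ⁻¹ * r⁻¹ ∈ S.V → r ∈ S.V := by
  cases hco : S.co
  · obtain ⟨g, hg, e⟩ := inG_M24 (P := dl) (by decide +kernel) (by decide +kernel)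
    have g3 : g ^ 3 = 1 := GE.pk_injective (by
      rw [pow_succ, pow_two, GE.pk_mul, GE.pk_mul, GE.pk_one, e]
      decide +kernel)
    obtain ⟨δ, hδ, hp, h3⟩ := S.lift_odd hg (by decide) g3
    refine ⟨δ, ⟨hδ, mem_centralizer_singleton_iff.2 ?_⟩, ⟨hδ, ?_⟩, h3, fun r hr h => ?_⟩
    · rw [St.z, S.cent_κ hδ (by rw [hco]; decide +kernel), hp, e, hco]
      decide +kernel
    · exact mem_sup_right (subset_closure (Or.inr ⟨rfl, hp ▸ e⟩))
    · have rN : r ∈ S.N := (S.R_le_T hr).1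
      have hE : S.p r ∈ Ex := by
        have := hr.2
        rwa [hco] at this
      obtain ⟨x, hx, h1, h2⟩ := (mem_sg (k := 323) (by simp) _).1 hE
      have c := S.p_V h
      rw [S.p_mul _ (mul_mem (mul_mem hδ rN) (inv_mem hδ)) _ (inv_mem rN), S.p_conj hδ rN,
        S.p_inv rN, mul_inv_eq_one, mul_inv_eq_iff_eq_mul, hp] at c
      have c2 := congrArg GE.pk c
      rw [GE.pk_mul, GE.pk_mul, e, h2] at c2
      have := allN_iff.1 dl_fpf x hx
      simp only [bimp_iff, beq_iff] at this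
      rw [this h1 c2, te_zero] at h2
      exact (S.p_one r rN).1 (GE.pk_injective h2)
  · obtain ⟨ω, hω⟩ := S.exists_om
    obtain ⟨h1, h2⟩ := S.om_mem hω
    rw [hco] at h2
    exact ⟨ω, h1, h2, hω.2.2, fun r hr h => S.om_R hco hω hr h⟩

end QNormAux

open QNormAux H70

/-- notes/R24.md, section QNorm -/
theorem St.norm3 {y : Ty} {A : Subgroup G} (hA : S.Cand y A) {δ : G} (hδ : δ ∈ S.pre (Ag S.co)) (h3 : δ ^ 3 = 1) :
    δ ∈ normalizer (A : Set G) := by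
  have hR := S.ag_norm hA.ok hδ
  have hB := cand_cj S hA hδ.1 hR
  have h2 : δ * δ ∈ normalizer (A : Set G) := by
    refine mem_normalizer_of_cj_le (cj_le_iff.2 fun a ha => ?_)
    obtain ⟨a1, ha1, v, hv, e1⟩ := hA.sup _ (conj_mem_of_mem_norm hR (hA.le ha))
    obtain ⟨a', ha', v', hv', e2⟩ := hA.sup _ (conj_mem_of_mem_norm hR (hA.le ha1))
    have k := S.psi_inv hA hB hδ ha1 hv (e1 ▸ conj_mem_cj δ ha) ha'
      (by rw [e2, inv_mul_cancel_left]; exact hv')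
    have m1 : a' * v' ∈ cj δ A := e2 ▸ conj_mem_cj δ ha1
    have hv2 := conj_mem_of_mem_norm hδ.1 hv
    have m2 : v' * (δ * v * δ⁻¹) ∈ cj δ A ⊓ S.V := by
      refine ⟨?_, mul_mem hv' hv2⟩
      have := mul_mem (inv_mem m1) k
      rwa [mul_inv_rev, mul_assoc, inv_mul_cancel_left,
        inv_eq_of_mul_eq_one_right (S.sq hv')] at this
    rw [hB.inf, ← hA.inf] at m2
    have e3 : δ * δ * a * (δ * δ)⁻¹ = a' * (v' * (δ * v * δ⁻¹)) := by
      calc δ * δ * a * (δ * δ)⁻¹ = δ * (δ * a * δ⁻¹) * δ⁻¹ := by group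
        _ = δ * a1 * δ⁻¹ * (δ * v * δ⁻¹) := by rw [e1]; group
        _ = _ := by rw [e2, mul_assoc]
    rw [e3]
    exact mul_mem ha' m2.1
  have e : δ = δ * δ * (δ * δ) := by
    calc δ = δ ^ 3 * δ := by rw [h3, one_mul]
      _ = _ := by simp only [pow_succ, pow_zero, one_mul, mul_assoc]
  rw [e]
  exact mul_mem h2 h2

/-- notes/R24.md, section QNorm -/
theorem St.qnorm {y : Ty} {A Q : Subgroup G} (hA : S.Cand y A) (hQ : S.QD Q) : Q ≤ normalizer (A : Set G) := by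
  obtain ⟨δ, hM, hδ, h3, fpf⟩ := exists_δ S
  have ex := hQ.ex
  have RA : S.R ≤ S.pre (Ag S.co) := fun r hr => ⟨hr.1, mem_sup_left hr.2⟩
  have IA : S.IX y ≤ A := hA.inf ▸ inf_le_left
  have WN : S.WX y ≤ normalizer (A : Set G) := fun w hw =>
    mem_normalizer_of_cj_le (cj_le_iff.2 fun a ha => by
      have := mul_mem (IA (S.cWX hA.ok hw (hA.le ha))) ha
      simpa using this)
  have zN : S.z ∈ normalizer (A : Set G) := le_normalizer (IA (S.z_IX hA.ok))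
  intro q hq
  have cN : ∀ ε ∈ S.pre (Ag S.co), ε ^ 3 = 1 → ε * q * ε⁻¹ * q⁻¹ ∈ normalizer (A : Set G) := by
    intro ε hε e3
    have h1 := S.norm3 hA hε e3
    have h2 := S.norm3 hA (mul_mem (mul_mem (RA (hQ.le hq)) hε) (inv_mem (RA (hQ.le hq))))
      (by rw [conj_pow, e3, mul_one, mul_inv_cancel])
    have := mul_mem h1 (inv_mem h2)
    rwa [show ε * (q * ε * q⁻¹)⁻¹ = ε * q * ε⁻¹ * q⁻¹ by group] at this
  have n1 := cN δ hδ h3
  have n2 := cN (δ * δ) (mul_mem hδ hδ) (by rw [← pow_two, ← pow_mul, mul_comm, pow_mul, h3, one_pow])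
  have q1 : δ * q * δ⁻¹ ∈ Q := conj_mem_of_mem_norm (hQ.norm hM) hq
  have q2 : δ * δ * q * (δ * δ)⁻¹ ∈ Q := conj_mem_of_mem_norm (hQ.norm (mul_mem hM hM)) hq
  set a := δ * q * δ⁻¹ with ha
  set b := δ * δ * q * (δ * δ)⁻¹ with hb
  have δ3 : δ * (δ * δ) = 1 := by rw [← h3]; simp only [pow_succ, pow_zero, one_mul, mul_assoc]
  have e1 : δ * (q * (a * b)) * δ⁻¹ = a * b * q := by
    calc δ * (q * (a * b)) * δ⁻¹ = a * b * (δ * (δ * δ) * q * (δ * (δ * δ))⁻¹) := by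
          rw [ha, hb]; group
      _ = _ := by rw [δ3]; group
  have hν : q * (a * b) ∈ Q := mul_mem hq (mul_mem q1 q2)
  have νV : q * (a * b) ∈ S.V := fpf _ (hQ.le hν) (by
    rw [e1, show a * b * q * (q * (a * b))⁻¹ = a * b * q * (a * b)⁻¹ * q⁻¹ by group]
    rcases ex.comm _ (mul_mem q1 q2) q hq with e | e <;> rw [e]
    · rw [mul_inv_cancel]; exact one_mem _
    · rw [mul_inv_cancel_right]; exact S.z_mem)
  have νN : q * (a * b) ∈ normalizer (A : Set G) :=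
    WN (S.VQ_le_WX hA.ok (hQ.inf ▸ (⟨hν, νV⟩ : _ ∈ Q ⊓ S.V)))
  have m1 : q * (a * q⁻¹) * q⁻¹ ∈ normalizer (A : Set G) := by
    rcases ex.comm q hq _ (mul_mem q1 (inv_mem hq)) with e | e <;> rw [e]
    exacts [n1, mul_mem zN n1]
  have m2 : q * q ∈ normalizer (A : Set G) := by
    rcases ex.sqr q hq with e | e <;> rw [e]
    exacts [one_mem _, zN]
  have := mul_mem (inv_mem (mul_mem (mul_mem m1 m2) n2)) νN
  rwa [show (q * (a * q⁻¹) * q⁻¹ * (q * q) * (b * q⁻¹))⁻¹ * (q * (a * b)) = q by group] at this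

end Cfsg.Agent.R24
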