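import Cfsg.Agent.R24.Defs2
import Cfsg.Agent.R24.Base1
import Cfsg.Agent.R24.Base2
import Cfsg.Agent.R24.Inv
import Cfsg.Agent.R24.TyF
import Cfsg.Agent.H49.Prod

set_option autoImplicit false
set_option linter.unusedSectionVars false

namespace Cfsg.Agent.R24

open Subgroup Cfsg.Agent.H14

variable {G : Type*} [Group G] [Finite G] (S : St G)

theorem clsA_comm {A : Subgroup G} (h : ∀ a ∈ A, a * a = 1) {x y : G} (hx : x ∈ A) (hy : y ∈ A) :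
    x * y = y * x := by
  rw [← inv_eq_of_mul_eq_one_left (h _ (mul_mem hx hy)), mul_inv_rev, inv_eq_of_mul_eq_one_left (h x hx),
    inv_eq_of_mul_eq_one_left (h y hy)]

/-- notes/R24.md, section ClsA -/
theorem St.mc_mem {A W : Subgroup G} {a₀ t : G} (h : MC S.V A W a₀ t) {w : G} :
    w ∈ W ↔ ∃ a ∈ A, ∃ i ∈ A ⊓ S.V, w = t * a * t⁻¹ * a⁻¹ * i := by
  refine ⟨fun hw => ?_, ?_⟩
  · let r : A → A := fun a => (QuotientGroup.mk a : A ⧸ S.V.subgroupOf A).out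
    have hr : ∀ a : A, ((r a : G)⁻¹ * a) ∈ A ⊓ S.V := fun a =>
      mem_inf.2 ⟨A.mul_mem (A.inv_mem (r a).2) a.2, mem_subgroupOf.1
        (QuotientGroup.eq.1 (QuotientGroup.out_eq' (QuotientGroup.mk a : A ⧸ S.V.subgroupOf A)))⟩
    let g : A → W := fun a => ⟨t * r a * t⁻¹ * (r a : G)⁻¹ * ((r a : G)⁻¹ * a),
      mul_mem (h.tW _ (r a).2) (h.IW (hr a))⟩
    have hg : Function.Injective g := fun a a' e => by
      have e1 : t * r a * t⁻¹ * (r a : G)⁻¹ * ((r a : G)⁻¹ * a) =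
          t * r a' * t⁻¹ * (r a' : G)⁻¹ * ((r a' : G)⁻¹ * a') := congrArg Subtype.val e
      have e2 : t * ((r a : G)⁻¹ * r a') * t⁻¹ * ((r a : G)⁻¹ * r a')⁻¹ =
          (r a : G)⁻¹ * (((r a : G)⁻¹ * a) * ((r a' : G)⁻¹ * a')⁻¹) * r a := by
        rw [eq_inv_mul_of_mul_eq e1]
        group
      have e3 := h.tI _ (mul_mem (inv_mem (r a).2) (r a').2) (by
        rw [e2]
        exact mul_mem (mul_mem (inv_mem (r a).2) (mul_mem (hr a).1 (inv_mem (hr a').1))) (r a).2)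
      have e4 : r a = r a' := by
        have : (QuotientGroup.mk (r a) : A ⧸ S.V.subgroupOf A) = QuotientGroup.mk (r a') :=
          QuotientGroup.eq.2 e3
        rw [QuotientGroup.out_eq', QuotientGroup.out_eq'] at this
        exact congrArg Quotient.out this
      rw [e4] at e1
      exact Subtype.ext (mul_left_cancel (mul_left_cancel e1))
    obtain ⟨a, ha⟩ := ((Nat.bijective_iff_injective_and_card g).2 ⟨hg, h.card.symm⟩).2 ⟨w, hw⟩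
    exact ⟨r a, (r a).2, _, hr a, (congrArg Subtype.val ha).symm⟩
  · rintro ⟨a, ha, i, hi, rfl⟩
    exact mul_mem (h.tW a ha) (h.IW hi)

/-- notes/R24.md, section ClsA -/
theorem St.mc_cv {A W : Subgroup G} {a₀ t : G} (h : MC S.V A W a₀ t) : Cv S.V a₀ ≤ W := by
  intro v hv
  refine h.a₀W v hv.1 ?_
  rw [mem_centralizer_singleton_iff.1 hv.2, mul_inv_cancel_right, mul_inv_cancel]
  exact one_mem _

/-- notes/R24.md, section ClsA -/
theorem St.mc_conj {A W : Subgroup G} {a₀ t : G} (h : MC S.V A W a₀ t) {n : G} (hn : n ∈ S.N) :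
    MC S.V (H70.cj n A) (H70.cj n W) (n * a₀ * n⁻¹) (n * t * n⁻¹) := by
  have hV : H70.cj n S.V = S.V := H70.cj_eq_self hn
  have mV : ∀ x, n * x * n⁻¹ ∈ S.V ↔ x ∈ S.V := fun x => (mem_normalizer_iff.1 hn x).symm
  have mc : ∀ (K : Subgroup G) x, n * x * n⁻¹ ∈ H70.cj n K ↔ x ∈ K := fun K x => by
    rw [H70.mem_cj, show n⁻¹ * (n * x * n⁻¹) * n = x by group]
  have ex : ∀ x : G, ∃ y, x = n * y * n⁻¹ := fun x => ⟨n⁻¹ * x * n, by group⟩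
  have cm : ∀ x y : G, n * x * n⁻¹ * (n * y * n⁻¹) * (n * x * n⁻¹)⁻¹ * (n * y * n⁻¹)⁻¹ =
      n * (x * y * x⁻¹ * y⁻¹) * n⁻¹ := fun x y => by group
  refine ⟨H70.cj_le_of_mem hn h.AN, fun a ha => ?_, H70.cj_le_of_mem_norm hn h.WV, ?_, ?_,
    fun w hw a ha => ?_, (mc _ _).2 h.a₀A, (mV _).not.2 h.a₀V, fun v hv hc => ?_, (mV _).2 h.tV,
    fun a ha => ?_, fun a ha hc => ?_⟩
  · obtain ⟨a, rfl⟩ := ex a
    rw [conj_mul, h.sq a ((mc _ _).1 ha), mul_one, mul_inv_cancel]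
  · rw [← hV, ← H70.cj_inf]
    exact H70.cj_mono n h.IW
  · rw [H70.card_cj, H70.card_cj, h.card]
  · obtain ⟨a, rfl⟩ := ex a
    obtain ⟨w, rfl⟩ := ex w
    rw [cm, mc]
    exact h.cWA w ((mc _ _).1 hw) a ((mc _ _).1 ha)
  · obtain ⟨v, rfl⟩ := ex v
    rw [cm, mc] at hc
    exact (mc _ _).2 (h.a₀W v ((mV _).1 hv) hc)
  · obtain ⟨a, rfl⟩ := ex a
    rw [cm, mc]
    exact h.tW a ((mc _ _).1 ha)
  · obtain ⟨a, rfl⟩ := ex a
    rw [cm, mc] at hc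
    exact (mV _).2 (h.tI a ((mc _ _).1 ha) hc)

theorem St.clsA_cm {v a : G} (hv : v ∈ S.V) (ha : a ∈ S.N) : v * a * v⁻¹ * a⁻¹ ∈ S.V := by
  rw [mul_assoc, mul_assoc, ← mul_assoc a]
  exact mul_mem hv (H70.conj_mem_of_mem_norm ha (inv_mem hv))

theorem St.clsA_card {A W : Subgroup G} {a₀ t : G} (h : MC S.V A W a₀ t) :
    Nat.card A = Nat.card (Cv S.V a₀) * Nat.card ↥((A ⊓ S.V) ⊓ Dv S.V a₀) := by
  have hN := h.AN h.a₀A
  let φ : W →* G := MonoidHom.mk' (fun w => w * a₀ * (w : G)⁻¹ * a₀⁻¹) fun w w' => by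
    have e := S.comm (h.WV w.2) (S.clsA_cm (h.WV w'.2) hN)
    have e' := S.comm (S.clsA_cm (h.WV w.2) hN) (S.clsA_cm (h.WV w'.2) hN)
    show (w : G) * w' * a₀ * ((w : G) * w')⁻¹ * a₀⁻¹ = _
    rw [e']
    calc (w : G) * w' * a₀ * ((w : G) * w')⁻¹ * a₀⁻¹
        = w * (w' * a₀ * (w' : G)⁻¹ * a₀⁻¹) * (a₀ * (w : G)⁻¹ * a₀⁻¹) := by group
      _ = _ := by rw [e]; group
  have h1 : φ.ker = (Cv S.V a₀).subgroupOf W := by
    ext w
    rw [MonoidHom.mem_ker, mem_subgroupOf, mem_inf, mem_centralizer_singleton_iff]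
    show (w : G) * a₀ * (w : G)⁻¹ * a₀⁻¹ = 1 ↔ _
    rw [mul_inv_eq_one, mul_inv_eq_iff_eq_mul]
    exact ⟨fun k => ⟨h.WV w.2, k⟩, fun k => k.2⟩
  have h2 : φ.range = (A ⊓ S.V) ⊓ Dv S.V a₀ := by
    ext x
    constructor
    · rintro ⟨w, rfl⟩
      exact ⟨⟨h.cWA w w.2 a₀ h.a₀A, S.clsA_cm (h.WV w.2) hN⟩, (S.mem_Dv hN).2 ⟨w, h.WV w.2, rfl⟩⟩
    · rintro ⟨hx, hx'⟩
      obtain ⟨v, hv, rfl⟩ := (S.mem_Dv hN).1 hx'
      exact ⟨⟨v, h.a₀W v hv hx.1⟩, rfl⟩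
  rw [← h.card, ← h2, ← φ.ker.card_mul_index, index_ker, h1,
    Nat.card_congr (subgroupOfEquivOfLe (S.mc_cv h)).toEquiv]

/-- notes/R24.md, section ClsA -/
theorem St.mc_four {A W : Subgroup G} {a₀ t : G} (h : MC S.V A W a₀ t) (hc : Nat.card A < 32 * Nat.card ↥(A ⊓ S.V)) :
    IsA (S.p a₀) ∧ Nat.card A = 16 * Nat.card ↥(A ⊓ S.V) ∧ Cv S.V a₀ ≤ (A ⊓ S.V) ⊔ Dv S.V a₀ := by
  have hN := h.AN h.a₀A
  have a2 := h.sq a₀ h.a₀A
  have DV : Dv S.V a₀ ≤ S.V := fun x hx => by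
    obtain ⟨v, hv, rfl⟩ := (S.mem_Dv hN).1 hx
    exact S.clsA_cm hv hN
  have hle : (A ⊓ S.V) ⊔ Dv S.V a₀ ≤ Cv S.V a₀ := by
    refine sup_le (fun i hi => ⟨hi.2, mem_centralizer_singleton_iff.2 (clsA_comm h.sq hi.1 h.a₀A)⟩)
      fun x hx => ⟨DV hx, mem_centralizer_singleton_iff.2 ?_⟩
    obtain ⟨v, hv, rfl⟩ := (S.mem_Dv hN).1 hx
    have e1 := S.comm hv (H70.conj_mem_of_mem_norm hN hv)
    rw [inv_eq_of_mul_eq_one_right (S.sq hv)]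
    rw [inv_eq_of_mul_eq_one_right a2] at e1 ⊢
    calc v * a₀ * v * a₀ * a₀ = a₀ * (a₀ * v * a₀ * v) := by
          rw [mul_assoc (v * a₀ * v), a2, ← mul_assoc, ← mul_assoc, ← mul_assoc, a2]; group
      _ = a₀ * (v * a₀ * v * a₀) := by rw [← e1]; group
  have h1 := H49.card_sup_mul_card_inf (H := A ⊓ S.V) (K := Dv S.V a₀) (Or.inl (H70.norm_of_cent
    fun i hi => mem_centralizer_iff.2 fun x hx => S.comm (DV hx) hi.2))
  have h2 := S.clsA_card h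
  have h3 := card_le_of_le hle
  have hI : 0 < Nat.card ↥(A ⊓ S.V) := Nat.card_pos
  have hJ : 0 < Nat.card ↥((A ⊓ S.V) ⊓ Dv S.V a₀) := Nat.card_pos
  have h4 : Nat.card ↥(A ⊓ S.V) * Nat.card (Dv S.V a₀) ≤ Nat.card A := by
    rw [← h1, h2]
    exact Nat.mul_le_mul_right _ h3
  rcases S.inv_card hN h.a₀V (a2 ▸ one_mem _) with ⟨k1, -, k3⟩ | ⟨-, k3⟩
  · rw [k3] at h4 h1
    have : Fact (Nat.Prime 2) := ⟨Nat.prime_two⟩
    have hP : IsPGroup 2 A := fun a => ⟨1, Subtype.ext (by simpa [pow_two] using h.sq a a.2)⟩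
    obtain ⟨n, hn⟩ := IsPGroup.iff_card.1 hP
    have h5 := H42.card_mul_relIndex (inf_le_left : A ⊓ S.V ≤ A)
    obtain ⟨m, -, hm⟩ := (Nat.dvd_prime_pow Nat.prime_two).1 (hn ▸ Dvd.intro_left _ h5)
    rw [hm] at h5
    have h6 : 2 ^ 4 ≤ 2 ^ m := Nat.le_of_mul_le_mul_left (h4.trans h5.ge) hI
    have h7 : 2 ^ m < 2 ^ 5 := Nat.lt_of_mul_lt_mul_left (a := Nat.card ↥(A ⊓ S.V)) (by
      rw [h5, mul_comm]; exact hc)
    rw [Nat.pow_le_pow_iff_right one_lt_two] at h6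
    rw [Nat.pow_lt_pow_iff_right one_lt_two] at h7
    obtain rfl : m = 4 := by omega
    refine ⟨k1, by omega, (eq_of_le_of_card_ge hle ?_).ge⟩
    refine Nat.le_of_mul_le_mul_right ?_ hJ
    rw [h1, ← h2, ← h5]
    rfl
  · rw [k3] at h4
    omega

/-- notes/R24.md, section ClsA -/
theorem St.pin {A W : Subgroup G} {a₀ t : G} (h : MC S.V A W a₀ t) {y : Ty} (ok : S.co = y.co) (hA : A ≤ S.RX y)
    (hI : A ⊓ S.V ≤ S.IX y) (hC : ¬ Cv S.V a₀ ≤ S.IX y) : S.Cand y A ∧ W = S.WX y := by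
  have ht : t ∉ S.WX y := fun ht => hC ((S.mc_cv h).trans fun w hw => by
    obtain ⟨a, ha, i, hi, rfl⟩ := (S.mc_mem h).1 hw
    exact mul_mem (S.cWX ok ht (hA ha)) (hI hi))
  have hI' : A ⊓ S.V = S.IX y := le_antisymm hI fun j hj => by
    have hW : j ∈ W := S.mc_cv h ⟨hj.1, mem_centralizer_singleton_iff.2
      (mem_centralizer_iff.1 hj.2 a₀ (hA h.a₀A)).symm⟩
    obtain ⟨a, ha, i, hi, rfl⟩ := (S.mc_mem h).1 hW
    have h1 := S.freeX ok h.tV ht (hA ha) ((mul_mem_cancel_right (hI hi)).1 hj)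
    rw [S.comm h.tV h1, mul_inv_cancel_right, mul_inv_cancel, one_mul]
    exact hi
  have hW : W = S.WX y := by
    refine le_antisymm (fun w hw => ?_) fun w hw => h.a₀W w (S.par_le _ hw) ?_
    · obtain ⟨a, ha, i, hi, rfl⟩ := (S.mc_mem h).1 hw
      exact mul_mem (S.cVX ok h.tV (hA ha)) (S.IX_le_WX ok (hI hi))
    · exact (hI'.ge (S.cWX ok hw (hA h.a₀A))).1
  refine ⟨⟨ok, hA, h.sq, hI', fun r hr => ?_⟩, hW⟩
  have h1 := S.card_bar h.AN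
  rw [← h.card, hW, S.card_WX ok, hI', S.card_IX ok] at h1
  have h2 := S.card_pre (sg_le y.msk)
  rw [S.card_RX y] at h2
  have h3 : S.bar A ≤ sg y.msk := fun g hg => by
    obtain ⟨b, hb, -, rfl⟩ := S.mem_bar.1 hg
    exact (hA hb).2
  have h4 : S.bar A = sg y.msk := eq_of_le_of_card_ge h3 (by
    have := Nat.eq_of_mul_eq_mul_left (show 0 < y.ni by cases y <;> decide) h1
    omega)
  obtain ⟨a, ha, haN, e⟩ := S.mem_bar.1 (h4.ge hr.2)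
  exact ⟨a, ha, a⁻¹ * r, (S.p_eq_iff haN hr.1).1 e, (mul_inv_cancel_left a r).symm⟩

end Cfsg.Agent.R24
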