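import Cfsg.Agent.R24.WrongA
import Cfsg.Agent.R24.Base3
import Cfsg.Agent.R24.ClsA

/-! Project R24, section Wrong: the wrong types of configuration. -/

set_option autoImplicit false
set_option linter.unusedSectionVars false

namespace Cfsg.Agent.R24

open Subgroup Cfsg.Agent.H14
open scoped commutatorElement

variable {G : Type*} [Group G] [Finite G] (S : St G)

namespace Wrong

abbrev X : Subgroup G := S.pre (sg (mk S.co))
abbrev J : Subgroup G := S.V ⊓ centralizer (X S : Set G)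
abbrev U : Subgroup G := S.par (LU S.co)

theorem X_eq : S.pre (if S.co then Hx else Fx) = X S := by
  unfold X mk
  cases S.co <;> rfl

variable {S}

theorem lift {e : ℕ} (he : e &&& mk S.co = e) : ∃ r ∈ X S, GE.pk (S.p r) = te e := by
  obtain ⟨g, hg, e1⟩ := exists_te (lt_of he)
  obtain ⟨a, ha, rfl⟩ := S.p_surj g (sg_le _ hg)
  exact ⟨a, ⟨ha, (mem_sg (mk_mem _) _).2 ⟨e, lt_of he, he, e1⟩⟩, e1⟩

theorem lift2 {a b : ℕ} (ha : a &&& mk S.co = a) (hb : b &&& mk S.co = b) : ∃ r ∈ X S, ∃ s ∈ X S,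
    GE.pk (S.p r) = te a ∧ GE.pk (S.p s) = te b ∧ GE.pk (S.p (r * s)) = te (a ^^^ b) := by
  obtain ⟨r, hr, e⟩ := lift ha
  obtain ⟨s, hs, e'⟩ := lift hb
  refine ⟨r, hr, s, hs, e, e', ?_⟩
  rw [S.p_mul _ hr.1 _ hs.1, GE.pk_mul, e, e', ← mulx_xor (mk_mem' _) a (lt_of ha) b (lt_of hb) ha hb]
  exact te_mul a (lt_of ha) b (lt_of hb)

theorem gens {K : Subgroup G} (hV : S.V ≤ K)
    (h : ∀ r ∈ X S, ∀ i < 10, (mk S.co).testBit i = true → GE.pk (S.p r) = gen i → r ∈ K) : X S ≤ K := by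
  have : sg (mk S.co) ≤ S.bar K := (closure_le _).2 (by
    rintro g ⟨i, hi, hb, e⟩
    have m : g ∈ sg (mk S.co) := subset_closure ⟨i, hi, hb, e⟩
    obtain ⟨a, ha, rfl⟩ := S.p_surj g (sg_le _ m)
    exact S.mem_bar.2 ⟨a, h a ⟨ha, m⟩ i hi hb e, ha, rfl⟩)
  intro r hr
  obtain ⟨b, hb, hn, e⟩ := S.mem_bar.1 (this hr.2)
  simpa using mul_mem hb (hV ((S.p_eq_iff hn hr.1).1 e))

theorem cm_eq {r : G} (hr : r ∈ S.N) {P m : ℕ} (e : GE.pk (S.p r) = P) (hm : Dom S.co m) :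
    ⁅S.κ m, r⁆ = S.κ (m ^^^ im P m) ∧ Dom S.co (m ^^^ im P m) :=
  e ▸ ⟨S.comm_κ hr hm, hm.xor (im_dom (S.p_mem r hr) hm)⟩

theorem cm_mem {v r : G} (hv : v ∈ S.V) (hr : r ∈ S.N) : ⁅v, r⁆ ∈ S.V := by
  have := mul_mem hv ((mem_normalizer_iff.1 hr _).1 (inv_mem hv))
  rwa [← mul_assoc, ← mul_assoc] at this

theorem cm_mul {v w r : G} (hv : v ∈ S.V) (hw : w ∈ S.V) (hr : r ∈ S.N) : ⁅v * w, r⁆ = ⁅v, r⁆ * ⁅w, r⁆ := by
  rw [commutatorElement_mul_left_eq_conj_mul, S.comm hv (cm_mem hw hr), mul_inv_cancel_right,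
    S.comm (cm_mem hw hr) (cm_mem hv hr)]

theorem cm_rs {v r s : G} (hr : r ∈ X S) (h : ⁅v, s⁆ ∈ J S) : ⁅v, r * s⁆ = ⁅v, r⁆ * ⁅v, s⁆ := by
  rw [commutatorElement_mul_right_eq_mul_conj, mul_assoc ⁅v, r⁆, h.2 r hr, mul_assoc, mul_inv_cancel_right]

theorem cm_congr {v r s : G} (hv : v ∈ S.V) (hr : r ∈ S.N) (hs : s ∈ S.N) (e : S.p r = S.p s) : ⁅v, r⁆ = ⁅v, s⁆ := by
  obtain ⟨x, hx, rfl⟩ := S.rp_surj hv
  rw [(cm_eq hr rfl (rp_dom _ x hx)).1, (cm_eq hs rfl (rp_dom _ x hx)).1, e]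

theorem notV {r : G} {e : ℕ} (h : GE.pk (S.p r) = te e) (he : e ≠ 0 ∧ e < 1024) : r ∉ S.V := fun k =>
  he.1 (te_inj e he.2 0 (by norm_num) (by rw [← h, S.p_V k, te_zero]))

theorem U_iff {m : ℕ} (hm : Dom S.co m) : S.κ m ∈ U S ↔ ub S.co m = true := by
  rw [ub_iff]; exact S.mem_par_iff (LU_dom _) hm

theorem LJ_mem {j : ℕ} (hj : j ∈ LJ S.co) : S.κ j ∈ J S ∧ S.κ j ∈ U S := by
  obtain ⟨h1, h2, h3⟩ := m1 hj
  refine ⟨⟨S.κ_mem j, fun r hr => ?_⟩, (U_iff h1).2 h2⟩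
  refine mem_centralizer_singleton_iff.1 (gens (K := centralizer {S.κ j}) (fun v hv => ?_) (fun r hr i hi hb e => ?_) hr)
  · exact mem_centralizer_singleton_iff.2 (S.comm hv (S.κ_mem j))
  · exact mem_centralizer_singleton_iff.2 ((S.cent_κ hr.1 h1).2 (e ▸ h3 i hi hb))

theorem jb_eq {m : ℕ} (hm : Dom S.co m) (h : jb S.co m = true) : ∃ j ∈ LJ S.co, S.κ m = S.κ j :=
  (jb_iff.1 h).imp fun _ k => ⟨k.1, (S.κ_eq_iff hm (m1 k.1).1).2 k.2⟩

theorem jb_mem {m : ℕ} (hm : Dom S.co m) (h : jb S.co m = true) : S.κ m ∈ J S :=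
  let ⟨_, hj, e⟩ := jb_eq hm h
  e ▸ (LJ_mem hj).1

theorem mov {v : G} (hv : v ∈ S.V) (h : ∀ r ∈ X S, ∀ s ∈ X S, ⁅v, r⁆ = 1 ∨ ⁅v, s⁆ = 1 ∨ ⁅v, r * s⁆ = 1) :
    v ∈ U S ∧ (S.co = false → ∃ j ∈ LJ S.co, v = S.κ j) := by
  obtain ⟨x, hx, rfl⟩ := S.rp_surj hv
  have d := rp_dom S.co x hx
  rcases m3 (co := S.co) hx with k | ⟨q, hq, k1, k2, k3⟩
  · split_ifs at k with c
    · exact ⟨(U_iff d).2 k, fun c' => absurd c (by simp [c'])⟩
    · obtain ⟨j, hj, e⟩ := jb_eq d k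
      exact ⟨e ▸ (LJ_mem hj).2, fun _ => ⟨j, hj, e⟩⟩
  · exfalso
    obtain ⟨r, hr, s, hs, e1, e2, e3⟩ := lift2 (Lm_ok _ q hq).1 (Lm_ok _ q hq).2
    have a1 := cm_eq hr.1 e1 d
    have a2 := cm_eq hs.1 e2 d
    have a3 := cm_eq (mul_mem hr hs).1 e3 d
    rcases h r hr s hs with c | c | c
    · exact k1 ((S.κ_one _ a1.2).1 (a1.1 ▸ c))
    · exact k2 ((S.κ_one _ a2.2).1 (a2.1 ▸ c))
    · exact k3 ((S.κ_one _ a3.2).1 (a3.1 ▸ c))

theorem J_one {v r : G} (hv : v ∈ J S) (hr : r ∈ X S) : ⁅v, r⁆ = 1 :=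
  commutatorElement_eq_one_iff_mul_comm.2 (hv.2 r hr).symm

theorem J_le : J S ≤ U S := fun _ hv => (mov hv.1 fun _ hr _ _ => Or.inl (J_one hv hr)).1

theorem nJ : X S ≤ normalizer (J S : Set G) := fun r hr =>
  centralizer_le_normalizer _ fun _ hj => (hj.2 r hr).symm

theorem swap {K : Subgroup G} {a b : G} (h : ⁅a, b⁆ ∈ K) : ⁅b, a⁆ ∈ K := commutatorElement_inv a b ▸ inv_mem h

theorem UJ {u r : G} (hu : u ∈ U S) (hr : r ∈ X S) : ⁅u, r⁆ ∈ J S := by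
  have hv := S.par_le _ hu
  refine swap ((gens (K := H70.relCent {u} (J S)) (fun v k => ⟨nJ (S.V_le_pre _ k), ?_⟩)
    (fun r hr i hi hb e => ⟨nJ hr, ?_⟩) hr).2 u rfl)
  · rintro _ rfl
    rw [commutatorElement_eq_one_iff_mul_comm.2 (S.comm k hv)]; exact one_mem _
  · rintro u rfl
    obtain ⟨x, hx, rfl⟩ := S.rp_surj hv
    have d := rp_dom S.co x hx
    have a := cm_eq hr.1 e d
    exact swap (a.1 ▸ jb_mem a.2 (m2 hx ((U_iff d).1 hu) i hi hb))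

theorem nU : X S ≤ normalizer (U S : Set G) := fun r hr => mem_normalizer_fintype fun u hu => by
  simpa [commutatorElement_def] using mul_mem (J_le (swap (UJ hu hr))) hu

theorem VU {v r : G} (hv : v ∈ S.V) (hr : r ∈ X S) : ⁅v, r⁆ ∈ U S := by
  refine swap ((gens (K := H70.relCent S.V (U S)) (fun w k => ⟨nU (S.V_le_pre _ k), fun c hc => ?_⟩)
    (fun r hr i hi hb e => ⟨nU hr, fun c hc => ?_⟩) hr).2 v hv)
  · rw [commutatorElement_eq_one_iff_mul_comm.2 (S.comm k hc)]; exact one_mem _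
  · obtain ⟨x, hx, rfl⟩ := S.rp_surj hc
    have d1 := rp_dom S.co (x % 64) (by omega)
    have d2 := rp_dom S.co (64 * (x / 64)) (by omega)
    have a1 := cm_eq hr.1 e d1
    have a2 := cm_eq hr.1 e d2
    refine swap ?_
    rw [m6 hx, S.κ_xor _ _ d1 d2, cm_mul (S.κ_mem _) (S.κ_mem _) hr.1, a1.1, a2.1]
    exact mul_mem ((U_iff a1.2).2 ((m5 hi hb).1 _ (by omega))) ((U_iff a2.2).2 ((m5 hi hb).2 _ (by omega)))

theorem fix {v : G} (hv : v ∈ S.V) : ∃ r ∈ X S, ∃ s ∈ X S, (r ∉ S.V ∧ ⁅v, r⁆ ∈ J S) ∧ (s ∉ S.V ∧ ⁅v, s⁆ ∈ J S) ∧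
    r * s ∉ S.V ∧ ⁅v, r * s⁆ ∈ J S := by
  obtain ⟨x, hx, rfl⟩ := S.rp_surj hv
  have d := rp_dom S.co x hx
  obtain ⟨q, hq, k1, k2⟩ := m4 (co := S.co) hx
  obtain ⟨o1, o2, o3, o4, o5⟩ := Lf_ok _ q hq
  obtain ⟨r, hr, s, hs, e1, e2, e3⟩ := lift2 o1 o2
  have a1 := cm_eq hr.1 e1 d
  have a2 := cm_eq hs.1 e2 d
  have b1 := a1.1 ▸ jb_mem a1.2 k1
  have b2 := a2.1 ▸ jb_mem a2.2 k2
  exact ⟨r, hr, s, hs, ⟨notV e1 o3, b1⟩, ⟨notV e2 o4, b2⟩, notV e3 o5, cm_rs hr b2 ▸ mul_mem b1 b2⟩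

theorem card_list {D : Subgroup G} (L : List G) (h : ∀ v ∈ D, v ∈ L) : Nat.card D ≤ L.length := by
  classical
  have : (D : Set G) ⊆ (L.toFinset : Set G) := fun v hv => by simpa using h v hv
  exact (Set.ncard_le_ncard this).trans ((Set.ncard_coe_finset _).le.trans L.toFinset_card_le)

theorem cardJ : Nat.card (J S) ≤ if S.co then 2 else 4 := by
  split_ifs with c
  · refine card_list [1, S.z] fun v hv => ?_
    have e : S.R = X S := by rw [← X_eq, St.R, if_pos c, if_pos c]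
    simpa using S.cR hv.1 fun r hr => hv.2 r (e ▸ hr)
  · have c' : S.co = false := by simpa using c
    refine (card_list ((LJ S.co).map S.κ) fun v hv => ?_).trans (by rw [c']; rfl)
    obtain ⟨j, hj, rfl⟩ := (mov hv.1 fun _ hr _ _ => Or.inl (J_one hv hr)).2 c'
    exact List.mem_map_of_mem hj

theorem tri {B : Subgroup G} (hB : B ≤ X S) (hc : 32 * Nat.card ↥(B ⊓ S.V) ≤ Nat.card B) {r s : G} (hr : r ∈ X S)
    (hs : s ∈ X S) : ∃ c ∈ B, S.p c = S.p r ∨ S.p c = S.p s ∨ S.p c = S.p (r * s) := by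
  have le : S.bar B ≤ sg (mk S.co) := fun g hg => by
    obtain ⟨b, hb, -, rfl⟩ := S.mem_bar.1 hg
    exact (hB hb).2
  have c1 : 32 ≤ Nat.card (S.bar B) := by
    rw [S.card_bar (hB.trans (S.pre_le _)), mul_comm] at hc
    exact Nat.le_of_mul_le_mul_left hc Nat.card_pos
  have c2 := ((S.bar B).subgroupOf (sg (mk S.co))).index_mul_card
  rw [Nat.card_congr (subgroupOfEquivOfLe le).toEquiv, card_sg (mk_mem _), pc_mk] at c2
  have k : S.p r ∈ S.bar B ∨ S.p s ∈ S.bar B ∨ S.p r * S.p s ∈ S.bar B := by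
    have c3 : ((S.bar B).subgroupOf (sg (mk S.co))).index = 1 ∨ ((S.bar B).subgroupOf (sg (mk S.co))).index = 2 := by
      generalize ((S.bar B).subgroupOf (sg (mk S.co))).index = n at c2
      rcases n with _ | _ | _ | n <;> first | omega | nlinarith
    rcases c3 with c3 | c3
    · exact Or.inl ((index_eq_one.1 c3).ge (mem_top (⟨_, hr.2⟩ : sg (mk S.co))))
    · have := mul_mem_iff_of_index_two c3 (a := ⟨_, hr.2⟩) (b := ⟨_, hs.2⟩)
      simp only [mem_subgroupOf, coe_mul] at this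
      tauto
  rw [S.p_mul _ hr.1 _ hs.1]
  rcases k with k | k | k <;> obtain ⟨b, hb, -, e⟩ := S.mem_bar.1 k
  · exact ⟨b, hb, Or.inl e⟩
  · exact ⟨b, hb, Or.inr (Or.inl e)⟩
  · exact ⟨b, hb, Or.inr (Or.inr e)⟩

theorem fixU {B : Subgroup G} (hB : B ≤ X S) (hc : 32 * Nat.card ↥(B ⊓ S.V) ≤ Nat.card B) {v : G} (hv : v ∈ S.V)
    (h : ∀ b ∈ B, b * v = v * b) : v ∈ U S ∧ (S.co = false → ∃ j ∈ LJ S.co, v = S.κ j) := by
  refine mov hv fun r hr s hs => ?_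
  obtain ⟨c, hc, k⟩ := tri hB hc hr hs
  have e : ⁅v, c⁆ = 1 := commutatorElement_eq_one_iff_mul_comm.2 (h c hc).symm
  exact k.imp (fun k => cm_congr hv (hB hc).1 hr.1 k ▸ e) (Or.imp (fun k => cm_congr hv (hB hc).1 hs.1 k ▸ e)
    fun k => cm_congr hv (hB hc).1 (mul_mem hr hs).1 k ▸ e)

theorem small {w : G} (hw : w ∈ U S) {I : Subgroup G} (hI : ¬ J S ≤ I) (h : ∀ r ∈ X S, ⁅w, r⁆ ∈ I) : w ∈ J S := by
  have hv := S.par_le _ hw
  have k : ∀ r ∈ X S, ⁅w, r⁆ ∈ J S ⊓ I := fun r hr => ⟨UJ hw hr, h r hr⟩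
  have c : Nat.card ↥(J S ⊓ I) * 2 ≤ Nat.card (J S) := by
    obtain ⟨n, hn⟩ := card_dvd_of_le (inf_le_left : J S ⊓ I ≤ J S)
    have h0 : 0 < Nat.card (J S) := Nat.card_pos
    rcases n with _ | _ | n
    · omega
    · exact absurd (inf_eq_left.1 (eq_of_le_of_card_ge inf_le_left (by omega))) hI
    · rw [hn]; exact Nat.mul_le_mul_left _ (by omega)
  have cJ := cardJ (S := S)
  split_ifs at cJ with co
  · have := eq_bot_of_card_le (J S ⊓ I) (by omega)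
    exact ⟨hv, fun r hr => (commutatorElement_eq_one_iff_mul_comm.1 (mem_bot.1 (this ▸ k r hr))).symm⟩
  · obtain ⟨j, hj, rfl⟩ := (mov hv fun r hr s hs => by
      by_contra! n
      have e : ⁅w, r⁆ ≠ ⁅w, s⁆ := fun e => n.2.2 (by rw [cm_rs hr (k s hs).1, e, S.sq (k s hs).1.1])
      have : 2 < ((J S ⊓ I : Subgroup G) : Set G).ncard := (Set.two_lt_ncard_iff (Set.toFinite _)).2
        ⟨1, _, _, one_mem _, k r hr, k s hs, n.1.symm, n.2.1.symm, e⟩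
      change 2 < Nat.card ↥(J S ⊓ I) at this
      omega).2 (by simpa using co)
    exact (LJ_mem hj).1

theorem bound {B D I : Subgroup G} (hB : B ≤ X S) (hc : 32 * Nat.card ↥(B ⊓ S.V) ≤ Nat.card B) (hD : D ≤ U S)
    (hI : ¬ J S ≤ I) (h : ∀ w ∈ D, ∀ b ∈ B, ⁅w, b⁆ ∈ I) : Nat.card D ≤ Nat.card (J S) * Nat.card (J S) := by
  have hV : D ≤ S.V := hD.trans (S.par_le _)
  obtain ⟨g, hg, k⟩ : ∃ g ∈ X S, ∀ r ∈ X S, ∃ c ∈ B, S.p c = S.p r ∨ S.p c = S.p (g * r) := by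
    by_cases n : ∀ r ∈ X S, ∃ c ∈ B, S.p c = S.p r
    · exact ⟨1, one_mem _, fun r hr => (n r hr).imp fun c k => ⟨k.1, Or.inl k.2⟩⟩
    · push Not at n
      obtain ⟨g, hg, n⟩ := n
      exact ⟨g, hg, fun r hr => (tri hB hc hg hr).imp fun c k => ⟨k.1, k.2.resolve_left (n c k.1)⟩⟩
  let f : D →* G := MonoidHom.mk' (fun w => ⁅(w : G), g⁆) fun a b => cm_mul (hV a.2) (hV b.2) hg.1
  have h1 : f.range ≤ J S := by
    rintro _ ⟨w, rfl⟩
    exact UJ (hD w.2) hg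
  have h2 : f.ker.map D.subtype ≤ J S := by
    rintro _ ⟨w, hw, rfl⟩
    have e : ⁅(w : G), g⁆ = 1 := hw
    refine small (hD w.2) hI fun r hr => ?_
    obtain ⟨c, hc, k | k⟩ := k r hr
    · exact cm_congr (hV w.2) (hB hc).1 hr.1 k ▸ h w w.2 c hc
    · have := h w w.2 c hc
      rwa [cm_congr (hV w.2) (hB hc).1 (mul_mem hg hr).1 k, cm_rs hg (UJ (hD w.2) hr), e, one_mul] at this
  rw [← f.ker.card_mul_index, index_ker, ← card_map_of_injective D.subtype_injective]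
  exact Nat.mul_le_mul (card_le_of_le h2) (card_le_of_le h1)

end Wrong

open Wrong

/-- notes/R24.md, section Wrong -/
theorem St.fixW {B : Subgroup G} (hB : B ≤ S.pre (if S.co then Hx else Fx)) (hc : 32 * Nat.card ↥(B ⊓ S.V) ≤ Nat.card B) :
    Nat.card ↥(S.V ⊓ centralizer (B : Set G)) ≤ 4 := by
  rw [X_eq] at hB
  have cJ := cardJ (S := S)
  split_ifs at cJ with co
  · refine (bound (I := ⊥) (D := S.V ⊓ centralizer (B : Set G)) hB hc (fun v hv => (fixU hB hc hv.1 hv.2).1) (fun k => S.z_ne (mem_bot.1 (k ?_)))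
      fun w hw b hb => mem_bot.2 (commutatorElement_eq_one_iff_mul_comm.2 (hw.2 b hb).symm)).trans
      (Nat.mul_le_mul cJ cJ)
    rw [St.z, if_pos co]
    exact (LJ_mem (by simp [LJ, co])).1
  · refine (card_le_of_le fun v hv => ?_).trans cJ
    obtain ⟨j, hj, rfl⟩ := (fixU hB hc hv.1 hv.2).2 (by simpa using co)
    exact (LJ_mem hj).1

/-- notes/R24.md, section Wrong -/
theorem St.wrong {A W : Subgroup G} {a₀ t : G} (h : MC S.V A W a₀ t) (hA : A ≤ S.pre (if S.co then Hx else Fx))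
    (hc : 32 * Nat.card ↥(A ⊓ S.V) ≤ Nat.card A) : False := by
  rw [X_eq] at hA
  have ab : ∀ a ∈ A, ∀ b ∈ A, a * b = b * a := fun a ha b hb => by
    rw [← inv_eq_of_mul_eq_one_right (h.sq _ (mul_mem ha hb)), mul_inv_rev, inv_eq_of_mul_eq_one_right (h.sq a ha),
      inv_eq_of_mul_eq_one_right (h.sq b hb)]
  have hI : ¬ J S ≤ A := fun le => by
    have key : ∀ c ∈ A, ∀ r ∈ X S, S.p c = S.p r → ¬ (r ∉ S.V ∧ ⁅t, r⁆ ∈ J S) := fun c hc r hr e k =>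
      k.1 ((S.p_one r hr.1).1 (e ▸ S.p_V (h.tI c hc (le (cm_congr h.tV (hA hc).1 hr.1 e ▸ k.2 : ⁅t, c⁆ ∈ J S)))))
    obtain ⟨r, hr, s, hs, k1, k2, k3⟩ := fix h.tV
    obtain ⟨c, hc, e | e | e⟩ := tri hA hc hr hs
    · exact key c hc r hr e k1
    · exact key c hc s hs e k2
    · exact key c hc _ (mul_mem hr hs) e k3
  have hW : W ≤ U S := fun w hw => by
    obtain ⟨a, ha, i, hi, rfl⟩ := (S.mc_mem h).1 hw
    exact mul_mem (VU h.tV (hA ha)) (fixU hA hc hi.2 fun b hb => ab b hb i hi.1).1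
  have b := bound hA hc hW hI h.cWA
  have cJ : Nat.card (J S) ≤ 4 := cardJ.trans (by split_ifs <;> omega)
  have := b.trans (Nat.mul_le_mul cJ cJ)
  have h0 : 0 < Nat.card ↥(A ⊓ S.V) := Nat.card_pos
  rw [h.card] at this
  omega

end Cfsg.Agent.R24
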