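import Cfsg.Agent.R24.Base1
import Cfsg.Agent.R24.Base2
import Cfsg.Agent.R24.Inv
import Cfsg.Agent.R24.EA5
import Cfsg.Agent.R24.TyF
import Cfsg.Agent.R24.Wrong

set_option autoImplicit false

namespace Cfsg.Agent.R24

open Subgroup Cfsg.Agent.H14

variable {G : Type*} [Group G] [Finite G] (S : St G)

theorem WC_comm {G : Type*} [Group G] {W : Subgroup G} (sq : ∀ a ∈ W, a * a = 1) {a b : G}
    (ha : a ∈ W) (hb : b ∈ W) : a * b = b * a := by
  rw [← inv_eq_of_mul_eq_one_right (sq _ (mul_mem ha hb)), mul_inv_rev,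
    inv_eq_of_mul_eq_one_right (sq a ha), inv_eq_of_mul_eq_one_right (sq b hb)]

theorem St.WC_small {W : Subgroup G} (h : W ≤ S.pre Hx ∨ W ≤ S.pre Fx) (sq : ∀ a ∈ W, a * a = 1)
    (hc : Nat.card W = 2048) (hi : Nat.card ↥(W ⊓ S.V) ≤ 64) : False := by
  have h1 : ∀ k ∈ [63, 207], W ≤ S.pre (sg k) → 32 ≤ Nat.card ↥(W ⊓ S.V) := fun k hk hW => by
    have h2 := S.card_bar (hW.trans (S.pre_le _))
    have h3 : Nat.card (S.bar W) ≤ Nat.card (sg k) := card_le_of_le fun g hg => by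
      obtain ⟨b, hb, -, rfl⟩ := S.mem_bar.1 hg
      exact (hW hb).2
    have h4 : Nat.card (sg k) = 64 := by
      simp only [List.mem_cons, List.not_mem_nil, or_false] at hk
      rcases hk with rfl | rfl <;> rw [card_sg (by simp)] <;> decide +kernel
    by_contra h5
    have := Nat.mul_le_mul (show Nat.card ↥(W ⊓ S.V) ≤ 31 by omega) (h4 ▸ h3)
    omega
  have h2 : 32 ≤ Nat.card ↥(W ⊓ S.V) := h.elim (h1 63 (by simp)) (h1 207 (by simp))
  have h3 : ¬ W ≤ S.pre (if S.co then Hx else Fx) := fun e => by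
    have h4 := S.fixW e (by omega)
    have := card_le_of_le (show W ⊓ S.V ≤ S.V ⊓ centralizer (W : Set G) from
      le_inf inf_le_right fun x hx y hy => WC_comm sq hy hx.1)
    omega
  have h4 : ∀ y : Ty, S.co = y.co → y ≠ .oE → ¬ W ≤ S.RX y := fun y ok hy e => by
    have h5 := card_le_of_le fun x (hx : x ∈ W ⊓ S.V) =>
      S.fixX ok hy e (by omega) hx.2 fun b hb => WC_comm sq hb hx.1
    rw [S.card_IX ok] at h5
    cases y <;> simp only [Ty.ni] at h5 <;> first | omega | exact hy rfl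
  cases hco : S.co
  · rw [hco] at h3
    exact h.elim (h4 .cH hco (by decide)) h3
  · rw [hco] at h3
    exact h.elim h3 (h4 .oF hco (by decide))

theorem St.WC_main {W : Subgroup G} (h : W ≤ S.T) (sq : ∀ a ∈ W, a * a = 1)
    (hc : Nat.card W = 2048) : W ≤ S.V := by
  intro b hb
  by_contra bV
  have hN := h.trans (S.pre_le _)
  have h1 := S.card_bar hN
  have hT : S.bar W ≤ Tx := fun g hg => by
    obtain ⟨b, hb, -, rfl⟩ := S.mem_bar.1 hg
    exact (h hb).2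
  have sq' : ∀ g ∈ S.bar W, g * g = 1 := fun g hg => by
    obtain ⟨b, hb, bN, rfl⟩ := S.mem_bar.1 hg
    rw [← S.p_mul _ bN _ bN, sq b hb, S.p_id]
  by_cases h2 : 32 ≤ Nat.card (S.bar W)
  · have h3 : Nat.card ↥(W ⊓ S.V) ≤ 64 := by
      by_contra h4
      have := Nat.mul_le_mul (show 65 ≤ Nat.card ↥(W ⊓ S.V) by omega) h2
      omega
    have k : ∀ n ∈ S.N, ∀ A, H70.cj (S.p n) (S.bar W) ≤ A → H70.cj n W ≤ S.pre A := fun n hn A e =>
      H70.cj_le_iff.2 fun w hw => ⟨mul_mem (mul_mem hn (hN hw)) (inv_mem hn), by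
        rw [S.p_conj hn (hN hw)]
        exact H70.cj_le_iff.1 e _ (S.mem_bar.2 ⟨w, hw, hN hw, rfl⟩)⟩
    obtain ⟨n, hn, e⟩ : ∃ n ∈ S.N, H70.cj (S.p n) (S.bar W) ≤ Hx ∨ H70.cj (S.p n) (S.bar W) ≤ Fx := by
      rcases or_assoc.2 (ea5 hT sq' h2) with e | ⟨-, g, hg, e⟩
      · exact ⟨1, one_mem _, by rwa [S.p_id, H70.cj_one]⟩
      · obtain ⟨n, hn, rfl⟩ := S.p_surj g hg
        exact ⟨n, hn, e⟩
    refine S.WC_small (e.imp (k n hn _) (k n hn _)) ?_ ((H70.card_cj _ _).trans hc) ?_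
    · rintro _ ⟨a, ha, rfl⟩
      rw [← map_mul, sq a ha, map_one]
    · rwa [← H70.cj_eq_self hn, ← H70.cj_inf, H70.card_cj]
  have h3 : W ⊓ S.V ≤ Cv S.V b := fun x hx =>
    ⟨hx.2, mem_centralizer_singleton_iff.2 (WC_comm sq hx.1 hb)⟩
  have h4 : 64 < Nat.card ↥(W ⊓ S.V) := by
    by_contra h4
    have := Nat.mul_le_mul (show Nat.card ↥(W ⊓ S.V) ≤ 64 by omega)
      (show Nat.card (S.bar W) ≤ 31 by omega)
    omega
  have h5 := card_le_of_le h3
  obtain ⟨⟨g, hg, e⟩, h6, -⟩ := (S.inv_card (hN hb) bV (sq b hb ▸ one_mem _)).resolve_right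
    fun e => by omega
  have h7 : W ⊓ S.V = Cv S.V b := eq_of_le_of_card_ge h3 (by
    obtain ⟨k, hk⟩ := card_dvd_of_le h3
    rw [hk]
    refine mul_le_of_le_one_right' ?_
    by_contra h8
    have := Nat.mul_le_mul h4 (show 2 ≤ k by omega)
    omega)
  obtain ⟨g', hg', e1, e2⟩ := conj_into e (A := H70.cj g (S.bar W))
    (H70.cj_le_of_mem hg (hT.trans (sg_le _))) (H70.isPGroup_cj _ (syl_Tx.isP.to_le hT)) (by
      rintro _ ⟨a, ha, rfl⟩
      exact (conj_mul.trans (congrArg (fun x => g * x * g⁻¹)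
        (WC_comm sq' ha (S.mem_bar.2 ⟨b, hb, hN hb, rfl⟩)))).trans conj_mul.symm)
  obtain ⟨n, hn, pn⟩ := S.p_surj _ (mul_mem hg' hg)
  have h8 : S.p (n * b * n⁻¹) = g * S.p b * g⁻¹ := by
    rw [S.p_conj hn (hN hb), pn, ← mul_inv_eq_iff_eq_mul.2 e1]; group
  have h9 : ∀ x ∈ S.bar W, x ∈ ({1, S.p b} : Set _) := fun x hx => by
    obtain ⟨c, hc, cN, rfl⟩ := S.mem_bar.1 hx
    have := S.g1 (a := n * b * n⁻¹) (b := n * c * n⁻¹) (mul_mem (mul_mem hn (hN hb)) (inv_mem hn))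
      (h8 ▸ e) ⟨mul_mem (mul_mem hn cN) (inv_mem hn), by
        rw [S.p_conj hn cN, pn]
        exact e2 (H70.cj_mul g' g _ ▸ H70.conj_mem_cj _ hx)⟩
      (by rw [conj_mul, sq c hc, mul_one, mul_inv_cancel]; exact one_mem _) fun v hv => by
        have h10 : n⁻¹ * v * n ∈ W ⊓ S.V := h7 ▸ ⟨H70.conj_mem_of_mem_norm' hn hv.1,
          mem_centralizer_singleton_iff.2 (by
            calc _ = n⁻¹ * (v * (n * b * n⁻¹)) * n := by group
              _ = _ := by rw [mem_centralizer_singleton_iff.1 hv.2]; group)⟩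
        refine mem_centralizer_singleton_iff.2 ?_
        calc _ = n * (n⁻¹ * v * n * c) * n⁻¹ := by group
          _ = _ := by rw [WC_comm sq h10.1 hc]; group
    rw [← S.p_one _ (mul_mem (mul_mem hn cN) (inv_mem hn)), S.p_conj hn cN, S.p_conj hn (hN hb),
      conj_eq_one_iff, mul_left_inj, mul_right_inj] at this
    exact this
  have h10 : Nat.card (S.bar W) ≤ 2 :=
    (Set.ncard_le_ncard h9).trans ((Set.ncard_insert_le _ _).trans (by simp))
  have := Nat.mul_le_mul (h6 ▸ h5) h10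
  omega

/-- notes/R24.md, section WC -/
theorem St.wc {g : G} (h : H70.cj g S.V ≤ S.T) : H70.cj g S.V = S.V :=
  eq_of_le_of_card_ge (S.WC_main h (by
    rintro _ ⟨a, ha, rfl⟩
    rw [← map_mul, S.sq ha, map_one]) ((H70.card_cj _ _).trans S.card_V)) (H70.card_cj _ _).ge

/-- notes/R24.md, section WC -/
theorem St.norm_le {B : Subgroup G} (h1 : S.V ≤ B) (h2 : B ≤ S.T) : normalizer (B : Set G) ≤ S.N :=
  fun _ hg => H70.cj_eq_self_iff.1 (S.wc ((H70.cj_le_of_mem_norm hg h1).trans h2))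

/-- notes/R24.md, section WC -/
theorem St.sylT : H42.SylIn 2 S.T ⊤ := by
  obtain ⟨P, hP, h⟩ := H42.exists_sylIn S.two_T le_top
  by_contra h1
  exact (H42.lt_inf_normalizer hP.isP (h.lt_of_ne fun e => h1 (e ▸ hP))).ne'
    (S.syl_N.eq_of_le hP.isP.to_inf_left (inf_le_right.trans (S.norm_le (S.V_le_pre _) le_rfl))
      (le_inf h le_normalizer))

/-- notes/R24.md, section WC -/
theorem St.fus {x g : G} (hx : x ∈ S.V) (h : g * x * g⁻¹ ∈ S.V) : ∃ n ∈ S.N, n * x * n⁻¹ = g * x * g⁻¹ := by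
  have hV := S.two_T.to_le (S.V_le_pre _)
  obtain ⟨D, hD, h1⟩ := H42.exists_sylIn (H := centralizer {g * x * g⁻¹}) hV
    fun v hv => mem_centralizer_singleton_iff.2 (S.comm hv h)
  obtain ⟨c, hc, h2⟩ := hD.exists_conj (H70.isPGroup_cj g hV) (H70.cj_le_iff.2 fun v hv =>
    mem_centralizer_singleton_iff.2 (by rw [conj_mul, conj_mul, S.comm hv hx]))
  obtain ⟨k, -, h3⟩ := S.sylT.exists_conj hD.isP le_top
  have h4 : k ∈ S.N := H70.cj_eq_self_iff.1 (S.wc (H70.cj_le_iff.2 fun v hv => h3 v (h1 hv)))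
  have h5 : k * (c * g) ∈ S.N := H70.cj_eq_self_iff.1 (S.wc (by
    rw [H70.cj_mul, H70.cj_mul]
    exact H70.cj_le_iff.2 fun v hv => h3 v (H70.cj_le_iff.2 h2 hv)))
  refine ⟨c * g, (mul_mem_cancel_left h4).1 h5, ?_⟩
  rw [← mul_inv_eq_iff_eq_mul.2 (mem_centralizer_singleton_iff.1 hc)]; group

end Cfsg.Agent.R24
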