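import Cfsg.Agent.R24.Defs2
import Cfsg.Agent.R24.Base1
import Cfsg.Agent.R24.Base2
import Cfsg.Agent.R24.Base3
import Cfsg.Agent.R24.MN
import Cfsg.Agent.R24.TyF
import Cfsg.Agent.R24.WC
import Cfsg.Agent.R24.QNorm
import Cfsg.Agent.R24.CIa

set_option autoImplicit false

namespace Cfsg.Agent.R24

open Subgroup Cfsg.Agent.H14

variable {G : Type*} [Group G] [Finite G] (S : St G)

omit [Finite G] in
theorem St.CIb_bar_mono {B D : Subgroup G} (h : B ≤ D) : S.bar B ≤ S.bar D := fun _ hg =>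
  let ⟨b, hb, hn, e⟩ := S.mem_bar.1 hg
  S.mem_bar.2 ⟨b, h hb, hn, e⟩

theorem St.CIb_card_bar {D : Subgroup G} (h1 : S.V ≤ D) (h2 : D ≤ S.N) {k : ℕ} (h : Nat.card D = 2048 * k) :
    Nat.card (S.bar D) = k := by
  have := S.card_bar h2
  rw [inf_eq_right.2 h1, S.card_V, h] at this
  omega

/-- `D = B V` by counting -/
theorem St.CIb_sup {B D : Subgroup G} (h0 : B ≤ D) (h1 : S.V ≤ D) (h2 : D ≤ S.N) {k : ℕ} (h : Nat.card D = 2048 * k)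
    (h' : Nat.card B = Nat.card ↥(B ⊓ S.V) * k) {r : G} (hr : r ∈ D) : ∃ b ∈ B, ∃ v ∈ S.V, r = b * v := by
  have h3 := S.card_bar (h0.trans h2)
  rw [h'] at h3
  have h4 : S.bar B = S.bar D := eq_of_le_of_card_ge (S.CIb_bar_mono h0) (by
    rw [S.CIb_card_bar h1 h2 h, Nat.eq_of_mul_eq_mul_left Nat.card_pos h3])
  obtain ⟨b, hb, hn, e⟩ := S.mem_bar.1 (h4.ge (S.mem_bar.2 ⟨r, hr, h2 hr, rfl⟩))
  exact ⟨b, hb, _, (S.p_eq_iff hn (h2 hr)).1 e, by group⟩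

theorem St.CIb_T_norm : S.T ≤ normalizer (S.IX .cH : Set G) :=
  H70.norm_inf (S.pre_le _) (H70.norm_centralizer fun _ hx =>
    S.norm_pre hx.1 (norm_sg (k := 63) (by simp) hx.2))

namespace St.CI

variable {S} {Q P A : Subgroup G} {u : G} (h : S.CI Q P A u)
include h

omit [Finite G] in
theorem ui : u⁻¹ = u := inv_eq_of_mul_eq_one_right h.uu

omit [Finite G] in
theorem uI {i : G} (hi : i ∈ S.IX .cH) : u * i * u⁻¹ = i := by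
  rw [h.uA i (h.cand.inf.ge hi).1, mul_inv_cancel_right]

omit [Finite G] in
theorem VQ_le : S.VQ ≤ Q := h.qd.inf.ge.trans inf_le_left

omit [Finite G] in
theorem inf2 {w : G} (hw : w ∈ S.WX .cH) (hv : u * w * u⁻¹ ∈ S.V) : w ∈ S.IX .cH ∧ u * w * u⁻¹ = w := by
  have h1 : w ∈ S.IX .cH := h.cand.inf.le (mem_inf.2 ⟨h.fr w hw (mul_mem hv (inv_mem (S.par_le _ hw))), S.par_le _ hw⟩)
  exact ⟨h1, h.uI h1⟩

theorem cand2 : S.Cand .cH (H70.cj u (S.WX .cH)) := by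
  have hle : H70.cj u (S.WX .cH) ≤ S.RX .cH := H70.cj_le_iff.2 fun w hw => by
    have := mul_mem (h.cand.le (h.uP w (h.W.ge hw).2)) (S.V_le_pre _ (S.par_le _ hw))
    rwa [inv_mul_cancel_right] at this
  have hinf : H70.cj u (S.WX .cH) ⊓ S.V = S.IX .cH := by
    refine le_antisymm ?_ fun i hi => mem_inf.2 ⟨h.uI hi ▸ H70.conj_mem_cj u (S.IX_le_WX h.cand.ok hi), hi.1⟩
    rintro _ ⟨⟨w, hw, rfl⟩, hv⟩
    obtain ⟨h1, h2⟩ := h.inf2 hw hv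
    change u * w * u⁻¹ ∈ _
    rwa [h2]
  refine ⟨h.co, hle, ?_, hinf, fun r hr => S.CIb_sup hle (S.V_le_pre _) (S.pre_le _) (S.card_RX _) ?_ hr⟩
  · rintro _ ⟨w, hw, rfl⟩
    rw [← map_mul, S.sq (S.par_le _ hw), map_one]
  · rw [H70.card_cj, hinf, S.card_WX h.cand.ok, S.card_IX h.cand.ok]

theorem QT : Q ≤ S.T := h.qd.le.trans S.R_le_T

theorem comm_z {a b : G} (e : a * b * a⁻¹ = b ∨ a * b * a⁻¹ = S.z * b) : a * b * a⁻¹ * b⁻¹ ∈ S.IX .cH := by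
  rcases e with e | e <;> rw [e]
  · rw [mul_inv_cancel]; exact one_mem _
  · rw [mul_inv_cancel_right]; exact S.z_IX h.cand.ok

theorem split {w : G} (hw : w ∈ S.VQ ⊔ S.IX .cH) : ∃ v ∈ S.VQ, ∃ i ∈ S.IX .cH, v * i = w :=
  (H70.mem_sup_of_norm (h.VQ_le.trans (h.QT.trans S.CIb_T_norm))).1 hw

theorem LW : S.VQ ⊔ S.IX .cH ≤ S.WX .cH := sup_le (S.VQ_le_WX h.cand.ok) (S.IX_le_WX h.cand.ok)

theorem commL {x q : G} (hx : x ∈ H70.cj u (S.VQ ⊔ S.IX .cH)) (hq : q ∈ Q) : x * q * x⁻¹ * q⁻¹ ∈ S.IX .cH := by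
  obtain ⟨w, hw, rfl⟩ := hx
  change u * w * u⁻¹ * q * (u * w * u⁻¹)⁻¹ * q⁻¹ ∈ _
  have ha := h.uP q (h.QP hq)
  generalize e : u * q * u⁻¹ * q⁻¹ = a at ha
  have e' : q = u * (a * q) * u⁻¹ := by
    rw [← e, inv_mul_cancel_right, h.ui]
    calc q = (u * u) * q * (u * u) := by rw [h.uu]; group
      _ = _ := by group
  have h1 := S.cWX h.cand.ok (h.LW hw) (h.cand.le ha)
  have h2 : w * q * w⁻¹ * q⁻¹ ∈ S.IX .cH := by
    obtain ⟨v, hv, i, hi, rfl⟩ := h.split hw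
    have h3 := mul_mem hi (H70.conj_mem_of_mem_norm (S.CIb_T_norm (h.QT hq)) (inv_mem hi))
    have h4 := mul_mem (H70.conj_mem_of_mem_norm (S.CIb_T_norm (h.QT (h.VQ_le hv))) h3)
      (h.comm_z (h.qd.ex.comm v (h.VQ_le hv) q hq))
    rwa [show v * (i * (q * i⁻¹ * q⁻¹)) * v⁻¹ * (v * q * v⁻¹ * q⁻¹) = v * i * (q * i⁻¹ * q⁻¹) * (q * v⁻¹ * q⁻¹) by group,
      show v * i * (q * i⁻¹ * q⁻¹) * (q * v⁻¹ * q⁻¹) = v * i * q * (v * i)⁻¹ * q⁻¹ by group] at h4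
  have h5 := mul_mem h1 (H70.conj_mem_of_mem_norm (S.CIb_T_norm (h.PT (h.AP ha))) h2)
  rw [← h.uI h5] at h5
  convert h5 using 1
  conv_lhs => rw [e']
  group

theorem L_le : H70.cj u (S.VQ ⊔ S.IX .cH) ≤ S.R := fun x hx => by
  have hX := h.cand2.le (H70.cj_mono u h.LW hx)
  refine S.ci2 h.co hX fun r hr => ?_
  obtain ⟨q, hq, v, hv, rfl⟩ := h.qd.sup r hr
  have h1 := mul_mem (mem_inf.1 (h.commL hx hq)).1 (H70.conj_mem_of_mem_norm (h.QT hq).1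
    (mul_mem (H70.conj_mem_of_mem_norm hX.1 hv) (inv_mem hv)))
  convert h1 using 1
  group

theorem L_eq : H70.cj u (S.VQ ⊔ S.IX .cH) = H70.cj u (S.WX .cH) ⊓ S.R := by
  refine eq_of_le_of_card_ge (le_inf (H70.cj_mono u h.LW) h.L_le) ?_
  have h1 : H70.cj u (S.WX .cH) ⊓ S.R ≤ S.R ⊓ S.RX .cH := le_inf inf_le_right (inf_le_left.trans h.cand2.le)
  have h2 : S.R ⊓ S.RX .cH ≤ S.N := inf_le_right.trans (S.pre_le _)
  have h3 := card_le_of_le (S.CIb_bar_mono h1)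
  rw [S.CIb_card_bar (le_inf S.V_le_R (S.V_le_pre _)) h2 (k := 4) (S.ci4 h.co).2.2] at h3
  have h4 := card_le_of_le (show H70.cj u (S.WX .cH) ⊓ S.R ⊓ S.V ≤ S.IX .cH from
    (inf_le_inf_right _ inf_le_left).trans h.cand2.inf.le)
  rw [S.card_IX h.cand.ok] at h4
  rw [S.card_bar (h1.trans h2), H70.card_cj, (S.ci4 h.co).2.1]
  exact Nat.mul_le_mul h4 h3

theorem mem5 {x : G} (hx : x ∈ H70.cj u (S.VQ ⊔ S.IX .cH)) (hI : x ∉ S.IX .cH) :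
    x ∈ H70.cj u S.VQ ↔ ∃ g, g * S.z * g⁻¹ = x := by
  obtain ⟨w, hw, rfl⟩ := hx
  change u * w * u⁻¹ ∉ _ at hI
  change u * w * u⁻¹ ∈ _ ↔ ∃ g, _ = u * w * u⁻¹
  have h1 := S.ci3 h.co hw fun e => hI ((h.uI e).symm ▸ e)
  rw [H70.mem_cj, show u⁻¹ * (u * w * u⁻¹) * u = w by group, ← h1]
  refine ⟨fun ⟨n, _, e⟩ => ⟨u * n, by rw [← e]; group⟩, fun ⟨g, e⟩ => ?_⟩
  have e' : u⁻¹ * g * S.z * (u⁻¹ * g)⁻¹ = w := by
    rw [show u⁻¹ * g * S.z * (u⁻¹ * g)⁻¹ = u⁻¹ * (g * S.z * g⁻¹) * u by group, e]; group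
  exact e' ▸ S.fus S.z_mem (e'.symm ▸ S.par_le _ (h.LW hw))

theorem splitL {x : G} (hx : x ∈ H70.cj u (S.VQ ⊔ S.IX .cH)) : ∃ q ∈ Q, ∃ i ∈ S.IX .cH, x = q * i := by
  obtain ⟨q, hq, v, hv, e⟩ := h.qd.sup x (h.L_le hx)
  obtain ⟨v', hv', i, hi, e'⟩ := h.split (S.ci1 h.co hv fun r hr => by
    obtain ⟨q', hq', w, hw, rfl⟩ := h.qd.sup r hr
    have h1 := mul_mem (H70.conj_mem_of_mem_norm' (S.CIb_T_norm (h.QT hq)) (h.commL hx hq'))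
      (h.comm_z (h.qd.ex.comm _ (inv_mem hq) q' hq'))
    convert h1 using 1
    rw [mul_assoc (v * (q' * w)), ← mul_inv_rev, mul_assoc q' w v, S.comm hw hv, e]
    group)
  exact ⟨q * v', mul_mem hq (h.VQ_le hv'), i, hi, by rw [e, ← e', mul_assoc]⟩

end St.CI

/-- notes/R24.md, section CIb -/
theorem St.ci_conj {Q P A : Subgroup G} {u : G} (h : S.CI Q P A u) : H70.cj u S.VQ ≤ Q := by
  obtain ⟨ω, hω⟩ := S.exists_om
  obtain ⟨hM, hA⟩ := S.om_mem hω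
  obtain ⟨c1, c2⟩ := S.ci6 h.co hω
  have nL : ω ∈ normalizer ((H70.cj u (S.VQ ⊔ S.IX .cH) : Subgroup G) : Set G) := by
    rw [h.L_eq]
    exact inf_normalizer_le_normalizer_inf (mem_inf.2 ⟨S.norm3 h.cand2 hA hω.2.2, S.norm_R hM⟩)
  have h5 : H70.cj u S.VQ ≤ H70.cj u (S.VQ ⊔ S.IX .cH) := H70.cj_mono u le_sup_left
  have n5 : ∀ x ∈ H70.cj u S.VQ, ω * x * ω⁻¹ ∈ H70.cj u S.VQ := fun x hx => by
    by_cases hI : x ∈ S.IX .cH
    · rwa [c1 x hI, mul_inv_cancel_right]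
    · obtain ⟨g, e⟩ := (h.mem5 (h5 hx) hI).1 hx
      refine (h.mem5 (H70.conj_mem_of_mem_norm nL (h5 hx)) fun e' => hI ?_).2 ⟨ω * g, by rw [← e]; group⟩
      have := c1 _ e'
      rw [inv_mul_cancel_right, mul_assoc, mul_right_inj] at this
      rwa [mul_assoc, this] at e'
  have hq : ∀ x ∈ H70.cj u S.VQ, ω * x * ω⁻¹ * x⁻¹ ∈ Q := fun x hx => by
    obtain ⟨q, hq, i, hi, rfl⟩ := h.splitL (h5 hx)
    have := mul_mem (H70.conj_mem_of_mem_norm (h.qd.norm hM) hq) (inv_mem hq)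
    convert this using 1
    calc _ = ω * q * ω⁻¹ * (ω * i) * ω⁻¹ * i⁻¹ * q⁻¹ := by group
      _ = _ := by rw [c1 i hi]; group
  have cm : ∀ x ∈ H70.cj u S.VQ, ∀ y ∈ H70.cj u S.VQ, x * y = y * x := by
    rintro _ ⟨x, hx, rfl⟩ _ ⟨y, hy, rfl⟩
    rw [← map_mul, S.comm (S.par_le _ hx) (S.par_le _ hy), map_mul]
  intro x hx
  have h1 := n5 x hx
  have h2 := n5 _ h1
  have h3 : ω * (ω * (ω * x * ω⁻¹) * ω⁻¹) * ω⁻¹ = x := by
    calc _ = ω ^ 3 * x * (ω ^ 3)⁻¹ := by rw [pow_succ, pow_two]; group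
      _ = x := by rw [hω.2.2]; group
  have q1 := hq _ h1
  have s1 := h.cand2.sq _ (H70.cj_mono u (S.VQ_le_WX h.cand.ok) h1)
  generalize e1 : ω * x * ω⁻¹ = x1 at h1 h2 h3 q1 s1
  generalize e2 : ω * x1 * ω⁻¹ = x2 at h2 h3 q1
  have hs := mul_mem hx (mul_mem h1 h2)
  have hsV : x * (x1 * x2) ∈ S.V := by
    refine c2 _ (mem_inf.2 ⟨h.L_le (h5 hs), h.cand2.le (H70.cj_mono u (S.VQ_le_WX h.cand.ok) hs)⟩) ?_
    rw [← conj_mul, ← conj_mul, e1, e2, h3, ← mul_assoc x1, cm _ (mul_mem h1 h2) _ hx, mul_inv_cancel]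
    exact one_mem _
  have hsQ : x * (x1 * x2) ∈ Q := by
    obtain ⟨w, hw, e⟩ := hs
    rw [← e] at hsV ⊢
    change u * w * u⁻¹ ∈ _
    rw [(h.inf2 (S.VQ_le_WX h.cand.ok hw) hsV).2]
    exact h.VQ_le hw
  rw [inv_eq_of_mul_eq_one_right s1, cm _ h2 _ h1] at q1
  simpa only [mul_inv_cancel_right] using mul_mem hsQ (inv_mem q1)

end Cfsg.Agent.R24
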