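import Cfsg.Agent.R24.Defs2
import Cfsg.Agent.R24.CIb

set_option autoImplicit false

namespace Cfsg.Agent.R24

open Subgroup Cfsg.Agent.H14

variable {G : Type*} [Group G] [Finite G] (S : St G)

omit [Finite G] in
theorem St.CIc_swap {x v : G} (h : v * x * v⁻¹ = x ∨ v * x * v⁻¹ = S.z * x) :
    x * v * x⁻¹ = v ∨ x * v * x⁻¹ = S.z * v := by
  rcases h with h | h
  · left
    rw [← mul_inv_eq_iff_eq_mul.1 h, mul_inv_cancel_right]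
  · right
    calc _ = S.z * (S.z * x) * v * x⁻¹ := by rw [← mul_assoc S.z, S.z_sq, one_mul]
      _ = _ := by rw [← h]; group

omit [Finite G] in
theorem St.CIc_KZ {Q B : Subgroup G} (ex : H15.EX Q S.z) {u q : G} (hu : u ∈ S.C) (hB : B ≤ H70.cj u Q)
    (hq : q ∈ Q) : u * q * u⁻¹ ∈ S.KZ B := by
  refine ⟨mul_mem (mul_mem hu (mem_centralizer_singleton_iff.2 (ex.cen q hq))) (inv_mem hu), fun a ha => ?_⟩
  obtain ⟨b, hb, rfl⟩ := hB ha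
  change u * q * u⁻¹ * (u * b * u⁻¹) * (u * q * u⁻¹)⁻¹ = u * b * u⁻¹ ∨
    u * q * u⁻¹ * (u * b * u⁻¹) * (u * q * u⁻¹)⁻¹ = S.z * (u * b * u⁻¹)
  rw [conj_inv, conj_mul, conj_mul]
  refine (ex.comm q hq b hb).imp (fun e => by rw [e]) fun e => ?_
  rw [e, ← mul_assoc, mem_centralizer_singleton_iff.1 hu]
  group

omit [Finite G] in
theorem St.CIc_KZ1 {Q B : Subgroup G} (ex : H15.EX Q S.z) {q : G} (hB : B ≤ Q) (hq : q ∈ Q) : q ∈ S.KZ B :=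
  ⟨mem_centralizer_singleton_iff.2 (ex.cen q hq), fun a ha => ex.comm q hq a (hB ha)⟩

theorem St.CI.conj_split {S : St G} {Q P A : Subgroup G} {u : G} (h : S.CI Q P A u) {q : G} (hq : q ∈ Q) :
    ∃ a ∈ Q, ∃ i ∈ S.IX .cH, u * q * u⁻¹ = a * i := by
  have h5 := S.ci_conj h
  have hle : H70.cj u S.VQ ≤ S.R ⊓ S.RX .cH :=
    le_inf (h5.trans h.qd.le) ((H70.cj_mono u (S.VQ_le_WX h.cand.ok)).trans h.cand2.le)
  have hinf : H70.cj u S.VQ ⊓ S.V = S.VQ ⊓ S.IX .cH := by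
    refine le_antisymm ?_ fun i hi => mem_inf.2 ⟨h.uI hi.2 ▸ H70.conj_mem_cj u hi.1, (mem_inf.1 hi.2).1⟩
    rintro _ ⟨⟨w, hw, rfl⟩, hv⟩
    obtain ⟨h1, h2⟩ := h.inf2 (S.VQ_le_WX h.cand.ok hw) hv
    change u * w * u⁻¹ ∈ _
    rw [h2]
    exact mem_inf.2 ⟨hw, h1⟩
  have hb : u * q * u⁻¹ ∈ S.R := S.tzT (h.PT (H70.conj_mem_of_mem_norm h.uN (h.QP hq)))
    (S.CIc_KZ h.qd.ex h.uC (fun v hv => H70.mem_cj.2 (h5 (by
      have := H70.conj_mem_cj u hv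
      rwa [h.ui] at this ⊢))) hq).2
  obtain ⟨a, ha, v, hv, e⟩ := h.qd.sup _ hb
  have hk : v ∈ S.KZ (H70.cj u S.VQ) := by
    have := mul_mem (inv_mem (S.CIc_KZ1 h.qd.ex h5 ha)) (S.CIc_KZ h.qd.ex h.uC (H70.cj_mono u h.VQ_le) hq)
    rwa [e, inv_mul_cancel_left] at this
  obtain ⟨v', hv', i, hi, e'⟩ := h.split (S.ci5 h.co hv fun r hr => by
    obtain ⟨x, hx, w, hw, rfl⟩ := S.CIb_sup hle (le_inf S.V_le_R (S.V_le_pre _))
      (inf_le_right.trans (S.pre_le _)) (k := 4) (S.ci4 h.co).2.2 (by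
        rw [hinf, (S.ci4 h.co).1, H70.card_cj, S.card_VQ, h.co]; rfl) hr
    rw [show x * w * v * (x * w)⁻¹ = x * (w * v) * w⁻¹ * x⁻¹ by group, S.comm hw hv,
      show x * (v * w) * w⁻¹ * x⁻¹ = x * v * x⁻¹ by group]
    exact S.CIc_swap (hk.2 x hx))
  exact ⟨a * v', mul_mem ha (h.VQ_le hv'), i, hi, by rw [e, ← e', mul_assoc]⟩

/-- notes/R24.md, section CIc -/
theorem St.ci_norm {Q P A : Subgroup G} {u : G} (h : S.CI Q P A u) : u ∈ normalizer (Q : Set G) := by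
  refine H70.mem_normalizer_of_cj_le (H70.cj_le_iff.2 fun q hq => ?_)
  by_contra hn
  obtain ⟨a, ha, i, hi, e⟩ := h.conj_split hq
  have iQ : i ∉ S.VQ := fun e' => hn (e ▸ mul_mem ha (h.VQ_le e'))
  have hV : S.IX .cH ≤ S.V := inf_le_left
  -- a member of `Q` staying in `Q` fixes `i` modulo `z`
  have k1 : ∀ c ∈ Q, u * c * u⁻¹ ∈ Q → ∀ v ∈ S.V,
      c * v * i * (c * v)⁻¹ = i ∨ c * v * i * (c * v)⁻¹ = S.z * i := fun c hc hc' v hv => by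
    have := mul_mem (inv_mem (S.CIc_KZ1 (B := zpowers c) h.qd.ex (zpowers_le.2 hc) ha))
      (S.CIc_KZ (B := zpowers c) h.qd.ex h.uC (zpowers_le.2 (H70.mem_cj.2 (by rwa [h.ui] at hc' ⊢))) hq)
    rw [e, inv_mul_cancel_left] at this
    rw [show c * v * i * (c * v)⁻¹ = c * (v * i) * v⁻¹ * c⁻¹ by group, S.comm hv (hV hi),
      show c * (i * v) * v⁻¹ * c⁻¹ = c * i * c⁻¹ by group]
    exact S.CIc_swap (this.2 c (mem_zpowers c))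
  have idx : (S.VQ.subgroupOf (S.IX .cH)).index = 2 := by
    have h1 := H42.card_mul_relIndex (inf_le_right : S.VQ ⊓ S.IX .cH ≤ S.IX .cH)
    rw [(S.ci4 h.co).1, S.card_IX h.cand.ok, inf_relIndex_right] at h1
    change 8 * _ = 16 at h1
    change S.VQ.relIndex _ = 2
    omega
  obtain ⟨r1, hr1, r2, hr2, hc⟩ := S.ci7 h.co hi iQ
  obtain ⟨q1, hq1, v1, hv1, rfl⟩ := h.qd.sup r1 hr1
  obtain ⟨q2, hq2, v2, hv2, rfl⟩ := h.qd.sup r2 hr2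
  by_cases h1 : u * q1 * u⁻¹ ∈ Q
  · exact (k1 q1 hq1 h1 v1 hv1).elim (hc _ (Or.inl rfl)).1 (hc _ (Or.inl rfl)).2
  by_cases h2 : u * q2 * u⁻¹ ∈ Q
  · exact (k1 q2 hq2 h2 v2 hv2).elim (hc _ (Or.inr (Or.inl rfl))).1 (hc _ (Or.inr (Or.inl rfl))).2
  obtain ⟨a1, ha1, i1, hi1, e1⟩ := h.conj_split hq1
  obtain ⟨a2, ha2, i2, hi2, e2⟩ := h.conj_split hq2
  have h3 : i1 * i2 ∈ S.VQ := (mul_mem_iff_of_index_two idx (a := ⟨i1, hi1⟩) (b := ⟨i2, hi2⟩)).2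
    (iff_of_false (fun e' => h1 (e1 ▸ mul_mem ha1 (h.VQ_le e'))) fun e' => h2 (e2 ▸ mul_mem ha2 (h.VQ_le e')))
  have h4 : u * (q1 * q2) * u⁻¹ ∈ Q := by
    have := mul_mem (mul_mem ha1 (H70.conj_mem_of_mem_norm (h.qd.norm (S.T_le_M (S.V_le_pre _ (hV hi1)))) ha2))
      (h.VQ_le h3)
    rwa [← conj_mul, e1, e2, show a1 * i1 * (a2 * i2) = a1 * (i1 * a2 * i1⁻¹) * (i1 * i2) by group]
  have h5 := k1 _ (mul_mem hq1 hq2) h4 _ (mul_mem (H70.conj_mem_of_mem_norm' (h.QT hq2).1 hv1) hv2)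
  rw [show q1 * q2 * (q2⁻¹ * v1 * q2 * v2) = q1 * v1 * (q2 * v2) by group] at h5
  exact h5.elim (hc _ (Or.inr (Or.inr rfl))).1 (hc _ (Or.inr (Or.inr rfl))).2

end Cfsg.Agent.R24
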