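import Cfsg.Agent.R24.Defs2

set_option autoImplicit false
set_option linter.unusedSectionVars false

namespace Cfsg.Agent.R24

open Subgroup Cfsg.Agent.H14

variable {G : Type*} [Group G] [Finite G]

namespace CfgX

open H70

variable {H T V P B : Subgroup G} {t ρ x y : G}

theorem of_eq {K : Subgroup G} (h : x ∈ K) (e : y = x) : y ∈ K := e ▸ h
theorem lf {K L : Subgroup G} (h : x ∈ K ⊓ L) : x ∈ K := h.1
theorem rt {K L : Subgroup G} (h : x ∈ K ⊓ L) : x ∈ L := h.2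

/-- the dihedral relation modulo `P` -/
theorem dih (hx : x ∈ normalizer (P : Set G)) (hy : y ∈ normalizer (P : Set G)) (x2 : x * x ∈ P) (y2 : y * y ∈ P)
    (k : ℕ) : x * (x * y) ^ k * x⁻¹ * (x * y) ^ k ∈ P := by
  induction k with
  | zero => simp
  | succ k ih =>
    have := mul_mem (conj_mem_of_mem_norm (mul_mem (mul_mem hx (mul_mem hx hy)) (inv_mem hx)) ih) (mul_mem x2 y2)
    rw [pow_succ' (x * y), ← pow_mul_comm' (x * y) k]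
    conv => arg 2; arg 1; rw [pow_mul_comm' (x * y) k]
    generalize (x * y) ^ k = c at this ⊢
    convert this using 1
    group

theorem step {S : Subgroup G} (hS : IsPGroup 2 S) (h : P < S) :
    ∃ x ∈ S, x ∈ normalizer (P : Set G) ∧ x ∉ P ∧ x * x ∈ P := by
  obtain ⟨y, h0, h3⟩ := SetLike.exists_of_lt (H42.lt_inf_normalizer hS h)
  obtain ⟨h1, h2⟩ := mem_inf.1 h0
  obtain ⟨n, hn⟩ := hS ⟨y, h1⟩
  replace hn : y ^ 2 ^ n ∈ P := by rw [show y ^ 2 ^ n = 1 from congrArg Subtype.val hn]; exact one_mem _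
  clear hS h0
  induction n generalizing y with
  | zero => exact absurd (by simpa using hn) h3
  | succ n ih =>
    by_cases c : y * y ∈ P
    · exact ⟨y, h1, h2, h3, c⟩
    · exact ih (y * y) c (mul_mem h1 h1) (mul_mem h2 h2) (by rwa [← pow_two, ← pow_mul, ← pow_succ'])

theorem odd (hE : Ess H T P B) (hx : x ∈ B) (hx1 : x ∉ P) (hx2 : x * x ∈ P)
    (hy : y ∈ H ⊓ normalizer (P : Set G)) (hy1 : y ∉ B) (hy2 : y * y ∈ P) : ∃ n, Odd n ∧ (x * y) ^ n ∈ P := by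
  classical
  have ex : ∃ n, 0 < n ∧ (x * y) ^ n ∈ P := ⟨_, orderOf_pos _, pow_orderOf_eq_one (x * y) ▸ one_mem _⟩
  have PB : P ≤ B := (le_inf hE.PT le_normalizer).trans hE.TB
  refine ⟨Nat.find ex, (Nat.even_or_odd _).resolve_left fun ⟨k, hk⟩ => hy1 ?_, (Nat.find_spec ex).2⟩
  obtain ⟨h0, h1⟩ := Nat.find_spec ex
  have h2 : (x * y) ^ k ∉ P := fun m => Nat.find_min ex (m := k) (by omega) ⟨by omega, m⟩
  rw [hk, pow_add] at h1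
  have h3 := dih (hE.BL hx).2 hy.2 hx2 hy2 k
  have h4 := pow_mem (mul_mem (hE.BL hx) hy) k
  have h5 : y * (x * y) ^ k * y⁻¹ = x⁻¹ * (x * y) ^ k * x := by
    have e := pow_mul_comm' (x * y) k
    generalize (x * y) ^ k = c at e
    calc _ = x⁻¹ * ((x * y) * c) * (x * y)⁻¹ * x := by group
      _ = _ := by rw [← e, mul_assoc x⁻¹, mul_inv_cancel_right]
  generalize (x * y) ^ k = c at h1 h2 h3 h4 h5
  have h6 : c ∈ B := hE.se x hx hx1 hx2 c h4 (by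
    have := inv_mem (mul_mem (mul_mem (inv_mem hx) (PB h3)) (inv_mem (PB h1)))
    convert this using 1
    group)
  exact hE.se c h6 h2 h1 y hy (h5 ▸ mul_mem (mul_mem (inv_mem hx) h6) hx)

/-- the choice of `t` and `ρ` -/
structure Pr (H T V P B : Subgroup G) (t ρ : G) : Prop extends Ess H T P B where
  hV : V ≤ T
  hn : T ≤ normalizer (V : Set G)
  h2 : ∀ v ∈ V, v * v = 1
  tV : t ∈ V
  tN : t ∈ normalizer (P : Set G)
  tP : t ∉ P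
  ρL : ρ ∈ H ⊓ normalizer (P : Set G)
  od : Odd (orderOf ρ)
  iv : t * ρ * t = ρ⁻¹
  ρB : ρ ∉ B

theorem exists_pr (hE : Ess H T P B) (hV : V ≤ T) (hn : T ≤ normalizer (V : Set G))
    (h2 : ∀ v ∈ V, v * v = 1) (hP : ¬ V ≤ P) : ∃ t ρ, Pr H T V P B t ρ := by
  obtain ⟨g, h1, h3, h4, -⟩ := step (hE.two.to_le (sup_le hE.PT hV)) (left_lt_sup.2 hP)
  obtain ⟨p, hp, t, ht, rfl⟩ := (mem_sup_of_norm (hE.PT.trans hn)).1 h1
  rw [mul_mem_cancel_left (le_normalizer hp)] at h3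
  rw [mul_mem_cancel_left hp] at h4
  obtain ⟨h, hL, hB⟩ := hE.ne
  have tB := hE.TB ⟨hV ht, h3⟩
  have t2 := h2 t ht
  have s1 : h * t * h⁻¹ ∉ B := fun m => hB (hE.se t tB h4 (t2 ▸ one_mem _) h hL m)
  have s2 : h * t * h⁻¹ * (h * t * h⁻¹) = 1 := by rw [conj_mul, t2, mul_one, mul_inv_cancel]
  have s3 := mul_mem (mul_mem hL (hE.BL tB)) (inv_mem hL)
  generalize h * t * h⁻¹ = s at s1 s2 s3
  obtain ⟨n, hn1, hn2⟩ := odd hE tB h4 (t2 ▸ one_mem _) s3 s1 (s2 ▸ one_mem _)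
  obtain ⟨a, m, hm, e⟩ := Nat.exists_eq_two_pow_mul_odd (orderOf_pos (t * s)).ne'
  refine ⟨t, (t * s) ^ 2 ^ a, hE, hV, hn, h2, ht, h3, h4, pow_mem (mul_mem (hE.BL tB) s3) _, ?_, ?_, fun c => s1 ?_⟩
  · refine hm.of_dvd_nat (orderOf_dvd_of_pow_eq_one ?_)
    rw [← pow_mul, ← e, pow_orderOf_eq_one]
  · conv_lhs => arg 2; rw [← inv_eq_of_mul_eq_one_right t2]
    rw [← conj_pow, ← inv_pow, ← mul_assoc, t2, one_mul, mul_inv_rev, inv_eq_of_mul_eq_one_right s2]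
  · exact (mul_mem_cancel_left tB).1 (mem_of_pow_mem_coprime (Nat.Coprime.pow_left a (Nat.coprime_two_left.2 hn1)) c
      ((le_inf hE.PT le_normalizer).trans hE.TB hn2))

theorem comm_of {V : Subgroup G} (h2 : ∀ v ∈ V, v * v = 1) (hx : x ∈ V) (hy : y ∈ V) : x * y = y * x := by
  have := inv_eq_of_mul_eq_one_right (h2 _ (mul_mem hx hy))
  rw [mul_inv_rev, inv_eq_of_mul_eq_one_right (h2 _ hx), inv_eq_of_mul_eq_one_right (h2 _ hy)] at this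
  exact this.symm

theorem rc {C N : Subgroup G} (h : N ≤ C) (hx : ∀ c ∈ C, x * c * x⁻¹ * c⁻¹ ∈ N) : x ∈ relCent (C : Set G) N :=
  mem_relCent.2 ⟨mem_normalizer_of_cj_le (cj_le_iff.2 fun c hc => (mul_mem_cancel_right (inv_mem hc)).1 (hx c (h hc))), hx⟩

theorem fix_norm {N : Subgroup G} (hx : ∀ c ∈ N, x * c = c * x) : x ∈ normalizer (N : Set G) :=
  mem_normalizer_of_cj_le (cj_le_iff.2 fun c hc => by rwa [hx c hc, mul_inv_cancel_right])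

namespace Pr

variable (h : Pr H T V P B t ρ)
include h

theorem PV : P ≤ normalizer (V : Set G) := h.PT.trans h.hn

theorem PW : P ≤ normalizer ((V ⊓ P : Subgroup G) : Set G) := norm_inf h.PV le_normalizer

theorem W'P : cj ρ (V ⊓ P) ≤ P := cj_le_of_mem_norm h.ρL.2 inf_le_right

theorem PW' : P ≤ normalizer (cj ρ (V ⊓ P) : Set G) := fun _ hp => by
  rw [← cj_normalizer, mem_cj]; exact h.PW (conj_mem_of_mem_norm' h.ρL.2 hp)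

theorem cV {v p : G} (hv : v ∈ V) (hN : v ∈ normalizer (P : Set G)) (hp : p ∈ P) : v * p * v⁻¹ * p⁻¹ ∈ V ⊓ P :=
  mem_inf.2 ⟨of_eq (mul_mem hv (conj_mem_of_mem_norm (h.PV hp) (inv_mem hv))) (by group),
    mul_mem (conj_mem_of_mem_norm hN hp) (inv_mem hp)⟩

theorem ct' {p : G} (hp : p ∈ P) : ρ * t * ρ⁻¹ * p * (ρ * t * ρ⁻¹)⁻¹ * p⁻¹ ∈ cj ρ (V ⊓ P) := by
  have := h.cV h.tV h.tN (conj_mem_of_mem_norm' h.ρL.2 hp)
  rw [mem_cj]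
  convert this using 1
  group

theorem sq' : ∀ a ∈ cj ρ V, a * a = 1 := by
  rintro _ ⟨a, ha, rfl⟩
  rw [← map_mul, h.h2 a ha, map_one]

theorem t'c {a : G} (ha : a ∈ cj ρ (V ⊓ P)) : ρ * t * ρ⁻¹ * a = a * (ρ * t * ρ⁻¹) :=
  comm_of h.sq' (conj_mem_cj ρ h.tV) (cj_mono ρ inf_le_left ha)

theorem tB : t ∈ B := h.TB ⟨h.hV h.tV, h.tN⟩

theorem t'L : ρ * t * ρ⁻¹ ∈ H ⊓ normalizer (P : Set G) := mul_mem (mul_mem h.ρL (h.BL h.tB)) (inv_mem h.ρL)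

theorem t'B : ρ * t * ρ⁻¹ ∉ B := fun m => h.ρB (h.se t h.tB h.tP (h.h2 t h.tV ▸ one_mem _) ρ h.ρL m)

theorem t'2 : ρ * t * ρ⁻¹ * (ρ * t * ρ⁻¹) = 1 := h.sq' _ (conj_mem_cj ρ h.tV)

theorem mem2 {K : Subgroup G} (m : ρ * ρ ∈ K) : ρ ∈ K :=
  mem_of_pow_mem_coprime (Nat.coprime_two_left.2 h.od) (by rwa [pow_two]) (pow_orderOf_eq_one ρ ▸ one_mem _)

theorem mem {K : Subgroup G} (h1 : t ∈ K) (h2 : ρ * t * ρ⁻¹ ∈ K) : ρ ∈ K := h.mem2 (by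
  have := mul_mem h2 h1
  rwa [← h.iv, show ρ * t * (t * ρ * t) * t = ρ * (t * t) * ρ * (t * t) by group, h.h2 t h.tV, mul_one,
    mul_one] at this)

theorem ρI : ∀ i ∈ V ⊓ cj ρ (V ⊓ P), ρ * i * ρ⁻¹ = i := fun i hi =>
  mul_inv_eq_iff_eq_mul.2 (mem_centralizer_singleton_iff.1 (h.mem (K := centralizer {i})
    (mem_centralizer_singleton_iff.2 (comm_of h.h2 h.tV hi.1)) (mem_centralizer_singleton_iff.2 (h.t'c hi.2))))

theorem UP : V ⊓ P ⊔ cj ρ (V ⊓ P) ≤ P := sup_le inf_le_right h.W'P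

theorem t'U : ρ * t * ρ⁻¹ ∈ relCent (P : Set G) (V ⊓ P ⊔ cj ρ (V ⊓ P)) :=
  rc h.UP fun _ hp => mem_sup_right (h.ct' hp)

theorem ρP : ∀ p ∈ P, ρ * p * ρ⁻¹ * p⁻¹ ∈ V ⊓ P ⊔ cj ρ (V ⊓ P) :=
  (mem_relCent.1 (h.mem (rc h.UP fun _ hp => mem_sup_left (h.cV h.tV h.tN hp)) h.t'U)).2

theorem ne' : ¬ cj ρ (V ⊓ P) ≤ V := fun c => by
  have e : cj ρ (V ⊓ P) = V ⊓ P := eq_of_le_of_card_ge (le_inf c h.W'P) (card_cj _ _).ge
  refine h.ρB (h.CB ⟨h.ρL.1, h.mem2 fun p hp => ?_⟩)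
  have h1 := h.ρP p hp
  rw [e, sup_idem] at h1
  have h2 := h.ρI _ ⟨h1.1, e.symm ▸ h1⟩
  have h3 := h.h2 _ h1.1
  calc p * (ρ * ρ) = ρ * p * ρ⁻¹ * p⁻¹ * (ρ * p * ρ⁻¹ * p⁻¹) * p * (ρ * ρ) := by rw [h3, one_mul]
    _ = ρ * (ρ * p * ρ⁻¹ * p⁻¹) * ρ⁻¹ * (ρ * p * ρ⁻¹ * p⁻¹) * p * (ρ * ρ) := by rw [h2]
    _ = ρ * ρ * p := by group

theorem t'I : ρ * t * ρ⁻¹ ∈ normalizer ((V ⊓ cj ρ (V ⊓ P) : Subgroup G) : Set G) := fix_norm fun _ hc => h.t'c hc.2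

theorem vI {v : G} (hv : v ∈ V) : v ∈ normalizer ((V ⊓ cj ρ (V ⊓ P) : Subgroup G) : Set G) :=
  fix_norm fun _ hc => comm_of h.h2 hv hc.1

theorem free' : ∀ w ∈ V ⊓ P, ρ * t * ρ⁻¹ * w * (ρ * t * ρ⁻¹)⁻¹ * w⁻¹ ∈ V → w ∈ cj ρ (V ⊓ P) := fun w hw m => by
  have := (mem_relCent.1 (h.mem (K := relCent {w} (V ⊓ cj ρ (V ⊓ P)))
    (mem_relCent.2 ⟨h.vI h.tV, by
      rintro _ rfl
      rw [commutatorElement_def, comm_of h.h2 h.tV hw.1, mul_inv_cancel_right, mul_inv_cancel]; exact one_mem _⟩)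
    (mem_relCent.2 ⟨h.t'I, by rintro _ rfl; exact ⟨m, h.ct' hw.2⟩⟩))).2 w rfl
  exact inv_mem_iff.1 ((mul_mem_cancel_left (conj_mem_cj ρ hw)).1 this.2)

theorem surj {a : G} (ha : a ∈ cj ρ (V ⊓ P)) :
    ∃ w ∈ V ⊓ P, (ρ * t * ρ⁻¹ * w * (ρ * t * ρ⁻¹)⁻¹ * w⁻¹)⁻¹ * a ∈ V := by
  have : (V.subgroupOf (cj ρ (V ⊓ P))).Normal := ⟨fun a ha g => by
    rwa [show g * a = a * g from Subtype.ext (comm_of h.sq' (cj_mono ρ inf_le_left g.2) (cj_mono ρ inf_le_left a.2)),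
      mul_inv_cancel_right]⟩
  let F : (V ⊓ P : Subgroup G) →* cj ρ (V ⊓ P) ⧸ V.subgroupOf (cj ρ (V ⊓ P)) :=
    MonoidHom.mk' (fun w => QuotientGroup.mk ⟨_, h.ct' w.2.2⟩) fun w u => by
      rw [← QuotientGroup.mk_mul, QuotientGroup.eq, mem_subgroupOf]
      refine of_eq (mul_mem (lf w.2) (conj_mem_of_mem_norm' (h.PV (h.W'P (h.ct' u.2.2))) (inv_mem (lf w.2)))) ?_
      simp only [coe_mul, coe_inv]
      group
  have e : F.ker = (cj ρ (V ⊓ P)).subgroupOf (V ⊓ P) := Subgroup.ext fun w =>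
    (QuotientGroup.eq_one_iff _).trans ⟨h.free' w w.2, fun m => by
      rw [mem_subgroupOf, Subgroup.coe_mk, h.t'c (mem_subgroupOf.1 m), mul_inv_cancel_right, mul_inv_cancel]; exact one_mem _⟩
  have c1 := H42.card_mul_relIndex (inf_le_right : cj ρ (V ⊓ P) ⊓ (V ⊓ P) ≤ _)
  have c2 := H42.card_mul_relIndex (inf_le_right : V ⊓ cj ρ (V ⊓ P) ≤ _)
  rw [inf_relIndex_right] at c1 c2
  rw [card_cj, ← c1, show cj ρ (V ⊓ P) ⊓ (V ⊓ P) = V ⊓ cj ρ (V ⊓ P) from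
    le_antisymm (fun _ m => ⟨m.2.1, m.1⟩) fun _ m => ⟨m.2, m.1, h.W'P m.2⟩] at c2
  have c3 : F.range = ⊤ := eq_top_of_card_eq _ (by
    rw [← index_ker, e]; exact (Nat.eq_of_mul_eq_mul_left Nat.card_pos c2).symm)
  obtain ⟨w, hw⟩ := c3.ge (mem_top (QuotientGroup.mk ⟨a, ha⟩))
  exact ⟨w, w.2, mem_subgroupOf.1 (QuotientGroup.eq.1 hw)⟩

theorem free : ∀ v ∈ V, v ∈ normalizer (P : Set G) → v ∉ P → ∀ a ∈ cj ρ (V ⊓ P),
    v * a * v⁻¹ * a⁻¹ ∈ cj ρ (V ⊓ P) → a ∈ V := fun v hv hN hP a ha m => by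
  obtain ⟨w, hw, h1⟩ := h.surj ha
  obtain ⟨n, ⟨k, rfl⟩, hn⟩ := odd h.toEss (h.TB ⟨h.hV hv, hN⟩) hP (h.h2 v hv ▸ one_mem _) h.t'L h.t'B
    (h.t'2 ▸ one_mem _)
  have b1 := h.ct' hw.2
  have c1 := fun a => @Pr.t'c G _ _ H T V P B t ρ h a
  have n1 := h.t'I
  generalize ρ * t * ρ⁻¹ = s at h1 hn b1 c1 n1
  obtain ⟨b, hb⟩ : ∃ b, b = s * w * s⁻¹ * w⁻¹ := ⟨_, rfl⟩
  rw [← hb] at h1 b1
  have vw := comm_of h.h2 hv hw.1
  have j1 : v * b * v⁻¹ * b⁻¹ ∈ V ⊓ cj ρ (V ⊓ P) := mem_inf.2 ⟨lf (h.cV hv hN (h.W'P b1)), by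
    have e := comm_of h.h2 hv h1
    refine of_eq (mul_mem (mul_mem (mul_mem m ha) (inv_mem (mul_mem (inv_mem b1) ha))) (inv_mem b1)) ?_
    calc _ = v * a * (v * (b⁻¹ * a))⁻¹ * b⁻¹ := by group
      _ = _ := by rw [e]; group⟩
  obtain ⟨j, hj⟩ : ∃ j, j = v * b * v⁻¹ * b⁻¹ := ⟨_, rfl⟩
  rw [← hj] at j1
  have e1 : v * b * v⁻¹ = j * b := by rw [hj]; group
  have e2 : v * s * w * (v * s)⁻¹ = j * b * w := by
    rw [← e1, hb]
    calc _ = v * (s * w * s⁻¹ * w⁻¹) * (w * v⁻¹) := by group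
      _ = _ := by rw [← (Commute.inv_left vw).eq]; group
  have e3 : v * s * (j * b) * (v * s)⁻¹ = b := by
    calc _ = v * (s * (j * b)) * s⁻¹ * v⁻¹ := by group
      _ = v * j * v⁻¹ * (v * b * v⁻¹) := by rw [c1 _ (mul_mem j1.2 b1)]; group
      _ = _ := by rw [e1, comm_of h.h2 hv j1.1, mul_inv_cancel_right, ← mul_assoc, h.h2 j j1.1, one_mul]
  have k1 : (v * s) ^ 2 ∈ relCent {w} (V ⊓ cj ρ (V ⊓ P)) := mem_relCent.2 ⟨pow_mem (mul_mem (h.vI hv) n1) 2, by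
    intro c hc
    rw [show c = w from hc]
    have : (v * s) ^ 2 * w * ((v * s) ^ 2)⁻¹ * w⁻¹ = j := by
      calc _ = v * s * (v * s * w * (v * s)⁻¹) * (v * s)⁻¹ * w⁻¹ := by rw [pow_two]; group
        _ = v * s * (j * b * w) * (v * s)⁻¹ * w⁻¹ := by rw [e2]
        _ = v * s * (j * b) * (v * s)⁻¹ * (v * s * w * (v * s)⁻¹) * w⁻¹ := by group
        _ = b * j * b := by rw [e3, e2]; group
        _ = j := by
          rw [comm_of h.sq' (cj_mono ρ inf_le_left b1) (cj_mono ρ inf_le_left j1.2), mul_assoc,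
            h.sq' b (cj_mono ρ inf_le_left b1), mul_one]
    rw [commutatorElement_def, this]; exact j1⟩
  have k2 := (mem_relCent.1 (pow_mem k1 k)).2 w rfl
  have k3 := lf (conj_mem_of_mem_norm (h.PW hn) hw)
  have k4 := lf (conj_mem_of_mem_norm (mul_mem (h.vI hv) n1) k2)
  rw [commutatorElement_def, ← pow_mul] at k4
  rw [pow_succ'] at k3
  generalize (v * s) ^ (2 * k) = c at k3 k4
  have k5 : j * b * w ∈ V := by
    rw [← e2]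
    exact of_eq (mul_mem (inv_mem k4) k3) (by group)
  rw [mul_mem_cancel_right (lf hw), mul_mem_cancel_left (lf j1)] at k5
  exact (mul_mem_cancel_left (inv_mem k5)).1 h1

theorem stab : ∀ x ∈ T, x ∈ normalizer (cj ρ (V ⊓ P) : Set G) → x ∈ P := fun x0 h0 h1 => by
  by_contra h3
  obtain ⟨x, x0, xN, xP, x2⟩ := step (S := T ⊓ normalizer (cj ρ (V ⊓ P) : Set G)) (h.two.to_le inf_le_left)
    (lt_of_le_of_ne (le_inf h.PT h.PW') fun e => h3 (e.ge ⟨h0, h1⟩))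
  obtain ⟨xT, xW⟩ := mem_inf.1 x0
  obtain ⟨n, ⟨k, rfl⟩, hn⟩ := odd h.toEss (h.TB ⟨xT, xN⟩) xP x2 h.t'L h.t'B (h.t'2 ▸ one_mem _)
  have xw : x ∈ normalizer ((V ⊓ P : Subgroup G) : Set G) := inf_normalizer_le_normalizer_inf ⟨h.hn xT, xN⟩
  have g1 := pow_mem (mul_mem xN h.t'L.2) (k + 1)
  have g2 := pow_mem (mul_mem xW (fix_norm fun _ => h.t'c)) (k + 1)
  have g3 := pow_mem (mul_mem (inf_normalizer_le_normalizer_inf ⟨h.hn xT, xW⟩) h.t'I) (k + 1)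
  have g4 := pow_mem (mul_mem (norm_sup (zpowers_le.2 xw) (zpowers_le.2 xW) (mem_zpowers x))
    (mem_relCent.1 h.t'U).1) (k + 1)
  have d := dih xN h.t'L.2 x2 (h.t'2 ▸ one_mem _) (k + 1)
  have c1 := fun a => @Pr.t'c G _ _ H T V P B t ρ h a
  have c2 := fun a => @Pr.ct' G _ _ H T V P B t ρ h a
  have c3 := h.free'
  have s2 := h.t'2
  have sN := rt h.t'L
  generalize ρ * t * ρ⁻¹ = s at hn g1 g2 g3 g4 d c1 c2 c3 s2 sN
  have e : (x * s) ^ (2 * k + 1) * (x * s) = (x * s) ^ (k + 1) * (x * s) ^ (k + 1) := by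
    rw [← pow_succ, ← pow_add]; congr 1; ring
  have e' : (x * s) ^ (k + 1) * (x * s) = x * s * (x * s) ^ (k + 1) := pow_mul_comm' _ _
  generalize (x * s) ^ (k + 1) = g at g1 g2 g3 g4 d e e'
  generalize (x * s) ^ (2 * k + 1) = p at hn e
  have u1 : g * s * g⁻¹ ∈ normalizer ((V ⊓ P : Subgroup G) : Set G) := by
    refine of_eq (mul_mem (mul_mem (inv_mem xw) (h.PW d))
      (h.PW (conj_mem_of_mem_norm' (mul_mem xN sN) (inv_mem hn)))) ?_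
    calc _ = g * x⁻¹ * g⁻¹ * (g * (x * s)) * g⁻¹ := by group
      _ = g * x⁻¹ * g * (g * g)⁻¹ * (x * s) := by rw [e']; group
      _ = _ := by rw [← e]; group
  have u2 : ∀ y ∈ V ⊓ P ⊔ cj ρ (V ⊓ P), g * s * g⁻¹ * y * (g * s * g⁻¹)⁻¹ * y⁻¹ ∈ V ⊓ cj ρ (V ⊓ P) := fun y hy => by
    obtain ⟨w, hw, a, ha, rfl⟩ := (mem_sup_of_norm (inf_le_right.trans h.PW')).1 hy
    have e1 : g * s * g⁻¹ * (w * a) * (g * s * g⁻¹)⁻¹ * (w * a)⁻¹ = g * s * g⁻¹ * w * (g * s * g⁻¹)⁻¹ * w⁻¹ := by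
      calc _ = g * s * g⁻¹ * w * g * s⁻¹ * (s * (g⁻¹ * a * g)) * s⁻¹ * g⁻¹ * (w * a)⁻¹ := by group
        _ = _ := by rw [c1 _ (conj_mem_of_mem_norm' g2 ha)]; group
    rw [e1]
    exact mem_inf.2 ⟨lf (mul_mem (conj_mem_of_mem_norm u1 hw) (inv_mem hw)),
      of_eq (conj_mem_of_mem_norm g2 (c2 _ (conj_mem_of_mem_norm' g1 hw.2))) (by group)⟩
  have w1 : V ⊓ P ≤ cj ρ (V ⊓ P) := fun w hw => c3 w hw
    (of_eq (lf (conj_mem_of_mem_norm' g3 (u2 _ (conj_mem_of_mem_norm g4 (mem_sup_left hw))))) (by group))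
  exact h.ne' ((eq_of_le_of_card_ge w1 (card_cj _ _).le).ge.trans inf_le_left)

end Pr

end CfgX

/-- notes/R24.md, section Cfg -/
theorem Ess.odd {H T P B : Subgroup G} (hE : Ess H T P B) {x y : G} (hx : x ∈ B) (hx1 : x ∉ P) (hx2 : x * x ∈ P)
    (hy : y ∈ H ⊓ normalizer (P : Set G)) (hy1 : y ∉ B) (hy2 : y * y ∈ P) : ∃ n, Odd n ∧ (x * y) ^ n ∈ P :=
  CfgX.odd hE hx hx1 hx2 hy hy1 hy2

/-- notes/R24.md, section Cfg -/
theorem cfg {H T V P B : Subgroup G} (hE : Ess H T P B) (hV : V ≤ T) (hn : T ≤ normalizer (V : Set G))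
    (h2 : ∀ v ∈ V, v * v = 1) (hP : ¬ V ≤ P) : ∃ t ρ, Cf H T V P B t ρ := by
  obtain ⟨t, ρ, h⟩ := CfgX.exists_pr hE hV hn h2 hP
  exact ⟨t, ρ, h.tV, h.tN, h.tP, h.ρL, h.t'B, h.ne', h.ρI, h.ρP, h.free, h.free', h.stab⟩

end Cfsg.Agent.R24
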