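import Cfsg.Agent.R24.Defs2
import Cfsg.Agent.H3.PGroup

/-! The module data of the dihedral configuration (notes/R24.md, section Cfg2). -/

set_option autoImplicit false
set_option linter.unusedSectionVars false
set_option linter.unusedVariables false

namespace Cfsg.Agent.R24

open Subgroup Cfsg.Agent.H14

variable {G : Type*} [Group G] [Finite G]

namespace Cfg2

theorem cm {X : Subgroup G} {g a : G} (h : g ∈ normalizer (X : Set G)) (ha : a ∈ X) :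
    g * a * g⁻¹ ∈ X := H42.conj_mem_of_mem_normalizer h ha

theorem cm' {X : Subgroup G} {g a : G} (h : g ∈ normalizer (X : Set G)) (ha : a ∈ X) :
    g⁻¹ * a * g ∈ X := by simpa using cm (inv_mem h) ha

theorem k1 {X : Subgroup G} {g a : G} (h : g ∈ normalizer (X : Set G)) (ha : a ∈ X) :
    g * a * g⁻¹ * a⁻¹ ∈ X := mul_mem (cm h ha) (inv_mem ha)

theorem k2 {X : Subgroup G} {g a : G} (h : g ∈ normalizer (X : Set G)) (ha : a ∈ X) :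
    a * g * a⁻¹ * g⁻¹ ∈ X := by
  simpa only [mul_assoc] using mul_mem ha (cm h (inv_mem ha))

theorem comm {V : Subgroup G} (h2 : ∀ v ∈ V, v * v = 1) {a b : G} (ha : a ∈ V) (hb : b ∈ V) :
    a * b = b * a := by
  rw [← inv_eq_of_mul_eq_one_right (h2 _ (mul_mem ha hb)), mul_inv_rev,
    inv_eq_of_mul_eq_one_right (h2 a ha), inv_eq_of_mul_eq_one_right (h2 b hb)]

end Cfg2

open Cfg2

/-- notes/R24.md, section Cfg2 -/
theorem cfg2 {H T V P B : Subgroup G} (hE : Ess H T P B) (hV : V ≤ T) (hn : T ≤ normalizer (V : Set G))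
    (h2 : ∀ v ∈ V, v * v = 1) {t ρ : G} (h : Cf H T V P B t ρ) :
    H70.cj ρ (V ⊓ P) ≤ P ∧ ∃ a₀, MC V (H70.cj ρ (V ⊓ P)) (V ⊓ P) a₀ t := by
  have := Nat.fact_prime_two
  have AP : H70.cj ρ (V ⊓ P) ≤ P := H70.cj_le_iff.2 fun w hw => cm h.ρL.2 hw.2
  have PV : P ≤ normalizer (V : Set G) := hE.PT.trans hn
  have PA : P ≤ normalizer (H70.cj ρ (V ⊓ P) : Set G) := fun p hp =>
    H42.mem_normalizer_of_conj_mem fun a ha => by
      have m := cm' h.ρL.2 hp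
      have ha' := H70.mem_cj.1 ha
      refine H70.mem_cj.2 ?_
      rw [show ρ⁻¹ * (p * a * p⁻¹) * ρ = ρ⁻¹ * p * ρ * (ρ⁻¹ * a * ρ) * (ρ⁻¹ * p * ρ)⁻¹ by group]
      exact ⟨cm (PV m) ha'.1, P.mul_mem (P.mul_mem m ha'.2) (P.inv_mem m)⟩
  have sq : ∀ a ∈ H70.cj ρ (V ⊓ P), a * a = 1 := by
    rintro _ ⟨w, hw, rfl⟩
    rw [← map_mul, h2 w hw.1, map_one]
  have cd : Nat.card (V ⊓ P : Subgroup G) = Nat.card (H70.cj ρ (V ⊓ P)) := (H42.card_cj ρ _).symm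
  have ne := h.ne
  have free := h.free
  generalize H70.cj ρ (V ⊓ P) = A at *
  have p2 : IsPGroup 2 P := hE.two.to_le hE.PT
  have n1 := normal_subgroupOf_of_le_normalizer PV
  have n2 := normal_subgroupOf_of_le_normalizer PA
  obtain ⟨⟨a, aP⟩, ha, aV, -, hc⟩ := H3.exists_mem_central_mod p2 (V.subgroupOf P) (A.subgroupOf P)
    fun h' => ne fun v hv => h' (show (⟨v, AP hv⟩ : P) ∈ A.subgroupOf _ from hv)
  have ha : a ∈ A := ha
  have aV : a ∉ V := aV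
  have key : ∀ v ∈ V, ∀ i ∈ V, i ∈ A → v * a * v⁻¹ ∈ A → v * (i * a) * v⁻¹ ∈ A :=
    fun v hv i hi hi' hv' => by
      rw [← mul_assoc, comm h2 hv hi, mul_assoc i, mul_assoc i]
      exact mul_mem hi' hv'
  let X : Subgroup G :=
    { carrier := {v | v ∈ V ∧ v * a * v⁻¹ ∈ A}
      one_mem' := ⟨one_mem _, by simpa using ha⟩
      mul_mem' := fun {v w} hv hw => ⟨mul_mem hv.1 hw.1, by
        have := key v hv.1 _ (k2 (PV aP) hw.1) (mul_mem hw.2 (inv_mem ha)) hv.2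
        rwa [show v * (w * a * w⁻¹ * a⁻¹ * a) * v⁻¹ = v * w * a * (v * w)⁻¹ by group] at this⟩
      inv_mem' := fun {v} hv => by rwa [inv_eq_of_mul_eq_one_right (h2 v hv.1)] }
  have PX : P ≤ normalizer (X : Set G) := fun p hp =>
    H42.mem_normalizer_of_conj_mem fun v hv => ⟨cm (PV hp) hv.1, by
      have m1 : p⁻¹ * a * p * a⁻¹ ∈ V := by
        have : a * p⁻¹ * a⁻¹ * p⁻¹⁻¹ ∈ V := hc ⟨p⁻¹, inv_mem hp⟩
        have := inv_mem this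
        rwa [show (a * p⁻¹ * a⁻¹ * p⁻¹⁻¹)⁻¹ = p⁻¹ * a * p * a⁻¹ by group] at this
      have := cm (PA hp) (key v hv.1 _ m1 (mul_mem (cm' (PA hp) ha) (inv_mem ha)) hv.2)
      rwa [show p * (v * (p⁻¹ * a * p * a⁻¹ * a) * v⁻¹) * p⁻¹ = p * v * p⁻¹ * a * (p * v * p⁻¹)⁻¹ by
        group] at this⟩
  have XP : X ≤ P := by
    by_contra hx
    obtain ⟨g, hg, gP⟩ := SetLike.exists_of_lt (H42.lt_inf_normalizer
      (hE.two.to_le (sup_le hE.PT fun v hv => hV hv.1) : IsPGroup 2 (P ⊔ X : Subgroup G))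
      (left_lt_sup.2 hx))
    obtain ⟨p, hp, x, hx', rfl⟩ := H42.exists_mul_of_mem_sup PX hg.1
    exact aV (free x hx'.1 ((mul_mem_cancel_left (le_normalizer hp)).1 hg.2)
      (fun e => gP (mul_mem hp e)) a ha (mul_mem hx'.2 (inv_mem ha)))
  exact ⟨AP, a, AP.trans PV, sq, inf_le_left, fun i hi => ⟨hi.2, AP hi.1⟩, cd,
    fun w hw b hb => k1 (PA hw.2) hb, ha, aV,
    fun v hv e => ⟨hv, XP ⟨hv, (mul_mem_cancel_right (inv_mem ha)).1 e⟩⟩, h.tV,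
    fun b hb => ⟨k2 (PV (AP hb)) h.tV, k1 h.tN (AP hb)⟩, free t h.tV h.tN h.tP⟩

/-- notes/R24.md, section Cfg2 -/
theorem cfg2_u {H T V P B : Subgroup G} (hE : Ess H T P B) (hV : V ≤ T) (hn : T ≤ normalizer (V : Set G))
    (h2 : ∀ v ∈ V, v * v = 1) {t ρ : G} (h : Cf H T V P B t ρ) :
    (∀ a ∈ H70.cj ρ (V ⊓ P), ρ * t * ρ⁻¹ * a = a * (ρ * t * ρ⁻¹)) ∧
      ∀ p ∈ P, ρ * t * ρ⁻¹ * p * (ρ * t * ρ⁻¹)⁻¹ * p⁻¹ ∈ H70.cj ρ (V ⊓ P) := by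
  refine ⟨fun a ha => ?_, fun p hp => H70.mem_cj.2 ?_⟩
  · have := comm h2 h.tV (H70.mem_cj.1 ha).1
    calc ρ * t * ρ⁻¹ * a = ρ * (t * (ρ⁻¹ * a * ρ)) * ρ⁻¹ := by group
      _ = a * (ρ * t * ρ⁻¹) := by rw [this]; group
  · have m := cm' h.ρL.2 hp
    rw [show ρ⁻¹ * (ρ * t * ρ⁻¹ * p * (ρ * t * ρ⁻¹)⁻¹ * p⁻¹) * ρ =
      t * (ρ⁻¹ * p * ρ) * t⁻¹ * (ρ⁻¹ * p * ρ)⁻¹ by group]
    exact ⟨k2 (hn (hE.PT m)) h.tV, k1 h.tN m⟩

end Cfsg.Agent.R24
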