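import Cfsg.Agent.R24.Base1
import Cfsg.Agent.R24.Base2
import Cfsg.Agent.R24.Inv
import Cfsg.Agent.R24.EA5
import Cfsg.Agent.R24.TyF
import Cfsg.Agent.R24.ClsA
import Cfsg.Agent.R24.Wrong

set_option autoImplicit false

namespace Cfsg.Agent.R24

open Subgroup Cfsg.Agent.H14

variable {G : Type*} [Group G] [Finite G] (S : St G)

namespace ClsAux

open H70 (cj mem_cj conj_mem_cj)

omit [Finite G] in
theorem bar_cj {A : Subgroup G} (hA : A ≤ S.N) {n : G} (hn : n ∈ S.N) :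
    S.bar (cj n A) = cj (S.p n) (S.bar A) := by
  ext g
  rw [mem_cj, S.mem_bar, S.mem_bar]
  constructor
  · rintro ⟨b, hb, hbN, rfl⟩
    refine ⟨_, mem_cj.1 hb, hA (mem_cj.1 hb), ?_⟩
    rw [S.p_mul _ (mul_mem (inv_mem hn) hbN) _ hn, S.p_mul _ (inv_mem hn) _ hbN, S.p_inv hn]
  · rintro ⟨b, hb, hbN, e⟩
    refine ⟨_, conj_mem_cj n hb, mul_mem (mul_mem hn hbN) (inv_mem hn), ?_⟩
    rw [S.p_conj hn hbN, e]
    group

omit [Finite G] in
theorem le_pre {A : Subgroup G} (hA : A ≤ S.N) {X : Subgroup (Equiv.Perm GolayPt)}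
    (h : S.bar A ≤ X) : A ≤ S.pre X :=
  fun a ha => ⟨hA ha, h (S.mem_bar.2 ⟨a, ha, hA ha, rfl⟩)⟩

omit [Finite G] in
theorem card_inf_cj {A : Subgroup G} {n : G} (hn : n ∈ S.N) :
    Nat.card ↥(cj n A ⊓ S.V) = Nat.card ↥(A ⊓ S.V) := by
  conv_lhs => rw [← H70.cj_eq_self hn, ← H70.cj_inf, H70.card_cj]

omit [Finite G] in
theorem comm_of_sq {H : Type*} [Group H] {A : Subgroup H} (h : ∀ a ∈ A, a * a = 1) {a b : H}
    (ha : a ∈ A) (hb : b ∈ A) : a * b = b * a := by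
  have e := h _ (mul_mem ha hb)
  rw [← inv_eq_of_mul_eq_one_right e, mul_inv_rev, inv_eq_of_mul_eq_one_right (h a ha),
    inv_eq_of_mul_eq_one_right (h b hb)]

omit [Finite G] in
theorem bar_sq {A : Subgroup G} (h : ∀ a ∈ A, a * a = 1) : ∀ g ∈ S.bar A, g * g = 1 := by
  intro g hg
  obtain ⟨a, ha, hN, rfl⟩ := S.mem_bar.1 hg
  rw [← S.p_mul _ hN _ hN, h a ha, S.p_id]

theorem right {A W : Subgroup G} {a₀ t : G} (h : MC S.V A W a₀ t) {y : Ty} (ok : S.co = y.co)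
    (hy : y ≠ .oE) (hA : S.bar A ≤ sg y.msk) (hc : 32 * Nat.card ↥(A ⊓ S.V) ≤ Nat.card A) :
    ∃ y, S.Cand y A ∧ W = S.WX y ∧ Nat.card (S.bar A) = 64 := by
  have hA' : A ≤ S.RX y := le_pre S h.AN hA
  have ni : y.ni ≤ 16 ∧ 0 < y.ni ∧ y.nx = 64 := by
    cases y
    · decide
    · exact absurd rfl hy
    · decide
  obtain ⟨h1, h2⟩ := S.pin h ok hA'
    (fun v hv => S.fixX ok hy hA' hc hv.2 fun b hb => comm_of_sq h.sq hb hv.1) (fun hle => by
      have c1 := card_le_of_le hle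
      rw [S.card_IX ok] at c1
      rcases S.inv_card (h.AN h.a₀A) h.a₀V (by rw [h.sq _ h.a₀A]; exact one_mem _) with
        ⟨-, c2, -⟩ | ⟨c2, -⟩ <;> omega)
  refine ⟨y, h1, h2, ?_⟩
  have c1 := S.card_bar h.AN
  rw [← h.card, h2, S.card_WX ok, h1.inf, S.card_IX ok] at c1
  rw [← ni.2.2]
  exact (Nat.eq_of_mul_eq_mul_left ni.2.1 c1).symm

theorem big {A W : Subgroup G} {a₀ t : G} (h : MC S.V A W a₀ t)
    (hA : S.bar A ≤ Hx ∨ S.bar A ≤ Fx) (hc : 32 * Nat.card ↥(A ⊓ S.V) ≤ Nat.card A) :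
    ∃ y, S.Cand y A ∧ W = S.WX y ∧ Nat.card (S.bar A) = 64 := by
  cases hco : S.co <;> rcases hA with hA | hA
  · exact right S h (y := .cH) hco (by decide) hA hc
  · exact (S.wrong h (le_pre S h.AN (by rw [hco]; exact hA)) hc).elim
  · exact (S.wrong h (le_pre S h.AN (by rw [hco]; exact hA)) hc).elim
  · exact right S h (y := .oF) hco (by decide) hA hc

end ClsAux

open ClsAux H70 in
/-- notes/R24.md, section Cls -/
theorem St.cls {A W : Subgroup G} {a₀ t : G} (h : MC S.V A W a₀ t) (hA : A ≤ S.T) : ∃ y, S.Cand y A ∧ W = S.WX y := by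
  have hT : S.bar A ≤ Tx := fun g hg => by
    obtain ⟨a, ha, -, rfl⟩ := S.mem_bar.1 hg
    exact (hA ha).2
  have cb := S.card_bar h.AN
  have pos : 0 < Nat.card ↥(A ⊓ S.V) := Nat.card_pos
  rcases le_or_gt (32 * Nat.card ↥(A ⊓ S.V)) (Nat.card A) with hc | hc
  · have c32 : 32 ≤ Nat.card (S.bar A) := by
      rw [cb, mul_comm] at hc
      exact Nat.le_of_mul_le_mul_left hc pos
    rcases ea5 hT (bar_sq S h.sq) c32 with h1 | h1 | ⟨c, g, hg, h1⟩
    · obtain ⟨y, h2, h3, -⟩ := big S h (Or.inl h1) hc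
      exact ⟨y, h2, h3⟩
    · obtain ⟨y, h2, h3, -⟩ := big S h (Or.inr h1) hc
      exact ⟨y, h2, h3⟩
    · obtain ⟨n, hn, rfl⟩ := S.p_surj g hg
      obtain ⟨y, -, -, h3⟩ := big S (S.mc_conj h hn) (by rwa [bar_cj S h.AN hn])
        (by rwa [card_inf_cj S hn, card_cj])
      rw [bar_cj S h.AN hn, card_cj, c] at h3
      omega
  · obtain ⟨hIs, c16, -⟩ := S.mc_four h hc
    have a₀N := h.AN h.a₀A
    have c128 := S.card_A a₀N hIs
    have cb16 : Nat.card (S.bar A) = 16 := by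
      rw [c16, mul_comm] at cb
      exact (Nat.eq_of_mul_eq_mul_left pos cb).symm
    obtain ⟨g1, hg1, he⟩ := hIs
    have a₀b : S.p a₀ ∈ S.bar A := S.mem_bar.2 ⟨a₀, h.a₀A, a₀N, rfl⟩
    obtain ⟨g2, hg2, e2, hle⟩ := conj_into he (A := cj g1 (S.bar A))
      (cj_le_of_mem hg1 (hT.trans (sg_le _))) (isPGroup_cj _ (syl_Tx.isP.to_le hT)) (fun a ha =>
        comm_of_sq (A := cj g1 (S.bar A)) (fun x hx => by
          have := bar_sq S h.sq _ (mem_cj.1 hx)
          calc x * x = g1 * (g1⁻¹ * x * g1 * (g1⁻¹ * x * g1)) * g1⁻¹ := by group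
            _ = 1 := by rw [this]; group) ha (conj_mem_cj g1 a₀b))
    obtain ⟨n, hn, hp⟩ := S.p_surj _ (mul_mem hg2 hg1)
    rw [← cj_mul, ← hp, ← bar_cj S h.AN hn] at hle
    have h' := S.mc_conj h hn
    have a₁N := h'.AN h'.a₀A
    have pe : GE.pk (S.p (n * a₀ * n⁻¹)) = te 1 := by
      refine (congrArg GE.pk ?_).trans he
      rw [S.p_conj hn a₀N, hp]
      calc g2 * g1 * S.p a₀ * (g2 * g1)⁻¹ = g2 * (g1 * S.p a₀ * g1⁻¹) * g2⁻¹ := by group
        _ = _ := by rw [e2, mul_inv_cancel_right]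
    obtain ⟨-, -, hCv⟩ := S.mc_four h' (by rwa [card_inf_cj S hn, card_cj])
    have g0 : ∀ b ∈ cj n A, if S.co then S.p b ∈ Ex else b ∈ S.V ∨ S.p b = S.p (n * a₀ * n⁻¹) :=
      fun b hb => S.g0 a₁N pe (le_pre S h'.AN hle hb) (by rw [h'.sq b hb]; exact one_mem _)
        (hCv.trans (sup_le_sup_right (fun v hv => ⟨⟨hv.2, mem_centralizer_singleton_iff.2
          (comm_of_sq h'.sq hv.1 h'.a₀A)⟩, mem_centralizer_singleton_iff.2
          (comm_of_sq h'.sq hv.1 hb)⟩) _))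
    have c' : Nat.card (S.bar (cj n A)) = 16 := by rw [bar_cj S h.AN hn, card_cj, cb16]
    cases hco : S.co
    · exfalso
      have hle2 : S.bar (cj n A) ≤ zpowers (S.p (n * a₀ * n⁻¹)) := fun g hg => by
        obtain ⟨b, hb, -, rfl⟩ := S.mem_bar.1 hg
        have := g0 b hb
        rw [hco] at this
        rcases this with h1 | h1
        · rw [S.p_V h1]; exact one_mem _
        · rw [h1]; exact mem_zpowers _
      have c1 := card_le_of_le hle2
      rw [c', Nat.card_zpowers] at c1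
      have c2 : orderOf (S.p (n * a₀ * n⁻¹)) ∣ 2 := orderOf_dvd_of_pow_eq_one (by
        rw [pow_two, ← S.p_mul _ a₁N _ a₁N, h'.sq _ h'.a₀A, S.p_id])
      have := Nat.le_of_dvd two_pos c2
      omega
    · have hle2 : S.bar (cj n A) ≤ Ex := fun g hg => by
        obtain ⟨b, hb, -, rfl⟩ := S.mem_bar.1 hg
        have := g0 b hb
        rwa [hco] at this
      have cE : Nat.card Ex = 16 := by
        rw [card_sg (k := 323) (by simp)]
        decide +kernel
      have e1 : S.bar (cj n A) = Ex := eq_of_le_of_card_ge hle2 (by rw [cE, c'])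
      have e3 : S.bar A = cj (S.p n)⁻¹ Ex := by rw [← e1, bar_cj S h.AN hn, cj_inv_cj]
      have e4 : S.bar A = Ex := by
        rw [e3]
        exact euniq (inv_mem (S.p_mem n hn)) (e3 ▸ hT)
      refine ⟨.oE, S.pin h (y := .oE) hco (le_pre S h.AN e4.le) (fun v hv => ⟨hv.2, fun r hr => ?_⟩)
        fun hle => ?_⟩
      · obtain ⟨a, ha, haN, e⟩ := S.mem_bar.1 (e4.ge hr.2)
        have hv' := (S.p_eq_iff haN hr.1).1 e
        calc r * v = a * (a⁻¹ * r * v) := by group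
          _ = v * r := by
            rw [S.comm hv' hv.2, ← mul_assoc, comm_of_sq h.sq ha hv.1]
            group
      · have c1 := card_le_of_le hle
        rw [S.card_IX (y := .oE) hco, c128] at c1
        exact absurd c1 (by decide)

end Cfsg.Agent.R24
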