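import Cfsg.Agent.R24.Defs2
import Cfsg.Agent.R24.Base2

set_option autoImplicit false

namespace Cfsg.Agent.R24

open Subgroup Cfsg.Agent.H14

variable {G : Type*} [Group G] [Finite G] (S : St G)

namespace LiftAux

/-- the packed central involution -/
def e1 : ℕ := nat_lit 0xbc0ea332364b892451ebaccad18820

def kerB (co : Bool) (m : ℕ) : Bool :=
  Bool.rec (Nat.beq m (nat_lit 0) || Nat.beq m (nat_lit 16777215)) (Nat.beq (enc m) m) co

theorem kerB_iff {co : Bool} {m : ℕ} : kerB co m = true ↔ Ker co m := by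
  cases co <;> simp [kerB, Ker]

def lU (co : Bool) : List ℕ :=
  Bool.rec [0, 4845570, 13938692, 10305542, 7221256, 2605066, 12222476, 15953934, 4038912, 7622914, 15274244,
      10543366, 5476616, 1728778, 8855820, 13553934]
    [0, 8392704, 8396800, 12288, 8421376, 36864, 40960, 8433664, 8454144, 69632, 73728, 8466432, 98304,
      8491008, 8495104, 110592] co

def lD (co : Bool) : List ℕ :=
  Bool.rec [0, 832080, 5350928, 6100032, 6889680, 6656640, 3704512, 3421328, 8241104, 7409024, 2890176, 2141072,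
      1351424, 1584464, 4536592, 4819776]
    [0, 266240, 8208, 274448, 33280, 299520, 41488, 307728, 4259840, 4526080, 4268048, 4534288, 4293120,
      4559360, 4301328, 4567568] co

noncomputable def inD (co : Bool) (m : ℕ) : Bool := anyL (lD co) fun d => kerB co (Nat.xor m d)

theorem te_one : te 1 = e1 := by decide +kernel

theorem lD_spec (co : Bool) : ∀ d ∈ lD co, Dom co d ∧ ∃ u ∈ lU co, Dom co u ∧ d = u ^^^ im e1 u := by
  cases co <;> decide +kernel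

theorem chk1 (co : Bool) :
    all2 32 64 (fun x => force (rp co x) fun m => force (Nat.xor m (im e1 m)) (inD co)) = true := by
  cases co <;> decide +kernel

theorem chk2 (co : Bool) :
    all2 32 64 (fun x => force (rp co x) fun m => bimp (force (Nat.xor m (im e1 m)) (kerB co))
      (bimp (force (Nat.xor m (im g7 m)) (inD co)) (inD co m))) = true := by
  cases co <;> decide +kernel

theorem inD_iff {a : G} (ha : a ∈ S.N) (he : GE.pk (S.p a) = e1) {m : ℕ} (hm : Dom S.co m) :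
    inD S.co m = true ↔ ∃ v ∈ S.V, S.κ m = v * a * v⁻¹ * a⁻¹ := by
  have k : ∀ {m}, Dom S.co m → (inD S.co m = true ↔ ∃ d ∈ lD S.co, S.κ m = S.κ d) := fun hm => by
    rw [inD, anyL_iff]
    exact exists_congr fun d => and_congr_right fun hd =>
      kerB_iff.trans (S.κ_eq_iff hm (lD_spec _ d hd).1).symm
  rw [k hm]
  constructor
  · rintro ⟨d, hd, e⟩
    obtain ⟨-, u, -, hu, rfl⟩ := lD_spec _ d hd
    exact ⟨_, S.κ_mem u, by rw [e, S.comm_κ ha hu, he]⟩
  · rintro ⟨v, hv, e⟩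
    obtain ⟨x, hx, rfl⟩ := S.rp_surj hv
    have h1 := rp_dom S.co x hx
    rw [e, S.comm_κ ha h1, ← k (h1.xor (im_dom (S.p_mem a ha) h1)), he]
    have := all2_iff.1 (chk1 S.co) x hx
    simp only [force_eq] at this
    exact this

theorem lift1 {e : Equiv.Perm GolayPt} (hm : e ∈ M24) (he : GE.pk e = e1) :
    ∃ a ∈ S.N, S.p a = e ∧ a * a = 1 := by
  obtain ⟨a, ha, rfl⟩ := S.p_surj e hm
  obtain ⟨g, hg, eg⟩ := inG_M24 (P := g7) (by decide +kernel) (by decide +kernel)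
  obtain ⟨γ, hγ, rfl⟩ := S.p_surj g hg
  have c : a * a ∈ S.V := (S.p_one _ (mul_mem ha ha)).1 (by
    rw [S.p_mul _ ha _ ha, ← GE.pk_inj, GE.pk_mul, he, GE.pk_one]; decide +kernel)
  have ec : S.p γ * S.p a = S.p a * S.p γ := by
    rw [← GE.pk_inj, GE.pk_mul, GE.pk_mul, he, eg]; decide +kernel
  have k := mul_mem (mul_mem hγ ha) (inv_mem hγ)
  have hv : γ * a * γ⁻¹ * a⁻¹ ∈ S.V := (S.p_one _ (mul_mem k (inv_mem ha))).1 (by
    rw [S.p_mul _ k _ (inv_mem ha), S.p_conj hγ ha, S.p_inv ha, ec]; group)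
  obtain ⟨x, hx, ex⟩ := S.rp_surj c
  have h1 := rp_dom S.co x hx
  have h2 := all2_iff.1 (chk2 S.co) x hx
  simp only [force_eq, bimp_iff, kerB_iff] at h2
  have h3 : S.κ (rp S.co x ^^^ im (GE.pk (S.p γ)) (rp S.co x)) =
      γ * a * γ⁻¹ * a⁻¹ * a * (γ * a * γ⁻¹ * a⁻¹)⁻¹ * a⁻¹ := by
    rw [← S.comm_κ hγ h1, ex]
    generalize hw : γ * a * γ⁻¹ * a⁻¹ = v at hv
    have e1 : γ * a * γ⁻¹ = v * a := by rw [← hw]; group
    have e2 : a * v⁻¹ * a⁻¹ ∈ S.V := H70.conj_mem_of_mem_norm ha (inv_mem hv)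
    calc a * a * γ * (a * a)⁻¹ * γ⁻¹ = a * a * (γ * a * γ⁻¹ * (γ * a * γ⁻¹))⁻¹ := by group
      _ = a * a * (v * (a * v * a⁻¹) * (a * a))⁻¹ := by rw [e1]; group
      _ = a * v⁻¹ * a⁻¹ * v⁻¹ := by group
      _ = v⁻¹ * (a * v⁻¹ * a⁻¹) := S.comm e2 (inv_mem hv)
      _ = v * a * v⁻¹ * a⁻¹ := by
          conv_lhs => enter [1]; rw [inv_eq_of_mul_eq_one_right (S.sq hv)]
          group
  obtain ⟨u, hu, e⟩ := (inD_iff S ha he h1).1 (h2 (he ▸ (S.cent_κ ha h1).1 (by rw [ex, mul_assoc]))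
    (eg ▸ (inD_iff S ha he (h1.xor (im_dom hg h1))).2 ⟨_, hv, h3⟩))
  refine ⟨u * a, mul_mem (S.V_le hu) ha, by rw [S.p_mul _ (S.V_le hu) _ ha, S.p_V hu, one_mul], ?_⟩
  calc u * a * (u * a) = u * a * u⁻¹ * a⁻¹ * (a * a) := by
        rw [inv_eq_of_mul_eq_one_right (S.sq hu)]; group
    _ = 1 := by rw [← e, ex, S.sq c]

end LiftAux

/-- notes/R24.md, section Lift -/
theorem St.lift {g : Equiv.Perm GolayPt} (hg : g ∈ M24) (h : IsA g) : ∃ a ∈ S.N, S.p a = g ∧ a * a = 1 := by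
  obtain ⟨k, hk, e⟩ := h
  obtain ⟨a, ha, e1, e2⟩ := LiftAux.lift1 S (mul_mem (mul_mem hk hg) (inv_mem hk)) (e.trans LiftAux.te_one)
  obtain ⟨n, hn, rfl⟩ := S.p_surj k hk
  refine ⟨n⁻¹ * a * n⁻¹⁻¹, mul_mem (mul_mem (inv_mem hn) ha) (inv_mem (inv_mem hn)), ?_, ?_⟩
  · rw [S.p_conj (inv_mem hn) ha, S.p_inv hn, e1]; group
  · rw [conj_mul, e2]; group

end Cfsg.Agent.R24
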