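/-
Project R24 (S3318), `notes/R24.md`, section Mod1b: the matrices of the last two generators.
-/
import Cfsg.Agent.R24.Defs2

set_option autoImplicit false
set_option linter.unusedSectionVars false

namespace Cfsg.Agent.R24

open Subgroup Cfsg.Agent.H14

namespace M1b

/-- the orbit `c, f c, f (f c), ...` -/
def orb (f : ℕ → ℕ) : ℕ → ℕ → List ℕ
  | 0, _ => []
  | n + 1, c => c :: orb f n (f c)

noncomputable def orbK (f : ℕ → ℕ) (n : ℕ) : ℕ → (List ℕ → Bool) → Bool :=
  Nat.rec (fun _ k => k []) (fun _ ih c k => force (f c) fun c' => ih c' fun l => k (c :: l)) n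

theorem orbK_eq (f : ℕ → ℕ) (n c : ℕ) (k : List ℕ → Bool) : orbK f n c k = k (orb f n c) := by
  induction n generalizing c k with
  | zero => rfl
  | succ n ih =>
    show force (f c) (fun c' => orbK f n c' fun l => k (c :: l)) = _
    rw [force_eq, ih]
    rfl

noncomputable def itK (f : ℕ → ℕ) (n : ℕ) : ℕ → ℕ :=
  Nat.rec (fun x => x) (fun _ ih x => force (f x) ih) n

theorem itK_eq (f : ℕ → ℕ) (n x : ℕ) : itK f n x = f^[n] x := by
  induction n generalizing x with
  | zero => rfl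
  | succ n ih =>
    show force (f x) (itK f n) = _
    rw [force_eq, ih, Function.iterate_succ_apply]

def tI (co : Bool) : List ℕ :=
  if co then [1, 1183, 2, 1355, 4, 1763, 8, 435, 16, 870, 32]
  else [1, 1478, 2, 367, 4, 734, 8, 1468, 16, 411, 32]
def t3 (co : Bool) : List ℕ :=
  if co then [1, 256, 870, 2, 512, 1740, 4, 1024, 493, 8, 1141]
  else [1, 256, 411, 2, 512, 822, 4, 1024, 1644, 8, 739]
def tP (co : Bool) : List ℕ :=
  if co then [2047, 1, 2, 256, 4, 571, 512, 1678, 8, 32, 1142]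
  else [2047, 2046, 2045, 1791, 2043, 1140, 1535, 285, 2039, 2015, 233]
def w0 (co : Bool) : ℕ := if co then 2 else 3
def cG (co : Bool) : ℕ := if co then 1595 else 1393
def cD (co : Bool) : ℕ := if co then 493 else 554

/-- the relation `(σ ^ a γ) ^ n` fixes `v` -/
noncomputable def tst (co : Bool) (O : List ℕ) (a n v : ℕ) : Bool :=
  Nat.beq (itK (fun x => force (encL (tP co) x) fun y => force (encL O y) (itK (encL (tS co)) a)) n v) v

theorem tst_iff {co : Bool} {O : List ℕ} {a n v : ℕ} : tst co O a n v = true ↔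
    (fun x => (encL (tS co))^[a] (encL O (encL (tP co) x)))^[n] v = v := by
  simp only [tst, beq_iff, force_eq, itK_eq]

theorem chkG (co : Bool) : all2 32 64 (fun c => orbK (encL (tI co)) 11 c fun O =>
    bimp (tst co O 1 3 1) (bimp (tst co O 1 3 4) (Nat.beq c (cG co)))) = true := by
  cases co <;> decide +kernel

theorem chkD (co : Bool) : all2 32 64 (fun c => orbK (encL (t3 co)) 11 c fun O =>
    bimp (tst co O 1 6 1) (bimp (tst co O 2 7 1) (bimp (tst co O 3 7 1) (Nat.beq c (cD co))))) = true := by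
  cases co <;> decide +kernel

theorem chkB (co : Bool) : orbK (encL (tM co)) 11 (w0 co) (fun L => orbK (encL (tI co)) 11 (cG co) fun A =>
    orbK (encL (t3 co)) 11 (cD co) fun B => all2 32 64 fun x => force (encL (tP co) x) fun y =>
      Nat.beq (encL L y) x && Nat.beq (encL A y) (encL (tG co) x) && Nat.beq (encL B y) (encL (tD co) x) &&
      Nat.beq (itK (encL (tM co)) 3 x) (encL (t3 co) x) &&
      force (encL (tI co) x) fun z => Nat.beq (encL (tM co) z) x) = true := by
  cases co <;> decide +kernel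

theorem encL_lt {L : List ℕ} (h : ∀ a ∈ L, a < 2048) (x : ℕ) : encL L x < 2048 := by
  induction L generalizing x with
  | nil => exact Nat.zero_lt_succ _
  | cons r rs ih =>
    rw [encL_cons]
    refine Nat.xor_lt_two_pow (n := 11) ?_ (ih (fun a ha => h a (List.mem_cons_of_mem _ ha)) _)
    have := h r List.mem_cons_self
    rcases Nat.mod_two_eq_zero_or_one x with e | e <;> rw [e] <;> omega

theorem map_encL {f : ℕ → ℕ} (f0 : f 0 = 0) (hf : ∀ x < 2048, ∀ y < 2048, f (x ^^^ y) = f x ^^^ f y)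
    {L : List ℕ} (h : ∀ a ∈ L, a < 2048) (x : ℕ) : f (encL L x) = encL (L.map f) x := by
  induction L generalizing x with
  | nil => exact f0
  | cons r rs ih =>
    have h' : ∀ a ∈ rs, a < 2048 := fun a ha => h a (List.mem_cons_of_mem _ ha)
    have hr := h r List.mem_cons_self
    rw [List.map_cons, encL_cons, encL_cons, ← ih h']
    rcases Nat.mod_two_eq_zero_or_one x with e | e
    · rw [e, mul_zero, mul_zero, Nat.zero_xor, Nat.zero_xor]
    · rw [e, mul_one, mul_one, hf _ hr _ (encL_lt h' _)]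

theorem orb_lt {f : ℕ → ℕ} (hf : ∀ x, f x < 2048) (n : ℕ) {c : ℕ} (hc : c < 2048) :
    ∀ a ∈ orb f n c, a < 2048 := by
  induction n generalizing c with
  | zero => intro a ha; cases ha
  | succ n ih =>
    intro a ha
    rcases List.mem_cons.1 ha with rfl | ha
    · exact hc
    · exact ih (hf c) a ha

theorem map_orb {f ν γ : ℕ → ℕ} (hf : ∀ x, f x < 2048) (h : ∀ x < 2048, γ (f x) = ν (γ x)) (n : ℕ)
    {c : ℕ} (hc : c < 2048) : (orb f n c).map γ = orb ν n (γ c) := by
  induction n generalizing c with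
  | zero => rfl
  | succ n ih => rw [orb, orb, List.map_cons, ih (hf c), h c hc]

variable {G : Type*} [Group G] {V : Subgroup G} {e : ℕ → G}

/-- `n` acts by the map `f` -/
def Act (e : ℕ → G) (n : G) (f : ℕ → ℕ) : Prop := ∀ x < 2048, f x < 2048 ∧ n * e x * n⁻¹ = e (f x)

theorem e_zero (hL : Lin V e) : e 0 = 1 := by
  have := hL.xor 0 (by norm_num) 0 (by norm_num)
  rwa [Nat.xor_self, left_eq_mul] at this

theorem e_inj (hL : Lin V e) {x y : ℕ} (hx : x < 2048) (hy : y < 2048) (h : e x = e y) : x = y := by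
  refine Nat.xor_eq_zero_iff.1 (hL.inj _ (Nat.xor_lt_two_pow (n := 11) hx hy) ?_)
  rw [hL.xor x hx y hy, h, ← hL.xor y hy y hy, Nat.xor_self, e_zero hL]

theorem Act.mul {n n' : G} {f f' : ℕ → ℕ} (h : Act e n f) (h' : Act e n' f') :
    Act e (n * n') fun x => f (f' x) := fun x hx =>
  ⟨(h _ (h' x hx).1).1, by rw [← (h _ (h' x hx).1).2, ← (h' x hx).2]; group⟩

theorem Act.pow {n : G} {f : ℕ → ℕ} (h : Act e n f) (k : ℕ) : Act e (n ^ k) f^[k] := by
  induction k with
  | zero => exact fun x hx => ⟨hx, by simp⟩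
  | succ k ih => rw [pow_succ]; exact ih.mul h

theorem Act.fix (hL : Lin V e) {n : G} {f : ℕ → ℕ} (h : Act e n f) (hn : n ∈ centralizer (V : Set G))
    {x : ℕ} (hx : x < 2048) : f x = x :=
  e_inj hL (h x hx).1 hx (by rw [← (h x hx).2, ← hn _ (hL.mem x), mul_inv_cancel_right])

theorem exists_act (hL : Lin V e) {n : G} (hn : n ∈ normalizer (V : Set G)) : ∃ f, Act e n f := by
  choose f h1 h2 using fun x => hL.surj _ (H70.conj_mem_of_mem_norm hn (hL.mem x))
  exact ⟨f, fun x _ => ⟨h1 x, (h2 x).symm⟩⟩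

theorem Act.table (hL : Lin V e) {co : Bool} {n : G} {f ν : ℕ → ℕ} (h : Act e n f)
    (hν : ∀ x < 2048, f (encL (tM co) x) = ν (f x)) :
    Act e n fun x => encL (orb ν 11 (f (w0 co))) (encL (tP co) x) := by
  have hM : ∀ x, encL (tM co) x < 2048 := encL_lt (by cases co <;> decide)
  have hw : w0 co < 2048 := by cases co <;> decide
  have f0 : f 0 = 0 := e_inj hL (h 0 (by norm_num)).1 (by norm_num)
    (by rw [← (h 0 (by norm_num)).2, e_zero hL, mul_one, mul_inv_cancel])
  have hf : ∀ x < 2048, ∀ y < 2048, f (x ^^^ y) = f x ^^^ f y := fun x hx y hy => by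
    have hxy := Nat.xor_lt_two_pow (n := 11) hx hy
    refine e_inj hL (h _ hxy).1 (Nat.xor_lt_two_pow (n := 11) (h x hx).1 (h y hy).1) ?_
    rw [← (h _ hxy).2, hL.xor _ (h x hx).1 _ (h y hy).1, ← (h x hx).2, ← (h y hy).2, hL.xor x hx y hy,
      conj_mul]
  intro x hx
  have hB := chkB co
  simp only [orbK_eq, all2_iff, force_eq, Bool.and_eq_true, beq_iff] at hB
  have := map_encL f0 hf (orb_lt hM 11 hw) (encL (tP co) x)
  rw [(hB x hx).1.1.1.1, map_orb hM hν 11 hw] at this
  beta_reduce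
  rw [← this]
  exact h x hx

end M1b

open M1b

variable {G : Type*} [Group G] [Finite G]

/-- notes/R24.md, section Mod1b -/
theorem mod1b {V : Subgroup G} {co : Bool} {e : ℕ → G} (hL : Lin V e) {s m g d : G}
    (hg : g ∈ normalizer (V : Set G)) (hd : d ∈ normalizer (V : Set G)) (hs : Ac e s (tS co)) (hm : Ac e m (tM co))
    (gm : g * m * g⁻¹ * m ∈ centralizer (V : Set G)) (dm : d * m * d⁻¹ * (m ^ 3)⁻¹ ∈ centralizer (V : Set G))
    (r1 : (s * g) ^ 3 ∈ centralizer (V : Set G)) (r2 : (s * d) ^ 6 ∈ centralizer (V : Set G))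
    (r3 : (s ^ 2 * d) ^ 7 ∈ centralizer (V : Set G)) (r4 : (s ^ 3 * d) ^ 7 ∈ centralizer (V : Set G)) :
    Ac e g (tG co) ∧ Ac e d (tD co) := by
  have hM : ∀ x, encL (tM co) x < 2048 := encL_lt (by cases co <;> decide)
  have hI : ∀ x, encL (tI co) x < 2048 := encL_lt (by cases co <;> decide)
  have hw : w0 co < 2048 := by cases co <;> decide
  have aS : Act e s (encL (tS co)) := fun x hx => ⟨encL_lt (by cases co <;> decide) x, hs x hx⟩
  have aM : Act e m (encL (tM co)) := fun x hx => ⟨hM x, hm x hx⟩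
  have hB := chkB co
  simp only [orbK_eq, all2_iff, force_eq, Bool.and_eq_true, beq_iff, itK_eq] at hB
  obtain ⟨γ, aG⟩ := exists_act hL hg
  obtain ⟨δ, aD⟩ := exists_act hL hd
  have tG' := aG.table hL (co := co) (ν := encL (tI co)) fun x hx => by
    refine e_inj hL (aG _ (hM x)).1 (hI _) ?_
    have h1 := hm _ (hI (γ x))
    rw [(hB _ (aG x hx).1).2, ← (aG x hx).2] at h1
    have h2 := gm _ (hL.mem (encL (tI co) (γ x)))
    rw [← (aG _ (hM x)).2, ← hm x hx]
    calc _ = g * m * g⁻¹ * (g * e x * g⁻¹) * (g * m * g⁻¹)⁻¹ := by group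
      _ = g * m * g⁻¹ * m * e (encL (tI co) (γ x)) * (g * m * g⁻¹ * m)⁻¹ := by rw [← h1]; group
      _ = _ := by rw [← h2, mul_inv_cancel_right]
  have tD' := aD.table hL (co := co) (ν := encL (t3 co)) fun x hx => by
    have h1 := (aM.pow 3) _ (aD x hx).1
    rw [(hB _ (aD x hx).1).1.2] at h1
    refine e_inj hL (aD _ (hM x)).1 h1.1 ?_
    have h2 := dm _ (hL.mem (encL (t3 co) (δ x)))
    rw [← (aD _ (hM x)).2, ← hm x hx]
    calc _ = d * m * d⁻¹ * (d * e x * d⁻¹) * (d * m * d⁻¹)⁻¹ := by group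
      _ = d * m * d⁻¹ * (m ^ 3)⁻¹ * e (encL (t3 co) (δ x)) * (d * m * d⁻¹ * (m ^ 3)⁻¹)⁻¹ := by
        rw [← h1.2, (aD x hx).2]; group
      _ = _ := by rw [← h2, mul_inv_cancel_right]
  have cg : γ (w0 co) = cG co := by
    have h := all2_iff.1 (chkG co) _ (aG _ hw).1
    rw [orbK_eq, bimp_iff, bimp_iff, tst_iff, tst_iff, beq_iff] at h
    have k := fun x hx => Act.fix hL ((aS.mul tG').pow 3) r1 (x := x) hx
    exact h (k 1 (by norm_num)) (k 4 (by norm_num))
  have cd : δ (w0 co) = cD co := by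
    have h := all2_iff.1 (chkD co) _ (aD _ hw).1
    rw [orbK_eq, bimp_iff, bimp_iff, bimp_iff, tst_iff, tst_iff, tst_iff, beq_iff] at h
    exact h (Act.fix hL ((aS.mul tD').pow 6) r2 (by norm_num))
      (Act.fix hL (((aS.pow 2).mul tD').pow 7) r3 (by norm_num))
      (Act.fix hL (((aS.pow 3).mul tD').pow 7) r4 (by norm_num))
  rw [cg] at tG'
  rw [cd] at tD'
  exact ⟨fun x hx => (hB x hx).1.1.1.2 ▸ (tG' x hx).2, fun x hx => (hB x hx).1.1.2 ▸ (tD' x hx).2⟩

end Cfsg.Agent.R24
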