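import Cfsg.Agent.R24.Defs2

set_option autoImplicit false

namespace Cfsg.Agent.R24

open Subgroup Cfsg.Agent.H14
open scoped Pointwise

namespace Mod2

theorem span {P : ℕ → Prop} (h0 : P 0) (hx : ∀ a b, P a → P b → P (a ^^^ b)) (L : List ℕ) (h : ∀ r ∈ L, P r)
    (x : ℕ) : P (encL L x) := by
  induction L generalizing x with
  | nil => exact h0
  | cons r rs ih =>
    rw [encL_cons]
    refine hx _ _ ?_ (ih (fun r hr => h r (List.mem_cons_of_mem _ hr)) _)
    rcases Nat.mod_two_eq_zero_or_one x with e | e <;> rw [e]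
    · rwa [mul_zero]
    · rw [mul_one]; exact h r List.mem_cons_self

theorem unit {P : ℕ → Prop} (h0 : P 0) (hx : ∀ a b, P a → P b → P (a ^^^ b)) (n : ℕ) (h : ∀ i < n, P (2 ^ i)) :
    ∀ m < 2 ^ n, P m := by
  induction n with
  | zero => intro m hm; obtain rfl : m = 0 := by omega
            exact h0
  | succ n ih =>
    intro m hm
    have ih' := ih fun i hi => h i (by omega)
    by_cases h1 : m < 2 ^ n
    · exact ih' m h1
    have h2 : m ^^^ 2 ^ n < 2 ^ n := Nat.lt_pow_two_of_testBit _ fun i hi => by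
      rw [Nat.testBit_xor]
      rcases Nat.eq_or_lt_of_le hi with rfl | hi
      · rw [Nat.testBit_of_two_pow_le_and_two_pow_add_one_gt (by omega) hm, Nat.testBit_two_pow_self]; rfl
      · rw [Nat.testBit_lt_two_pow (hm.trans_le (Nat.pow_le_pow_right two_pos hi)),
          Nat.testBit_two_pow_of_ne hi.ne]; rfl
    have := hx _ _ (ih' _ h2) (h n (by omega))
    rwa [Nat.xor_assoc, Nat.xor_self, Nat.xor_zero] at this

theorem xor4 (a b c d : ℕ) : (a ^^^ b) ^^^ (c ^^^ d) = (a ^^^ c) ^^^ (b ^^^ d) := by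
  simp only [Nat.xor_assoc, Nat.xor_left_comm b c d]

theorem par (c a b : ℕ) : c * (pc (a ^^^ b) % 2) = c * (pc a % 2) ^^^ c * (pc b % 2) := by
  rw [pc_xor, Nat.add_mod]
  rcases Nat.mod_two_eq_zero_or_one (pc a) with e | e <;> rcases Nat.mod_two_eq_zero_or_one (pc b) with e' | e' <;>
    simp [e, e']

/-- an additive function whose values on generators lie in an additive set -/
theorem dom_ind {co : Bool} {f : ℕ → ℕ} (hf : ∀ a b, f (a ^^^ b) = f a ^^^ f b) {P : ℕ → Prop} (h0 : P 0)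
    (hx : ∀ a b, P a → P b → P (a ^^^ b))
    (h : if co then ∀ i < 24, P (f (2 ^ i) ^^^ f 8388608) else ∀ r ∈ rows, P (f r)) {m : ℕ} (hm : Dom co m) :
    P (f m) := by
  have f0 : f 0 = 0 := by simpa using hf 0 0
  obtain ⟨h1, h2⟩ := hm
  cases co
  · simp only [Bool.false_eq_true, if_false] at h h2
    rw [← h2, enc_eq]
    exact span (P := fun a => P (f a)) (by show P (f 0); rw [f0]; exact h0) (fun a b ha hb => by rw [hf]; exact hx _ _ ha hb) rows h m
  · simp only [if_true] at h h2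
    have := unit (P := fun a => P (f a ^^^ f 8388608 * (pc a % 2))) (by
      show P (f 0 ^^^ f 8388608 * (pc 0 % 2))
      rw [f0, show pc 0 % 2 = 0 by decide +kernel, mul_zero, Nat.xor_self]; exact h0) (fun a b ha hb => by
        rw [hf, par, xor4]; exact hx _ _ ha hb) 24 (fun i hi => by
        rw [(by decide +kernel : ∀ i < 24, pc (2 ^ i) % 2 = 1) i hi, mul_one]; exact h i hi) m h1
    rwa [h2, mul_zero, Nat.xor_zero] at this

theorem im_lt (g : Equiv.Perm GolayPt) (a : ℕ) : im (GE.pk g) a < 2 ^ 24 := GE.img_pk_lt g a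

theorem imx (g : Equiv.Perm GolayPt) (a b : ℕ) : im (GE.pk g) (a ^^^ b) = im (GE.pk g) a ^^^ im (GE.pk g) b :=
  bits_inj (im_lt _ _) (Nat.xor_lt_two_pow (im_lt _ _) (im_lt _ _)) (by
    rw [bits_xor, ← smul_bits, ← smul_bits, ← smul_bits, bits_xor, Finset.smul_finset_symmDiff])

theorem imm (g h : Equiv.Perm GolayPt) (a : ℕ) : im (GE.pk (g * h)) a = im (GE.pk g) (im (GE.pk h) a) :=
  bits_inj (im_lt _ _) (im_lt _ _) (by rw [← smul_bits, ← smul_bits, ← smul_bits, mul_smul])

theorem im1 {a : ℕ} (h : a < 2 ^ 24) : im (GE.pk 1) a = a :=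
  bits_inj (im_lt _ _) h (by rw [← smul_bits, one_smul])

/-- coordinates of a mask -/
def lam (co : Bool) : List ℕ :=
  if co then [0, 3, 5, 9, 17, 33, 65, 129, 257, 513, 1025, 1140, 1182, 1354, 1762, 434, 871, 1741, 492, 987, 1973, 796,
    1595, 1]
  else [0, 0, 0, 0, 0, 0, 0, 0, 0, 0, 0, 0, 345, 690, 1085, 665, 1131, 876, 1921, 1505, 289, 578, 1501, 1686]

/-- masks of the basis -/
def bas (co : Bool) : List ℕ :=
  if co then [8388609, 8388610, 8388612, 8388616, 8388624, 8388640, 8388672, 8388736, 8388864, 8389120, 8389632]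
  else [340831, 681662, 1363324, 2726648, 5453296, 2517985, 5035970, 1683333, 3366666, 6733332, 5078057]

theorem lam_lt (co : Bool) (m : ℕ) : encL (lam co) m < 2048 :=
  span (P := fun a => a < 2 ^ 11) (by decide) (fun _ _ => Nat.xor_lt_two_pow) _ (by cases co <;> decide) m

theorem ker_xor {co : Bool} (a b : ℕ) (ha : Ker co a) (hb : Ker co b) : Ker co (a ^^^ b) := by
  cases co
  · simp only [Ker, Bool.false_eq_true, if_false] at *
    rcases ha with rfl | rfl <;> rcases hb with rfl | rfl <;> decide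
  · simp only [Ker, if_true] at *
    rw [enc_xor, ha, hb]

theorem lam_zero {co : Bool} {a : ℕ} (ha : Dom co a) : encL (lam co) a = 0 ↔ Ker co a := by
  constructor
  · intro h
    have := dom_ind (f := fun a => encL (bas co) (encL (lam co) a) ^^^ a)
      (fun a b => by rw [encL_xor, encL_xor, xor4]) (ker_zero co) ker_xor (by cases co <;> decide +kernel) ha
    rwa [h, show encL (bas co) 0 = 0 by cases co <;> decide +kernel, Nat.zero_xor] at this
  · intro h
    cases co
    · rcases h with rfl | rfl <;> decide +kernel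
    · exact dom_ind (co := false) (encL_xor _) (P := fun a => a = 0) rfl (fun a b ha hb => by rw [ha, hb]; rfl)
        (by decide +kernel) ⟨ha.1, h⟩

theorem bas_dom (co : Bool) (x : ℕ) : Dom co (encL (bas co) x) :=
  span (dom_zero co) (fun _ _ => Dom.xor) _ (by cases co <;> decide +kernel) x

theorem lam_bas (co : Bool) : ∀ x < 2 ^ 11, encL (lam co) (encL (bas co) x) = x :=
  unit (by cases co <;> decide +kernel) (fun a b ha hb => by rw [encL_xor, encL_xor, ha, hb]) 11
    (by cases co <;> decide +kernel)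

/-- the check for one generator -/
def Ok (co : Bool) (P : ℕ) (tab : List ℕ) : Prop :=
  (if co then ∀ i < 24, (encL (lam co) (im P (2 ^ i)) ^^^ encL tab (encL (lam co) (2 ^ i))) ^^^
      (encL (lam co) (im P 8388608) ^^^ encL tab (encL (lam co) 8388608)) = 0
    else ∀ r ∈ rows, encL (lam co) (im P r) ^^^ encL tab (encL (lam co) r) = 0) ∧
  (if co then ∀ i < 24, Dom co (im P (2 ^ i) ^^^ im P 8388608) else ∀ r ∈ rows, Dom co (im P r))

noncomputable instance (co : Bool) (P : ℕ) (tab : List ℕ) : Decidable (Ok co P tab) := by unfold Ok; infer_instance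

theorem Ok.ap {co : Bool} {g : Equiv.Perm GolayPt} {tab : List ℕ} (h : Ok co (GE.pk g) tab) {a : ℕ} (ha : Dom co a) :
    encL (lam co) (im (GE.pk g) a) = encL tab (encL (lam co) a) ∧ Dom co (im (GE.pk g) a) :=
  ⟨Nat.xor_eq_zero_iff.1 (dom_ind (f := fun a => encL (lam co) (im (GE.pk g) a) ^^^ encL tab (encL (lam co) a))
    (fun a b => by rw [imx, encL_xor, encL_xor, encL_xor, xor4]) (P := fun a => a = 0) rfl
    (fun a b ha hb => by rw [ha, hb]; rfl) h.1 ha), dom_ind (imx g) (dom_zero co) (fun _ _ => Dom.xor) h.2 ha⟩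

theorem okS (co : Bool) : Ok co (GE.pk shiftPerm) (tS co) := by
  rw [pk_shiftPerm]; cases co <;> decide +kernel

theorem okG (co : Bool) : Ok co (GE.pk projInv) (tG co) := by
  rw [pk_projInv]; cases co <;> decide +kernel

theorem okD (co : Bool) : Ok co (GE.pk cubeTwist) (tD co) := by
  rw [pk_cubeTwist]; cases co <;> decide +kernel

end Mod2

open Mod2

variable {G : Type*} [Group G] [Finite G]

/-- notes/R24.md, section Mod2 -/
theorem mod2 {V : Subgroup G} (hC : centralizer (V : Set G) = V) (π : normalizer (V : Set G) →* Equiv.Perm GolayPt)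
    (hr : π.range = M24) (hk : ∀ n, π n = 1 ↔ (n : G) ∈ V) {co : Bool} {e : ℕ → G} (hL : Lin V e)
    {s g d : normalizer (V : Set G)} (ps : π s = shiftPerm) (pg : π g = projInv) (pd : π d = cubeTwist)
    (hs : Ac e s (tS co)) (hg : Ac e g (tG co)) (hd : Ac e d (tD co)) : ∃ S : St G, S.V = V := by
  classical
  let K : Submonoid (normalizer (V : Set G)) :=
    { carrier := {n | ∀ a, Dom co a → Dom co (im (GE.pk (π n)) a) ∧
        (n : G) * e (encL (lam co) a) * (n : G)⁻¹ = e (encL (lam co) (im (GE.pk (π n)) a))}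
      one_mem' := fun a ha => by rw [map_one, im1 ha.1]; exact ⟨ha, by simp⟩
      mul_mem' := fun {m n} hm hn a ha => by
        rw [map_mul, imm]
        refine ⟨(hm _ (hn a ha).1).1, ?_⟩
        rw [← (hm _ (hn a ha).1).2, ← (hn a ha).2, coe_mul]
        group }
  have gen : ∀ (n : normalizer (V : Set G)) (tab : List ℕ), Ok co (GE.pk (π n)) tab → Ac e n tab → n ∈ K :=
    fun n tab h1 h2 a ha => ⟨(h1.ap ha).2, by rw [(h1.ap ha).1, h2 _ (lam_lt co a)]⟩
  have kV : ∀ n, π n = 1 → n ∈ K := fun n hn a ha => by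
    rw [hn, im1 ha.1]
    exact ⟨ha, by rw [← (hC.ge ((hk n).1 hn)) _ (hL.mem _), mul_inv_cancel_right]⟩
  have kA : ∀ h ∈ closure ({shiftPerm, projInv, cubeTwist} : Set (Equiv.Perm GolayPt)), ∃ n ∈ K, π n = h := by
    intro h hh
    induction hh using closure_induction with
    | mem x hx =>
      rcases hx with rfl | rfl | rfl
      exacts [⟨s, gen s _ (ps ▸ okS co) hs, ps⟩, ⟨g, gen g _ (pg ▸ okG co) hg, pg⟩, ⟨d, gen d _ (pd ▸ okD co) hd, pd⟩]
    | one => exact ⟨1, one_mem _, map_one _⟩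
    | mul x y _ _ hx hy =>
      obtain ⟨m, hm, rfl⟩ := hx
      obtain ⟨n, hn, rfl⟩ := hy
      exact ⟨m * n, mul_mem hm hn, map_mul _ _ _⟩
    | inv x _ hx =>
      obtain ⟨m, hm, rfl⟩ := hx
      refine ⟨m⁻¹, ?_, map_inv _ _⟩
      rw [show m⁻¹ = m ^ (orderOf m - 1) from inv_eq_of_mul_eq_one_right (by
        rw [← pow_succ', Nat.sub_add_cancel (orderOf_pos m), pow_orderOf_eq_one])]
      exact pow_mem hm _
  have all : ∀ n, n ∈ K := fun n => by
    obtain ⟨m, hm, h⟩ := kA (π n) (by rw [M24_eq_closure, ← hr]; exact ⟨n, rfl⟩)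
    rw [← mul_inv_cancel_left m n]
    exact mul_mem hm (kV _ (by rw [map_mul, map_inv, h, inv_mul_cancel]))
  let p : G → Equiv.Perm GolayPt := fun n => if h : n ∈ normalizer (V : Set G) then π ⟨n, h⟩ else 1
  have hp : ∀ n (h : n ∈ normalizer (V : Set G)), p n = π ⟨n, h⟩ := fun n h => dif_pos h
  have e0 : e 0 = 1 := by simpa using hL.xor 0 (by decide) 0 (by decide)
  exact ⟨{
    co := co
    V := V
    p := p
    κ := fun m => e (encL (lam co) m)
    p_mul := fun a ha b hb => by rw [hp _ (mul_mem ha hb), hp _ ha, hp _ hb, ← map_mul]; rfl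
    p_mem := fun a ha => by rw [hp _ ha, ← hr]; exact ⟨_, rfl⟩
    p_surj := fun h hh => by
      obtain ⟨n, rfl⟩ := hr.ge hh
      exact ⟨n, n.2, hp _ n.2⟩
    p_one := fun a ha => by rw [hp _ ha, hk]
    cent := hC
    κ_mem := fun _ => hL.mem _
    κ_xor := fun a b _ _ => by rw [encL_xor, hL.xor _ (lam_lt co a) _ (lam_lt co b)]
    κ_one := fun a ha => by
      rw [← lam_zero ha]
      exact ⟨hL.inj _ (lam_lt co a), fun h => by rw [h, e0]⟩
    κ_surj := fun v hv => by
      obtain ⟨x, hx, rfl⟩ := hL.surj v hv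
      exact ⟨_, bas_dom co x, by rw [lam_bas co x hx]⟩
    κ_conj := fun n hn a ha => by rw [hp _ hn]; exact (all ⟨n, hn⟩ a ha).2 }, rfl⟩

end Cfsg.Agent.R24
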