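import Cfsg.Agent.R24.Mod1a
import Cfsg.Agent.R24.Mod1b
import Cfsg.Agent.R24.Mod2
import Cfsg.Agent.H14.PermSimple

set_option autoImplicit false

namespace Cfsg.Agent.R24

open Subgroup Cfsg.Agent.H14

variable {G : Type*} [Group G] [Finite G]

theorem mod_rel {μ : Equiv.Perm GolayPt} (h : GE.pk μ = 0xbd6717b56939461b52507314831040) :
    shiftPerm ^ 23 = 1 ∧ shiftPerm ≠ 1 ∧ μ ^ 11 = 1 ∧ μ * shiftPerm * μ⁻¹ * (shiftPerm ^ 2)⁻¹ = 1 ∧
      projInv * μ * projInv⁻¹ * μ = 1 ∧ cubeTwist * μ * cubeTwist⁻¹ * (μ ^ 3)⁻¹ = 1 ∧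
      (shiftPerm * projInv) ^ 3 = 1 ∧ (shiftPerm * cubeTwist) ^ 6 = 1 ∧
      (shiftPerm ^ 2 * cubeTwist) ^ 7 = 1 ∧ (shiftPerm ^ 3 * cubeTwist) ^ 7 = 1 := by
  simp only [ne_eq, ← GE.pk_inj, GE.pk_pow, GE.pk_mul, GE.pk_inv, GE.pk_one, h, pk_shiftPerm, pk_projInv,
    pk_cubeTwist]
  decide +kernel

/-- notes/R24.md, section Mod -/
theorem mod {V : Subgroup G} (hV : IsElementaryAbelian 2 V) (hc : Nat.card V = 2 ^ 11) (hC : centralizer (V : Set G) = V)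
    (hM : Spor.IsoM24 (normalizer (V : Set G) ⧸ V.subgroupOf (normalizer (V : Set G)))) : ∃ S : St G, S.V = V := by
  obtain ⟨e⟩ := hM
  let π : normalizer (V : Set G) →* Equiv.Perm GolayPt :=
    M24.subtype.comp (e.toMonoidHom.comp (QuotientGroup.mk' _))
  have hr : π.range = M24 := by
    refine le_antisymm ?_ fun g hg => ?_
    · rintro _ ⟨n, rfl⟩
      exact (e _).2
    · obtain ⟨q, hq⟩ := e.surjective ⟨g, hg⟩
      obtain ⟨n, rfl⟩ := QuotientGroup.mk'_surjective _ q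
      exact ⟨n, congrArg Subtype.val hq⟩
  have hk : ∀ n, π n = 1 ↔ (n : G) ∈ V := fun n => by
    show ((e (QuotientGroup.mk' _ n) : M24) : Equiv.Perm GolayPt) = 1 ↔ _
    rw [OneMemClass.coe_eq_one, map_eq_one_iff _ e.injective]
    exact QuotientGroup.eq_one_iff n
  have hk' : ∀ n, π n = 1 ↔ (n : G) ∈ centralizer (V : Set G) := fun n => by rw [hC]; exact hk n
  obtain ⟨μ, hμ, pμ⟩ := inG_M24 (P := 0xbd6717b56939461b52507314831040) (by decide +kernel) (by decide +kernel)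
  obtain ⟨r1, r2, r3, r4, r5, r6, r7, r8, r9, r10⟩ := mod_rel pμ
  obtain ⟨s, ps⟩ : shiftPerm ∈ π.range := hr ▸ shiftPerm_mem
  obtain ⟨g, pg⟩ : projInv ∈ π.range := hr ▸ projInv_mem
  obtain ⟨d, pd⟩ : cubeTwist ∈ π.range := hr ▸ cubeTwist_mem
  obtain ⟨m, pm⟩ : μ ∈ π.range := hr ▸ hμ
  rw [← ps, ← map_pow] at r1
  rw [← pm, ← map_pow] at r3
  obtain ⟨co, f, hL, hs, hm⟩ := mod1a hV hc s.2 m.2 ((hk' _).1 r1) (fun h => r2 (ps ▸ (hk' _).2 h))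
    ((hk' _).1 r3) ((hk' (m * s * m⁻¹ * (s ^ 2)⁻¹)).1 (by simpa only [map_mul, map_inv, map_pow, ps, pm] using r4))
  obtain ⟨hg, hd⟩ := mod1b hL g.2 d.2 hs hm
    ((hk' (g * m * g⁻¹ * m)).1 (by simpa only [map_mul, map_inv, map_pow, pg, pm] using r5))
    ((hk' (d * m * d⁻¹ * (m ^ 3)⁻¹)).1 (by simpa only [map_mul, map_inv, map_pow, pd, pm] using r6))
    ((hk' ((s * g) ^ 3)).1 (by simpa only [map_mul, map_inv, map_pow, ps, pg] using r7))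
    ((hk' ((s * d) ^ 6)).1 (by simpa only [map_mul, map_inv, map_pow, ps, pd] using r8))
    ((hk' ((s ^ 2 * d) ^ 7)).1 (by simpa only [map_mul, map_inv, map_pow, ps, pd] using r9))
    ((hk' ((s ^ 3 * d) ^ 7)).1 (by simpa only [map_mul, map_inv, map_pow, ps, pd] using r10))
  exact mod2 hC π hr hk hL ps pg pd hs hg hd

end Cfsg.Agent.R24
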