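import Cfsg.Agent.R24.Defs2

set_option autoImplicit false

namespace Cfsg.Agent.R24

open Subgroup Cfsg.Agent.H14
open scoped IsMulCommutative

variable {G : Type*} [Group G] [Finite G]

section Abs

variable {A : Type*} [AddCommGroup A]

/-- the sum of the members of the list selected by the binary digits -/
def M1a_ev : List A → ℕ → A
  | [], _ => 0
  | r :: rs, x => (x % 2) • r + M1a_ev rs (x / 2)

theorem M1a_zero (l : List A) : M1a_ev l 0 = 0 := by
  induction l with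
  | nil => rfl
  | cons r rs ih => simp [M1a_ev, ih]

theorem M1a_xor (h2 : ∀ a : A, a + a = 0) (l : List A) (x y : ℕ) :
    M1a_ev l (x ^^^ y) = M1a_ev l x + M1a_ev l y := by
  induction l generalizing x y with
  | nil => simp [M1a_ev]
  | cons r rs ih =>
    rw [M1a_ev, M1a_ev, M1a_ev, Nat.xor_div_two, ih, Nat.xor_mod_two_eq, add_add_add_comm,
      Nat.add_mod]
    rcases Nat.mod_two_eq_zero_or_one x with hx | hx <;>
      rcases Nat.mod_two_eq_zero_or_one y with hy | hy <;> simp [hx, hy, h2]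

theorem M1a_ac (h2 : ∀ a : A, a + a = 0) (l : List A) (γ : Module.End ℤ A) (bs : List A)
    (tab : List ℕ) (h : bs.map γ = tab.map (M1a_ev l)) (x : ℕ) :
    γ (M1a_ev bs x) = M1a_ev l (encL tab x) := by
  induction bs generalizing tab x with
  | nil =>
    obtain rfl : tab = [] := by simpa using h
    simp [M1a_ev, encL, M1a_zero]
  | cons r rs ih =>
    obtain _ | ⟨t, ts⟩ := tab
    · simp at h
    simp only [List.map_cons, List.cons.injEq] at h
    rw [M1a_ev, map_add, ih ts h.2, encL_cons, M1a_xor h2, map_nsmul, h.1]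
    rcases Nat.mod_two_eq_zero_or_one x with hx | hx <;> simp [hx, M1a_zero]

theorem M1a_lt {k : ℕ} (tab : List ℕ) (h : ∀ t ∈ tab, t < 2 ^ k) (x : ℕ) : encL tab x < 2 ^ k := by
  induction tab generalizing x with
  | nil => exact Nat.two_pow_pos k
  | cons t ts ih =>
    rw [encL_cons]
    refine Nat.xor_lt_two_pow ?_ (ih (fun s hs => h s (List.mem_cons_of_mem _ hs)) _)
    have := h t List.mem_cons_self
    rcases Nat.mod_two_eq_zero_or_one x with hx | hx <;> simp [hx, this]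

theorem M1a_fix [Finite A] {p : ℕ} [Fact p.Prime] {c : Module.End ℤ A} (h : c ^ p = 1)
    (U : Submodule ℤ A) (hU : ∀ u ∈ U, c u ∈ U) :
    Nat.card U ≡ Nat.card ↥(U ⊓ LinearMap.ker (c - 1)) [MOD p] := by
  classical
  have := Fintype.ofFinite A
  let f : Function.End U := fun u => ⟨c u, hU u u.2⟩
  have hf : ∀ (n : ℕ) (u : U), ((f ^ n) u : A) = (c ^ n) u := fun n => by
    induction n with
    | zero => intro u; rfl
    | succ n ih => intro u; rw [pow_succ', pow_succ', Module.End.mul_apply, ← ih]; rfl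
  have h1 := Equiv.Perm.card_fixedPoints_modEq (f := f) (p := p) (n := 1) (by
    rw [pow_one]
    funext u
    exact Subtype.ext (by rw [hf, h]; rfl))
  simp only [Fintype.card_eq_nat_card] at h1
  refine h1.trans (by
    rw [Nat.card_congr (β := ↥(U ⊓ LinearMap.ker (c - 1))) ⟨fun u => ⟨u.1, u.1.2,
      LinearMap.mem_ker.2 (sub_eq_zero.2 (congrArg Subtype.val u.2))⟩, fun u => ⟨⟨u.1, u.2.1⟩,
        Subtype.ext (sub_eq_zero.1 (LinearMap.mem_ker.1 u.2.2))⟩, fun _ => rfl, fun _ => rfl⟩])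

theorem M1a_abs [Finite A] (h2 : ∀ a : A, a + a = 0) (hc : Nat.card A = 2 ^ 11)
    {c μ : Module.End ℤ A} (c23 : c ^ 23 = 1) (c1 : c ≠ 1) (m11 : μ ^ 11 = 1)
    (ms : μ * c = c ^ 2 * μ) : ∃ co, ∃ e : ℕ → A, (∀ x y, e (x ^^^ y) = e x + e y) ∧
      (∀ x < 2048, e x = 0 → x = 0) ∧ (∀ v, ∃ x < 2048, e x = v) ∧
      (∀ x, c (e x) = e (encL (tS co) x)) ∧ ∀ x, μ (e x) = e (encL (tM co) x) := by
  have : Fact (Nat.Prime 23) := ⟨by norm_num⟩
  have : Fact (Nat.Prime 11) := ⟨by norm_num⟩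
  have k1 : ∀ U : Submodule ℤ A, Nat.card U ≡ 1 [MOD 23] → U = ⊥ ∨ U = ⊤ := fun U h => by
    obtain ⟨j, hj, e⟩ := (Nat.dvd_prime_pow Nat.prime_two).1
      (hc ▸ AddSubgroup.card_addSubgroup_dvd_card U.toAddSubgroup)
    change Nat.card U = _ at e
    rw [e] at h
    have : j = 0 ∨ j = 11 := by
      revert h; interval_cases j <;> decide
    rcases this with rfl | rfl
    · exact .inl (Submodule.toAddSubgroup_injective (AddSubgroup.card_eq_one.1 e))
    · exact .inr (Submodule.toAddSubgroup_injective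
        ((AddSubgroup.card_eq_iff_eq_top _).1 (e.trans hc.symm)))
  have cT : Nat.card (⊤ : Submodule ℤ A) = 2 ^ 11 := (Nat.card_congr Submodule.topEquiv.toEquiv).trans hc
  have k2 : LinearMap.ker (c - 1) = ⊥ := (k1 _ (by
    have := M1a_fix c23 ⊤ fun _ _ => trivial
    rw [cT, top_inf_eq] at this
    exact this.symm)).resolve_right fun e => c1 (sub_eq_zero.1 (LinearMap.ker_eq_top.1 e))
  have k3 : ∀ U : Submodule ℤ A, (∀ u ∈ U, c u ∈ U) → U = ⊥ ∨ U = ⊤ := fun U h => k1 U (by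
    have := M1a_fix c23 U h
    rwa [k2, inf_bot_eq, show Nat.card (⊥ : Submodule ℤ A) = 1 from Nat.card_unique] at this)
  obtain ⟨v, hv, v0⟩ : ∃ v, μ v = v ∧ v ≠ 0 := by
    by_contra! h
    have := M1a_fix m11 ⊤ fun _ _ => trivial
    rw [cT, top_inf_eq, (Submodule.eq_bot_iff (LinearMap.ker (μ - 1))).2 fun v hv =>
      h v (sub_eq_zero.1 (LinearMap.mem_ker.1 hv)),
      show Nat.card (⊥ : Submodule ℤ A) = 1 from Nat.card_unique] at this
    revert this; decide
  obtain ⟨co, k4⟩ : ∃ co, c ^ 11 = if co = true then c ^ 10 + c ^ 6 + c ^ 5 + c ^ 4 + c ^ 2 + 1 else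
      c ^ 9 + c ^ 7 + c ^ 6 + c ^ 5 + c + 1 := by
    have n2 : ∀ a b : Module.End ℤ A, a + b = 0 → a = b := fun a b h => by
      rw [eq_neg_of_add_eq_zero_left h]
      exact LinearMap.ext fun x => neg_eq_of_add_eq_zero_left (h2 _)
    have e := congrArg (Polynomial.aeval c) (by ring : ((.X - 1) *
      ((.X ^ 11 + (.X ^ 9 + .X ^ 7 + .X ^ 6 + .X ^ 5 + .X + 1)) *
      (.X ^ 11 + (.X ^ 10 + .X ^ 6 + .X ^ 5 + .X ^ 4 + .X ^ 2 + 1))) : Polynomial ℤ) = .X ^ 23 - 1 +
      ((.X ^ 8 + .X ^ 12 + .X ^ 12 + .X ^ 14 + .X ^ 18 - .X ^ 5 - .X ^ 9 - .X ^ 11 - .X ^ 11 - .X ^ 15) +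
      (.X ^ 8 + .X ^ 12 + .X ^ 12 + .X ^ 14 + .X ^ 18 - .X ^ 5 - .X ^ 9 - .X ^ 11 - .X ^ 11 - .X ^ 15)))
    have e2 := congrArg (Polynomial.aeval c) (mul_comm (.X : Polynomial ℤ)
      (.X ^ 11 + (.X ^ 9 + .X ^ 7 + .X ^ 6 + .X ^ 5 + .X + 1)))
    rw [map_add, map_add, show ∀ a : Module.End ℤ A, a + a = 0 from fun a =>
      LinearMap.ext fun x => h2 _] at e
    simp only [map_mul, map_add, map_sub, map_pow, Polynomial.aeval_X, map_one, c23, sub_self,
      add_zero] at e e2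
    rcases k3 (LinearMap.ker (c ^ 11 + (c ^ 9 + c ^ 7 + c ^ 6 + c ^ 5 + c + 1))) (fun u hu => by
      rw [LinearMap.mem_ker, ← Module.End.mul_apply, ← e2, Module.End.mul_apply, hu, map_zero])
      with h | h
    · exact ⟨true, n2 _ _ (LinearMap.ext fun x => LinearMap.ker_eq_bot'.1 h _
        (LinearMap.ker_eq_bot'.1 k2 _ (LinearMap.congr_fun e x)))⟩
    · exact ⟨false, n2 _ _ (LinearMap.ker_eq_top.1 h)⟩
  let l : List A := (List.range 11).map fun i => (c ^ i) v
  have k5 : ∀ x, c (M1a_ev l x) = M1a_ev l (encL (tS co) x) := M1a_ac h2 l c l _ (by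
    have e := LinearMap.congr_fun k4 v
    simp only [l, List.range_succ, List.range_zero, List.nil_append, List.cons_append, List.map_cons,
      List.map_nil, ← Module.End.mul_apply, ← pow_succ', tS, Nat.reduceAdd, e]
    cases co <;> simp [M1a_ev] <;> abel)
  have k6 : ∀ i, (c ^ i) v = M1a_ev l ((encL (tS co))^[i] 1) := fun i => by
    induction i with
    | zero => simp [l, List.range_succ, M1a_ev]
    | succ i ih => rw [pow_succ', Module.End.mul_apply, ih, k5, Function.iterate_succ_apply']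
  have k7 : ∀ i, μ ((c ^ i) v) = (c ^ (2 * i)) v := fun i => by
    rw [← Module.End.mul_apply, (SemiconjBy.pow_right ms i).eq, ← pow_mul, Module.End.mul_apply, hv]
  have k8 : ∀ w, ∃ x < 2048, M1a_ev l x = w := fun w => by
    let U : AddSubgroup A :=
      { carrier := {w | ∃ x < 2048, M1a_ev l x = w}
        zero_mem' := ⟨0, by norm_num, M1a_zero l⟩
        add_mem' := by
          rintro _ _ ⟨x, hx, rfl⟩ ⟨y, hy, rfl⟩
          exact ⟨_, Nat.xor_lt_two_pow (n := 11) hx hy, M1a_xor h2 l x y⟩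
        neg_mem' := fun {a} ha => by rwa [neg_eq_of_add_eq_zero_left (h2 a)] }
    have := (k3 U.toIntSubmodule (by
      rintro _ ⟨x, -, rfl⟩
      exact ⟨_, M1a_lt (k := 11) _ (by cases co <;> decide) x, (k5 x).symm⟩)).resolve_left fun e =>
        v0 ((Submodule.eq_bot_iff _).1 e v ⟨1, by norm_num, (k6 0).symm⟩)
    exact (this ▸ Submodule.mem_top : w ∈ U.toIntSubmodule)
  refine ⟨co, M1a_ev l, M1a_xor h2 l, fun x hx e => ?_, k8, k5, M1a_ac h2 l μ l _ ?_⟩
  · have := ((Nat.bijective_iff_surjective_and_card fun i : Fin 2048 => M1a_ev l i).2 ⟨fun w => by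
      obtain ⟨x, hx, e⟩ := k8 w
      exact ⟨⟨x, hx⟩, e⟩, by simp [hc]⟩).1 (a₁ := ⟨x, hx⟩) (a₂ := 0) (e.trans (M1a_zero l).symm)
    exact congrArg Fin.val this
  · rw [show tM co = (List.range 11).map fun i => (encL (tS co))^[2 * i] 1 by
      cases co <;> decide +kernel]
    simp only [l, List.map_map, Function.comp_def, k7]
    exact List.map_congr_left fun i _ => k6 _

end Abs

/-- notes/R24.md, section Mod1a -/
theorem mod1a {V : Subgroup G} (hV : IsElementaryAbelian 2 V) (hc : Nat.card V = 2 ^ 11) {s m : G}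
    (hs : s ∈ normalizer (V : Set G)) (hm : m ∈ normalizer (V : Set G))
    (s23 : s ^ 23 ∈ centralizer (V : Set G)) (s1 : s ∉ centralizer (V : Set G))
    (m11 : m ^ 11 ∈ centralizer (V : Set G)) (ms : m * s * m⁻¹ * (s ^ 2)⁻¹ ∈ centralizer (V : Set G)) :
    ∃ co e, Lin V e ∧ Ac e s (tS co) ∧ Ac e m (tM co) := by
  have := hV.1
  let ρ : normalizer (V : Set G) →* Module.End ℤ (Additive V) :=
    { toFun := fun n => (MonoidHom.toAdditive (V.normalizerMonoidHom n).toMonoidHom).toIntLinearMap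
      map_one' := LinearMap.ext fun x => by simp
      map_mul' := fun a b => LinearMap.ext fun x => by simp }
  have k : ∀ n : normalizer (V : Set G), ρ n = 1 ↔ (n : G) ∈ centralizer (V : Set G) := fun n =>
    ⟨fun e v hv => (mul_inv_eq_iff_eq_mul.1 (congrArg (fun a : Additive V => (a.toMul : G))
      (LinearMap.congr_fun e (Additive.ofMul ⟨v, hv⟩)))).symm, fun e => LinearMap.ext fun x =>
        Additive.toMul.injective (Subtype.ext (mul_inv_eq_iff_eq_mul.2 (e _ x.toMul.2).symm))⟩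
  obtain ⟨co, e, h1, h2, h3, h4, h5⟩ := M1a_abs (A := Additive V) (c := ρ ⟨s, hs⟩) (μ := ρ ⟨m, hm⟩)
    (fun a => Additive.toMul.injective (Subtype.ext ((pow_two _).symm.trans (hV.2 _ a.toMul.2)))) hc
    (by rw [← map_pow, k]; exact s23) (fun e => s1 ((k _).1 e)) (by rw [← map_pow, k]; exact m11) (by
      have := (k (⟨m, hm⟩ * ⟨s, hs⟩ * ⟨m, hm⟩⁻¹ * (⟨s, hs⟩ ^ 2)⁻¹)).2 ms
      rw [← map_pow, ← map_mul, ← map_mul, ← one_mul (ρ (_ ^ 2 * _)), ← this, ← map_mul]
      congr 1; group)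
  refine ⟨co, fun x => (e x).toMul, ⟨fun x => Subtype.prop _, fun x _ y _ => by rw [h1]; rfl,
    fun x hx e => h2 x hx (Additive.toMul.injective (Subtype.ext e)), fun v hv => ?_⟩,
    fun x _ => congrArg (fun a : Additive V => (a.toMul : G)) (h4 x),
    fun x _ => congrArg (fun a : Additive V => (a.toMul : G)) (h5 x)⟩
  obtain ⟨x, hx, e⟩ := h3 (Additive.ofMul ⟨v, hv⟩)
  exact ⟨x, hx, by rw [e]; rfl⟩

end Cfsg.Agent.R24
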