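import Cfsg.Agent.R24.Base3

set_option autoImplicit false

namespace Cfsg.Agent.R24

open Subgroup Cfsg.Agent.H14

variable {G : Type*} [Group G] [Finite G] (S : St G)

namespace NoPAux

/-- fixed points of an element of prime order on an invariant set -/
theorem fix_mod {p : ℕ} [Fact p.Prime] {g : G} (hg : g ^ p = 1) (T : Set G)
    (hT : ∀ x ∈ T, g * x * g⁻¹ ∈ T) :
    Nat.card T ≡ Nat.card {x // x ∈ T ∧ x * g = g * x} [MOD p] := by
  classical
  have := Fintype.ofFinite T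
  let f : Function.End T := fun x => ⟨_, hT x x.2⟩
  have hf : ∀ (n : ℕ) (x : T), ((f ^ n) x : G) = g ^ n * x * (g ^ n)⁻¹ := by
    intro n
    induction n with
    | zero => intro x; simp; rfl
    | succ n ih =>
      intro x
      rw [pow_succ' f]
      change g * ((f ^ n) x : G) * g⁻¹ = _
      rw [ih, pow_succ']
      group
  have h := Equiv.Perm.card_fixedPoints_modEq (f := f) (p := p) (n := 1) (funext fun x =>
    Subtype.ext (by rw [hf, pow_one, hg]; simp; rfl))
  rw [← Nat.card_eq_fintype_card, ← Nat.card_eq_fintype_card] at h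
  have e : Nat.card f.fixedPoints = Nat.card {x // x ∈ T ∧ x * g = g * x} := Nat.card_congr
    { toFun := fun x => ⟨x.1, x.1.2, (mul_inv_eq_iff_eq_mul.1 (congrArg Subtype.val x.2)).symm⟩
      invFun := fun x => ⟨⟨x.1, x.2.1⟩, Subtype.ext (mul_inv_eq_iff_eq_mul.2 x.2.2.symm)⟩
      left_inv := fun _ => rfl
      right_inv := fun _ => rfl }
  rwa [e] at h

/-- the number of solutions of `x ^ 2 = 1` in an extraspecial group of plus type -/
theorem card_J {Q U : Subgroup G} {z : G} (h : H15.EX Q z) (hU : U ≤ Q) (hz : z ∈ U)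
    (sq : ∀ u ∈ U, u * u = 1) (hc : Nat.card U * Nat.card U = 2 * Nat.card Q) :
    2 * Nat.card {x | x ∈ Q ∧ x * x = 1} = Nat.card Q + Nat.card U := by
  classical
  have := Fintype.ofFinite G
  have cm : ∀ a ∈ U, ∀ b ∈ U, a * b = b * a := fun a ha b hb => by
    rw [← inv_eq_of_mul_eq_one_right (sq _ (mul_mem ha hb)), mul_inv_rev,
      inv_eq_of_mul_eq_one_right (sq a ha), inv_eq_of_mul_eq_one_right (sq b hb)]
  have hC : U = Q ⊓ centralizer (U : Set G) :=
    eq_of_le_of_card_ge (fun a ha => ⟨hU ha, fun b hb => cm b hb a ha⟩) (by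
      have := h.card_cent hU hz
      rw [← hc] at this
      exact (Nat.eq_of_mul_eq_mul_right Nat.card_pos this).le)
  have key : ∀ c : G ⧸ U, ∃ u ∈ U, ∀ x ∈ Q, x ∉ U → (x : G ⧸ U) = c → u * x * u⁻¹ = z * x := by
    intro c
    by_cases h0 : ∃ x ∈ Q, x ∉ U ∧ (x : G ⧸ U) = c
    · obtain ⟨x0, hx0, x0U, rfl⟩ := h0
      obtain ⟨u, hu, ne⟩ : ∃ u ∈ U, u * x0 ≠ x0 * u := by
        by_contra! hh
        exact x0U (hC ▸ (⟨hx0, hh⟩ : x0 ∈ Q ⊓ centralizer (U : Set G)))
      have e0 := (h.comm u (hU hu) x0 hx0).resolve_left fun e => ne (mul_inv_eq_iff_eq_mul.1 e)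
      refine ⟨u, hu, fun x _ _ e => ?_⟩
      have m := QuotientGroup.eq.1 e.symm
      calc u * x * u⁻¹ = u * x0 * u⁻¹ * (u * (x0⁻¹ * x) * u⁻¹) := by group
        _ = z * x := by rw [e0, cm u hu _ m]; group
    · exact ⟨1, one_mem _, fun x hx xU e => (h0 ⟨x, hx, xU, e⟩).elim⟩
  choose f fU hf using key
  let φ : G → G := fun x => x * f x
  have φ1 : ∀ x, ((φ x : G) : G ⧸ U) = x := fun x => QuotientGroup.mk_mul_of_mem x (fU _)
  have φ2 : ∀ x, φ (φ x) = x := fun x => by
    change φ x * f (φ x) = x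
    rw [φ1, mul_assoc, sq _ (fU _), mul_one]
  have φ3 : ∀ x ∈ Q, x ∉ U → φ x * φ x = z * (x * x) := fun x hx xU => by
    calc φ x * φ x = x * (f x * x * (f x)⁻¹) := by
          rw [inv_eq_of_mul_eq_one_right (sq _ (fU _))]
          simp only [φ, mul_assoc]
      _ = z * (x * x) := by rw [hf _ x hx xU rfl, ← mul_assoc, h.cen x hx, mul_assoc]
  have φU : ∀ x, x ∉ U → φ x ∉ U := fun x xU m => xU ((U.mul_mem_cancel_right (fU _)).1 m)
  let A := Finset.univ.filter fun x => x ∈ Q ∧ x ∉ U ∧ x * x = 1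
  let B := Finset.univ.filter fun x => x ∈ Q ∧ x ∉ U ∧ x * x = z
  have e1 : A.card = B.card := Finset.card_nbij' φ φ (fun x hx => by
      simp only [A, B, Finset.coe_filter, Finset.mem_univ, true_and, Set.mem_ofPred_eq] at hx ⊢
      exact ⟨mul_mem hx.1 (hU (fU _)), φU x hx.2.1, by rw [φ3 x hx.1 hx.2.1, hx.2.2, mul_one]⟩)
    (fun x hx => by
      simp only [A, B, Finset.coe_filter, Finset.mem_univ, true_and, Set.mem_ofPred_eq] at hx ⊢
      exact ⟨mul_mem hx.1 (hU (fU _)), φU x hx.2.1, by rw [φ3 x hx.1 hx.2.1, hx.2.2, h.sq]⟩)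
    (fun x _ => φ2 x) (fun x _ => φ2 x)
  let C := Finset.univ.filter fun x => x ∈ U
  have cC : Nat.card U = C.card := by
    rw [Nat.card_eq_fintype_card, Fintype.card_subtype]
  have dCA : Disjoint C A := Finset.disjoint_filter.2 fun x _ h1 h2 => h2.2.1 h1
  have e2 : Nat.card {x | x ∈ Q ∧ x * x = 1} = C.card + A.card := by
    rw [← Finset.card_union_of_disjoint dCA, Nat.card_eq_fintype_card, Fintype.card_subtype]
    congr 1
    ext x
    simp only [A, C, Finset.mem_filter, Finset.mem_univ, true_and, Finset.mem_union,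
      Set.mem_ofPred_eq]
    exact ⟨fun hx => (em (x ∈ U)).imp id fun xU => ⟨hx.1, xU, hx.2⟩,
      fun hx => hx.elim (fun xU => ⟨hU xU, sq x xU⟩) fun hx => ⟨hx.1, hx.2.2⟩⟩
  have e3 : Nat.card Q = C.card + A.card + B.card := by
    rw [← Finset.card_union_of_disjoint dCA, ← Finset.card_union_of_disjoint, Nat.card_eq_fintype_card,
      Fintype.card_subtype]
    · congr 1
      ext x
      simp only [A, B, C, Finset.mem_filter, Finset.mem_univ, true_and, Finset.mem_union]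
      refine ⟨fun hx => ?_, fun hx => ?_⟩
      · by_cases xU : x ∈ U
        · exact Or.inl (Or.inl xU)
        · exact (h.sqr x hx).imp (fun e => Or.inr ⟨hx, xU, e⟩) fun e => ⟨hx, xU, e⟩
      · rcases hx with (hx | hx) | hx
        exacts [hU hx, hx.1, hx.1]
    · rw [Finset.disjoint_union_left]
      exact ⟨Finset.disjoint_filter.2 fun x _ h1 h2 => h2.2.1 h1,
        Finset.disjoint_filter.2 fun x _ h1 h2 => h.ne (h2.2.2.symm.trans h1.2.2)⟩
  omega

theorem main {Q : Subgroup G} {z : G} (hL : H97.LX Q z) {p k : ℕ} (hp : p.Prime) (p2 : 2 < p)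
    (hQ : Nat.card Q = 2 ^ k) (hJ : p ∣ Nat.card {x | x ∈ Q ∧ x * x = 1})
    (hk : ∀ j ≤ k, 2 ^ k ≡ 2 ^ j [MOD p] → j = 0 ∨ j = 1 ∨ j = k) :
    ¬ p ∣ Nat.card (centralizer ({z} : Set G)) := by
  intro hd
  have := Fact.mk hp
  obtain ⟨⟨g, hg⟩, og⟩ := exists_prime_orderOf_dvd_card' p hd
  rw [← Subgroup.orderOf_coe] at og
  have og : orderOf g = p := og
  have gp : g ^ p = 1 := og ▸ pow_orderOf_eq_one g
  have gz := mem_centralizer_singleton_iff.1 hg
  let F : Subgroup G := Q ⊓ centralizer ({g} : Set G)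
  have mF : ∀ x, x ∈ F ↔ x ∈ Q ∧ x * g = g * x := fun x =>
    and_congr_right' mem_centralizer_singleton_iff
  have h1 := fix_mod gp (Q : Set G) (hL.norm g gz)
  have cF : Nat.card {x // x ∈ (Q : Set G) ∧ x * g = g * x} = Nat.card F :=
    Nat.card_congr (Equiv.subtypeEquivRight fun x => (mF x).symm)
  obtain ⟨j, hj, ej⟩ := (Nat.dvd_prime_pow Nat.prime_two).1
    (hQ ▸ card_dvd_of_le (inf_le_left : F ≤ Q))
  rw [cF, ej] at h1
  rcases hk j hj (hQ ▸ h1) with rfl | rfl | rfl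
  · have hz : z ∈ F := (mF z).2 ⟨hL.mem, gz.symm⟩
    rw [pow_zero, card_eq_one] at ej
    exact hL.ne (mem_bot.1 (ej ▸ hz))
  · have h2 := fix_mod gp {x | x ∈ Q ∧ x * x = 1} fun x hx =>
      ⟨hL.norm g gz x hx.1, by rw [conj_mul, hx.2, mul_one, mul_inv_cancel]⟩
    have cJ : Nat.card {x // x ∈ {x | x ∈ Q ∧ x * x = 1} ∧ x * g = g * x} = Nat.card F :=
      Nat.card_congr (Equiv.subtypeEquivRight fun x => ⟨fun hx => (mF x).2 ⟨hx.1.1, hx.2⟩,
        fun hx => ⟨⟨hx.1, by
          have := congrArg Subtype.val (pow_card_eq_one' (x := (⟨x, hx⟩ : F)))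
          rwa [ej, pow_one, pow_two] at this⟩, ((mF x).1 hx).2⟩⟩)
    rw [cJ, ej, pow_one] at h2
    have := (Nat.modEq_zero_iff_dvd.2 hJ).symm.trans h2
    have := Nat.le_of_dvd two_pos (Nat.modEq_zero_iff_dvd.1 this.symm)
    omega
  · have e : F = Q := eq_of_le_of_card_ge inf_le_left (by rw [ej, hQ])
    have g2 : g ^ 2 = 1 := by
      rcases hL.large g fun a ha => ((mF a).1 (e.ge ha)).2.symm with e | e
      · rw [e, one_pow]
      · rw [e, pow_two, hL.sq]
    have := Nat.le_of_dvd two_pos (og ▸ orderOf_dvd_of_pow_eq_one g2)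
    omega

end NoPAux

/-- notes/R24.md, section NoP -/
theorem St.nop {Q : Subgroup G} (hQ : S.QD Q) (hL : H97.LX Q S.z) : ¬ (if S.co then 13 else 17) ∣ Nat.card S.C := by
  have hU : S.VQ ≤ Q := hQ.inf ▸ inf_le_left
  have cU := S.card_VQ
  have cQ := hQ.card
  have hJ := NoPAux.card_J hQ.ex hU S.z_VQ (fun u hu => S.sq (S.par_le _ hu)) (by
    rw [cU, cQ]; cases S.co <;> rfl)
  rw [cU, cQ] at hJ
  cases hco : S.co <;> rw [hco] at hJ cQ <;> simp only [if_true, Bool.false_eq_true, if_false] at hJ cQ ⊢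
  · exact NoPAux.main hL (k := 9) (by norm_num) (by norm_num) cQ (by omega) (by decide)
  · exact NoPAux.main hL (k := 13) (by norm_num) (by norm_num) cQ (by omega) (by decide)

end Cfsg.Agent.R24
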