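import Cfsg.Agent.R24.Base1
import Cfsg.Agent.R24.Base2
import Cfsg.Agent.R24.Base3
import Cfsg.Agent.R24.Lift

set_option autoImplicit false

namespace Cfsg.Agent.R24

open Subgroup Cfsg.Agent.H14

namespace QCoA

def tA : List (ℕ × ℕ × ℕ) := [(1, 0xbc2954c9d6345ac41e6b53ca418440, 0xbadb4854a87c64732933259cc18402),
  (2, 0xbb5267acb09bacc91ea85522418022, 0xbadb4854a87c64732933259cc18402),
  (3, 0xbd9f3a222da960c59cd2525c418801, 0xbadb4854a87c64732933259cc18402),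
  (4, 0xbc2954c9d6345ac41e6b53ca418440, 0x1c0140a0cd7cecc9292bb8aa43c5c5),
  (5, 0xba2b4335cb4c644829f63ccac18440, 0x188cfacac14c00c5aa883cdb7245c5),
  (8, 0xbb5267acb09bacc91ea85522418022, 0x1c0140a0cd7cecc9292bb8aa43c5c5),
  (10, 0xbc8c99d8a87b9646aa903d62c18022, 0x188cfacac14c00c5aa883cdb7245c5),
  (12, 0xbd9f3a222da960c59cd2525c418801, 0x1c0140a0cd7cecc9292bb8aa43c5c5),
  (15, 0xbae6fac232a1504b292d399cc18801, 0x188cfacac14c00c5aa883cdb7245c5),
  (16, 0xbc2954c9d6345ac41e6b53ca418440, 0x63434119d6796079a935b82241ad12),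
  (17, 0xbc2954c9d6345ac41e6b53ca418440, 0x2545402ca67c66c42932b85c71da0d),
  (18, 0xbb56941a30796c7aaa93649c418440, 0x24aa9984aba4517029e2399cc1b6d0),
  (19, 0xbda68abcad93a0a4b17439a2418440, 0x22274309d2795770a9203d62c1c1b6),
  (20, 0xbc2954c9d6345ac41e6b53ca418440, 0xbc2342cd6d7a2c7aa9261ba4460041),
  (21, 0xbc2954c9d6345ac41e6b53ca418440, 0xbcdd48a2d57c0cc9292b195a720402),
  (22, 0xbb4cb9a5d0446caa324f3d4a418801, 0xbc8d4ab9ab7d9032a9313ce0c20041),
  (23, 0xbd90f94dcda46073293562ca418022, 0xba2af9c6124b56372a8539acc20402),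
  (24, 0xbc2545d4b64b9a79a9e66222418801, 0x1c2af9890d4cad70aa8039964638b1),
  (25, 0xbbead348a9b3a8c4120b3ce2a18801, 0x1867432e007b44c429323d6d7238b1),
  (28, 0xbc2b235236595aa7b1093cdc418022, 0x1b4d4a86567ae17029223cd046162e),
  (29, 0xbcdb4b4a26496ac429eb241c718022, 0x182a99a1a2a582c929eb39a172162e),
  (32, 0xbb5267acb09bacc91ea85522418022, 0x63434119d6796079a935b82241ad12),
  (33, 0xbc2b235236595aa7b1093cdc418022, 0x22274309d2795770a9203d62c1c1b6),
  (34, 0xbb5267acb09bacc91ea85522418022, 0x2545402ca67c66c42932b85c71da0d),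
  (35, 0xbd90f94dcda46073293562ca418022, 0x24aa9984aba4517029e2399cc1b6d0),
  (36, 0xbb4cb9a5d0446caa324f3d4a418801, 0x1b4d4a86567ae17029223cd046162e),
  (38, 0xbd6c982dd37c4cc92a88234a718801, 0x182a99a1a2a582c929eb39a172162e),
  (40, 0xbb5267acb09bacc91ea85522418022, 0xbc2342cd6d7a2c7aa9261ba4460041),
  (41, 0xbc2545d4b64b9a79a9e66222418801, 0xba2af9c6124b56372a8539acc20402),
  (42, 0xbb5267acb09bacc91ea85522418022, 0xbcdd48a2d57c0cc9292b195a720402),
  (43, 0xbda68abcad93a0a4b17439a2418440, 0xbc8d4ab9ab7d9032a9313ce0c20041),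
  (44, 0xbb56941a30796c7aaa93649c418440, 0x1c2af9890d4cad70aa8039964638b1),
  (46, 0xbd0d69ae2f8152c911a83d5ca18440, 0x1867432e007b44c429323d6d7238b1),
  (48, 0xbd9f3a222da960c59cd2525c418801, 0x63434119d6796079a935b82241ad12),
  (49, 0xbc2545d4b64b9a79a9e66222418801, 0x24aa9984aba4517029e2399cc1b6d0),
  (50, 0xbb4cb9a5d0446caa324f3d4a418801, 0x22274309d2795770a9203d62c1c1b6),
  (51, 0xbd9f3a222da960c59cd2525c418801, 0x2545402ca67c66c42932b85c71da0d),
  (52, 0xbd90f94dcda46073293562ca418022, 0x1c2af9890d4cad70aa8039964638b1),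
  (55, 0xba670aa1d46c5ec592d2398aa18022, 0x1867432e007b44c429323d6d7238b1),
  (56, 0xbda68abcad93a0a4b17439a2418440, 0x1b4d4a86567ae17029223cd046162e),
  (59, 0xb9a0f6a0b5a3a6c5a93225a2718440, 0x182a99a1a2a582c929eb39a172162e),
  (60, 0xbd9f3a222da960c59cd2525c418801, 0xbc2342cd6d7a2c7aa9261ba4460041),
  (61, 0xbc2b235236595aa7b1093cdc418022, 0xbc8d4ab9ab7d9032a9313ce0c20041),
  (62, 0xbb56941a30796c7aaa93649c418440, 0xba2af9c6124b56372a8539acc20402),
  (63, 0xbd9f3a222da960c59cd2525c418801, 0xbcdd48a2d57c0cc9292b195a720402)]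

def tB : List (ℕ × ℕ × ℕ) := [(6, 0xbae957b6289ba44b1cd0524ac18820, 0x1868b7cda095847ab10652617245c5),
  (7, 0xbae957b6289ba44b1cd0524ac18820, 0x181155a6029b42a79cd464ad7245c5),
  (9, 0xbae957b6289ba44b1cd0524ac18820, 0x181155a6029b42a79cd464ad7245c5),
  (11, 0xbae957b6289ba44b1cd0524ac18820, 0x1868b7cda095847ab10652617245c5),
  (13, 0xbae957b6289ba44b1cd0524ac18820, 0x1868b7cda095847ab10652617245c5),
  (14, 0xbae957b6289ba44b1cd0524ac18820, 0x181155a6029b42a79cd464ad7245c5),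
  (26, 0xba1b5b50ab33a4a79e692422c18801, 0x18128a56c25c0273325353db7238b1),
  (27, 0xba1b5b50ab33a4a79e692422c18801, 0x18a4643da1ad80aa1e6962e17238b1),
  (30, 0xba28d4d62bb16479920653dcc18022, 0x189f249a01434079b175552d72162e),
  (31, 0xba28d4d62bb16479920653dcc18022, 0x18573952c03404a49eaf621b72162e),
  (37, 0xbc936799c884567a91b3550ac18801, 0x18573952c03404a49eaf621b72162e),
  (39, 0xbc936799c884567a91b3550ac18801, 0x189f249a01434079b175552d72162e),
  (45, 0xbcac6826289956aa1eaf235cc18440, 0x18a4643da1ad80aa1e6962e17238b1),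
  (47, 0xbcac6826289956aa1eaf235cc18440, 0x18128a56c25c0273325353db7238b1),
  (53, 0xbae136bdd2ac50a49cd4258ac18022, 0x18128a56c25c0273325353db7238b1),
  (54, 0xbae136bdd2ac50a49cd4258ac18022, 0x18a4643da1ad80aa1e6962e17238b1),
  (57, 0xbadf0a4cb26b907312d55262c18440, 0x189f249a01434079b175552d72162e),
  (58, 0xbadf0a4cb26b907312d55262c18440, 0x18573952c03404a49eaf621b72162e)]

def kr (m : ℕ) : Bool := Nat.beq (enc m) m
noncomputable def pq (m : ℕ) : Bool :=
  allL [8536111, 12656663, 8657159, 11010247] fun l => Nat.beq (pc (m &&& l) % 2) 0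
noncomputable def ok (e P : ℕ) : Bool :=
  valid (nat_lit 5) (nat_lit 32) (nat_lit 24) P && inM24 P && Nat.beq (cmp P (te e)) (cmp (te e) P) &&
    force (8388615 ^^^ im P 8388615) kr
noncomputable def fz (P a : ℕ) : Bool :=
  force (im P a ^^^ a) fun b => kr b || force (b ^^^ 8388615) kr

theorem c1 : allN 64 (fun e => Nat.beq e 0 || anyL (tA ++ tB) fun t => Nat.beq t.1 e) = true := by
  decide +kernel
theorem c2 : allL (tA ++ tB) (fun t => ok t.1 t.2.1 && ok t.1 t.2.2) = true := by decide +kernel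
theorem c3 : allL tA (fun t => anyN 24 fun i =>
    Nat.beq (app (nat_lit 5) (nat_lit 32) (te t.1) i) i) = true := by decide +kernel
theorem c4 : allN 64 (fun e => Nat.beq (cmp (te e) (te e)) (te 0)) = true := by decide +kernel
theorem c5 : all2 32 64 (fun x => force (rp true x) fun a => bimp (pq a) (kr a || force (a ^^^ 8388615) kr ||
    allL (tA ++ tB) fun t => bimp (fz t.2.1 a) (!fz t.2.2 a))) = true := by decide +kernel
theorem c6 : all2 32 64 (fun x => force (rp true x) fun a => pq a ||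
    allL tB fun t => bimp (force (a ^^^ im t.2.1 a) pq) (!force (a ^^^ im t.2.2 a) pq)) = true := by
  decide +kernel

variable {G : Type*} [Group G] [Finite G] (S : St G)

omit [Finite G] in
theorem ker_iff (hco : S.co = true) (m : ℕ) : Ker S.co m ↔ kr m = true := by
  rw [hco]; simp [Ker, kr]

theorem vq_iff (hco : S.co = true) {m : ℕ} (hm : Dom S.co m) : S.κ m ∈ S.VQ ↔ pq m = true := by
  rw [St.VQ, S.mem_par_iff _ hm] <;> rw [hco]
  · simp only [pq, allL_iff, beq_iff, if_true]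
  · decide +kernel

omit [Finite G] in
theorem z_eq (hco : S.co = true) : S.z = S.κ 8388615 := by rw [St.z, hco]; rfl

omit [Finite G] in
theorem dz (hco : S.co = true) : Dom S.co 8388615 := by rw [hco]; decide +kernel

omit [Finite G] in
theorem exe (hco : S.co = true) {r : G} (hr : r ∈ S.R) : ∃ e < 64, GE.pk (S.p r) = te e := by
  have h2 := hr.2
  rw [hco, if_pos rfl] at h2
  obtain ⟨e, -, h3, h4⟩ := (mem_sg (by decide) _).1 h2
  exact ⟨e, h3 ▸ Nat.and_lt_two_pow e (n := 6) (by decide), h4⟩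

omit [Finite G] in
theorem row (hco : S.co = true) {r : G} (hr : r ∈ S.R) (h1 : r ∉ S.V) :
    ∃ t ∈ tA ++ tB, GE.pk (S.p r) = te t.1 := by
  obtain ⟨e, he, h⟩ := exe S hco hr
  have := allN_iff.1 c1 e he
  simp only [Bool.or_eq_true, beq_iff, anyL_iff] at this
  rcases this with rfl | ⟨t, ht, rfl⟩
  · exact absurd ((S.p_one r hr.1).1 (GE.pk_inj.1 (h.trans te_zero))) h1
  · exact ⟨t, ht, h⟩

theorem lft (hco : S.co = true) {r : G} (hr : r ∈ S.N) {e P : ℕ} (he : GE.pk (S.p r) = te e)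
    (h : ok e P = true) : ∃ m ∈ S.M, GE.pk (S.p m) = P ∧ m * r * m⁻¹ * r⁻¹ ∈ S.V := by
  simp only [ok, Bool.and_eq_true, beq_iff, force_eq] at h
  obtain ⟨⟨⟨h1, h2⟩, h3⟩, h4⟩ := h
  obtain ⟨g, hg, rfl⟩ := inG_M24 h1 h2
  obtain ⟨m, hm, rfl⟩ := S.p_surj g hg
  refine ⟨m, ⟨hm, mem_centralizer_singleton_iff.2 ?_⟩, rfl, ?_⟩
  · rw [z_eq S hco, S.cent_κ hm (dz S hco), ker_iff S hco]; exact h4
  · have n1 := mul_mem (mul_mem hm hr) (inv_mem hm)
    rw [← S.p_one _ (mul_mem n1 (inv_mem hr)), S.p_mul _ n1 _ (inv_mem hr), S.p_conj hm hr, S.p_inv hr,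
      GE.pk_inj.1 (show GE.pk (S.p m * S.p r) = GE.pk (S.p r * S.p m) by rw [GE.pk_mul, GE.pk_mul, he]; exact h3)]
    group

end QCoA

open QCoA

variable {G : Type*} [Group G] [Finite G] (S : St G)

/-- notes/R24.md, section QCoA -/
theorem St.qsq (hco : S.co = true) {r : G} (hr : r ∈ S.R) : r * r ∈ S.VQ := by
  by_cases h1 : r ∈ S.V
  · rw [S.sq h1]; exact one_mem _
  have hN : r ∈ S.N := hr.1
  have h2 : S.p r * S.p r = 1 := by
    obtain ⟨e, he, h⟩ := exe S hco hr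
    refine GE.pk_inj.1 ?_
    rw [GE.pk_mul, h, ← te_zero]
    exact beq_iff.1 (allN_iff.1 c4 e he)
  obtain ⟨t, ht, h⟩ := row S hco hr h1
  have hok := allL_iff.1 c2 t ht
  rw [Bool.and_eq_true] at hok
  rcases List.mem_append.1 ht with ht | ht
  · obtain ⟨i, hi, e⟩ := anyN_iff.1 (allL_iff.1 c3 t ht)
    obtain ⟨a, ha, e1, e2⟩ := S.lift (S.p_mem r hN) (isA_of_fix (S.p_mem r hN) h2
      (fun e => h1 ((S.p_one r hN).1 e)) (GE.pt i) (by rw [GE.apply_pt _ hi, h, beq_iff.1 e]))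
    have hv : r * a⁻¹ ∈ S.V := by
      rw [← S.p_one _ (mul_mem hN (inv_mem ha)), S.p_mul _ hN _ (inv_mem ha), S.p_inv ha, e1, mul_inv_cancel]
    have := S.cVR hv (r := a) ⟨ha, e1 ▸ hr.2⟩
    rw [inv_eq_of_mul_eq_one_right (S.sq hv)] at this
    rwa [show r * a⁻¹ * a * (r * a⁻¹) * a⁻¹ = r * r * (a * a)⁻¹ by group, e2, inv_one, mul_one] at this
  · have hc : r * r ∈ S.V := by rw [← S.p_one _ (mul_mem hN hN), S.p_mul _ hN _ hN, h2]
    obtain ⟨x, hx, e⟩ := S.rp_surj hc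
    have hd := rp_dom S.co x hx
    have key : ∀ P, ok t.1 P = true → pq (rp S.co x ^^^ im P (rp S.co x)) = true := fun P hP => by
      obtain ⟨m, hm, rfl, hv⟩ := lft S hco hN h hP
      rw [← vq_iff S hco (hd.xor (im_dom (S.p_mem m hm.1) hd)), ← S.comm_κ hm.1 hd, e]
      have := inv_mem (S.cVR hv hr)
      rw [inv_eq_of_mul_eq_one_right (S.sq hv)] at this
      rwa [show (m * r * m⁻¹ * r⁻¹ * r * (m * r * m⁻¹ * r⁻¹) * r⁻¹)⁻¹ = r * r * m * (r * r)⁻¹ * m⁻¹ by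
        simp only [mul_inv_rev, inv_inv]; simp only [mul_assoc, inv_mul_cancel_left, mul_inv_cancel_left]] at this
    have := all2_iff.1 c6 x hx
    simp only [force_eq, Bool.or_eq_true, allL_iff, bimp_iff] at this
    rw [← e, vq_iff S hco hd]
    rw [hco] at key ⊢
    refine this.resolve_right fun h' => ?_
    have h3 := h' t ht (key _ hok.1)
    rw [key _ hok.2] at h3
    exact absurd h3 (by decide)

/-- notes/R24.md, section QCoA -/
theorem St.qfix (hco : S.co = true) {r v : G} (hr : r ∈ S.R) (h1 : r ∉ S.V) (hv : v ∈ S.VQ)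
    (h : ∀ m ∈ S.M, m * r * m⁻¹ * r⁻¹ ∈ S.V → m * v * m⁻¹ = v ∨ m * v * m⁻¹ = S.z * v) : v = 1 ∨ v = S.z := by
  obtain ⟨t, ht, he⟩ := row S hco hr h1
  have hok := allL_iff.1 c2 t ht
  rw [Bool.and_eq_true] at hok
  obtain ⟨x, hx, rfl⟩ := S.rp_surj (S.par_le _ hv)
  have hd := rp_dom S.co x hx
  have key : ∀ P, ok t.1 P = true → fz P (rp S.co x) = true := fun P hP => by
    obtain ⟨m, hm, rfl, hv⟩ := lft S hco hr.1 he hP
    have hi := im_dom (S.p_mem m hm.1) hd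
    have := h m hm hv
    rw [S.κ_conj m hm.1 _ hd, z_eq S hco, ← S.κ_xor _ _ (dz S hco) hd, S.κ_eq_iff hi hd,
      S.κ_eq_iff hi ((dz S hco).xor hd), ker_iff S hco, ker_iff S hco, Nat.xor_comm 8388615,
      ← Nat.xor_assoc] at this
    simpa only [fz, force_eq, Bool.or_eq_true] using this
  have := all2_iff.1 c5 x hx
  simp only [force_eq, Bool.or_eq_true, allL_iff, bimp_iff] at this
  rw [vq_iff S hco hd] at hv
  rw [z_eq S hco, S.κ_one _ hd, S.κ_eq_iff hd (dz S hco), ker_iff S hco, ker_iff S hco]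
  rw [hco] at key hv ⊢
  refine (this hv).resolve_right fun h' => ?_
  have h3 := h' t ht (key _ hok.1)
  rw [key _ hok.2] at h3
  exact absurd h3 (by decide)

end Cfsg.Agent.R24
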