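/-
Project R24 (notes/R24.md), section QCo: the extraspecial group of order `2 ^ 13`, cocode case.
-/
import Cfsg.Agent.R24.Defs2
import Cfsg.Agent.R24.Base1
import Cfsg.Agent.R24.Base2
import Cfsg.Agent.R24.Base3
import Cfsg.Agent.R24.Sxt
import Cfsg.Agent.R24.MN
import Cfsg.Agent.R24.QCoA

set_option autoImplicit false

namespace Cfsg.Agent.R24

open Subgroup Cfsg.Agent.H14

section aux

variable {X : Type*} [Group X]

/-- the norm map of an element of order 3 -/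
def QCo_n (w x : X) : X := x * (w * x * w⁻¹) * (w * (w * x * w⁻¹) * w⁻¹)

theorem QCo_n_one (w : X) : QCo_n w 1 = 1 := by simp [QCo_n]

theorem QCo_n_mul (A : Subgroup X) (hc : ∀ a ∈ A, ∀ b ∈ A, a * b = b * a) {w : X}
    (hw : ∀ x ∈ A, w * x * w⁻¹ ∈ A) {x y : X} (hx : x ∈ A) (hy : y ∈ A) :
    QCo_n w (x * y) = QCo_n w x * QCo_n w y := by
  have e1 : w * (x * y) * w⁻¹ = (w * x * w⁻¹) * (w * y * w⁻¹) := by group
  have e2 : w * ((w * x * w⁻¹) * (w * y * w⁻¹)) * w⁻¹ =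
      (w * (w * x * w⁻¹) * w⁻¹) * (w * (w * y * w⁻¹) * w⁻¹) := by group
  unfold QCo_n
  rw [e1, e2]
  have hx1 := hw x hx
  have hy1 := hw y hy
  have hx2 := hw _ hx1
  generalize w * (w * y * w⁻¹) * w⁻¹ = y2
  generalize w * (w * x * w⁻¹) * w⁻¹ = x2 at hx2
  generalize w * x * w⁻¹ = x1 at hx1
  generalize w * y * w⁻¹ = y1 at hy1
  calc x * y * (x1 * y1) * (x2 * y2) = x * (y * x1) * (y1 * x2) * y2 := by group
    _ = x * (x1 * y) * (x2 * y1) * y2 := by rw [hc y hy x1 hx1, hc y1 hy1 x2 hx2]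
    _ = x * x1 * (y * x2) * y1 * y2 := by group
    _ = x * x1 * (x2 * y) * y1 * y2 := by rw [hc y hy x2 hx2]
    _ = x * x1 * x2 * (y * y1 * y2) := by group

theorem QCo_n_left (A : Subgroup X) (hc : ∀ a ∈ A, ∀ b ∈ A, a * b = b * a) {w : X}
    (hw : ∀ x ∈ A, w * x * w⁻¹ ∈ A) {ρ x : X} (hρ : ρ ∈ A) (hx : x ∈ A) :
    QCo_n (ρ * w) x = QCo_n w x := by
  have k : ∀ y ∈ A, ρ * w * y * (ρ * w)⁻¹ = w * y * w⁻¹ := by
    intro y hy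
    calc ρ * w * y * (ρ * w)⁻¹ = ρ * (w * y * w⁻¹) * ρ⁻¹ := by group
      _ = w * y * w⁻¹ := by rw [hc ρ hρ _ (hw y hy)]; group
  unfold QCo_n
  rw [k x hx, k _ (hw x hx)]

theorem QCo_n_inv (A : Subgroup X) (hc : ∀ a ∈ A, ∀ b ∈ A, a * b = b * a) {w : X} (h3 : w * w * w = 1)
    (hw : ∀ x ∈ A, w * x * w⁻¹ ∈ A) {x : X} (hx : x ∈ A) : QCo_n w⁻¹ x = QCo_n w x := by
  have hi : w⁻¹ = w * w := inv_eq_of_mul_eq_one_left h3
  have e1 : w⁻¹ * x * w⁻¹⁻¹ = w * (w * x * w⁻¹) * w⁻¹ := by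
    conv_lhs => rw [hi]
    group
  have e2 : w⁻¹ * (w * (w * x * w⁻¹) * w⁻¹) * w⁻¹⁻¹ = w * x * w⁻¹ := by group
  unfold QCo_n
  rw [e1, e2, mul_assoc x, hc _ (hw _ (hw x hx)) _ (hw x hx), ← mul_assoc]

theorem QCo_n_conj (g w x : X) : QCo_n w (g * x * g⁻¹) = g * QCo_n (g⁻¹ * w * g) x * g⁻¹ := by
  unfold QCo_n; group

theorem QCo_n_fix (A : Subgroup X) (hc : ∀ a ∈ A, ∀ b ∈ A, a * b = b * a) {w : X} (h3 : w * w * w = 1)
    (hw : ∀ x ∈ A, w * x * w⁻¹ ∈ A) {x : X} (hx : x ∈ A) : w * QCo_n w x * w⁻¹ = QCo_n w x := by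
  have e : w * QCo_n w x * w⁻¹ =
      ((w * x * w⁻¹) * (w * (w * x * w⁻¹) * w⁻¹)) * ((w * w * w) * x * (w * w * w)⁻¹) := by
    unfold QCo_n; group
  rw [e, h3, one_mul, inv_one, mul_one, hc _ (mul_mem (hw x hx) (hw _ (hw x hx))) x hx]
  unfold QCo_n; group

theorem QCo_n_of_fix {w x : X} (h2 : x * x = 1) (h : w * x * w⁻¹ = x) : QCo_n w x = x := by
  unfold QCo_n
  rw [h, h, h2, one_mul]

theorem QCo_comm {z a b : X} (hz : z * z = 1) (hb : b * z = z * b) (h1 : a * a = 1 ∨ a * a = z)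
    (h2 : b * b = 1 ∨ b * b = z) (h3 : a * b * (a * b) = 1 ∨ a * b * (a * b) = z) :
    a * b * a⁻¹ = b ∨ a * b * a⁻¹ = z * b := by
  have hi : z⁻¹ = z := inv_eq_of_mul_eq_one_right hz
  have hs : b⁻¹ * (a * a)⁻¹ = (a * a)⁻¹ * b⁻¹ := by
    rcases h1 with h | h <;> rw [h]
    · simp
    · rw [← mul_inv_rev, ← hb, mul_inv_rev]
  have e : a * b * a⁻¹ = (a * b * (a * b)) * (a * a)⁻¹ * (b * b)⁻¹ * b := by
    calc a * b * a⁻¹ = (a * b * (a * b)) * (b⁻¹ * (a * a)⁻¹) := by group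
      _ = _ := by rw [hs]; group
  rw [e]
  rcases h1 with h | h <;> rcases h2 with h' | h' <;> rcases h3 with h'' | h'' <;>
    simp [h, h', h'', hi, hz]

theorem QCo_exists_f.{u} {G : Type u} [Group G] (M W : Subgroup G) (hn : M ≤ normalizer (W : Set G)) :
    ∃ (Y : Type u) (_ : Group Y) (f : G → Y), (∀ a ∈ M, ∀ b ∈ M, f (a * b) = f a * f b) ∧
      ∀ a ∈ M, f a = 1 ↔ a ∈ W := by
  classical
  have : (W.subgroupOf M).Normal := ⟨fun a ha g => by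
    rw [mem_subgroupOf] at ha ⊢
    exact (mem_normalizer_iff.1 (hn g.2) _).1 ha⟩
  refine ⟨M ⧸ W.subgroupOf M, inferInstance,
    fun g => if h : g ∈ M then QuotientGroup.mk' (W.subgroupOf M) ⟨g, h⟩ else 1, ?_, ?_⟩
  · intro a ha b hb
    simp only [dif_pos ha, dif_pos hb, dif_pos (mul_mem ha hb)]
    rw [← map_mul]; rfl
  · intro a ha
    simp only [dif_pos ha]
    rw [QuotientGroup.mk'_apply, QuotientGroup.eq_one_iff, mem_subgroupOf]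

end aux

variable {G : Type*} [Group G] [Finite G] (S : St G)

theorem St.QCo_sgn (hco : S.co = true) {ω m : G} (hω : S.Om ω) (hm : m ∈ S.M) :
    ∃ r ∈ S.R, m⁻¹ * ω * m = r * ω ∨ m⁻¹ * ω * m = r * ω⁻¹ := by
  have hm' : m⁻¹ ∈ S.M := inv_mem hm
  obtain ⟨σ, hσ⟩ := (S.sx_mem hco hm'.1).1 hm'.2
  obtain ⟨h, hh, e⟩ := sx_sgn (S.p_mem _ hm'.1) hσ hω.2.1
  have hR : S.R = S.pre Hx := by unfold St.R; rw [hco]; rfl
  have hN : m⁻¹ * ω * m⁻¹⁻¹ ∈ S.N := mul_mem (mul_mem hm'.1 hω.1) (inv_mem hm'.1)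
  rw [← S.p_conj hm'.1 hω.1] at e
  split_ifs at e
  · refine ⟨m⁻¹ * ω * m⁻¹⁻¹ * ω⁻¹, ?_, Or.inl (by group)⟩
    rw [hR]
    refine ⟨mul_mem hN (inv_mem hω.1), ?_⟩
    rw [S.p_mul _ hN _ (inv_mem hω.1), e, S.p_inv hω.1, mul_inv_cancel_right]
    exact hh
  · refine ⟨m⁻¹ * ω * m⁻¹⁻¹ * ω, ?_, Or.inr (by group)⟩
    rw [hR]
    refine ⟨mul_mem hN hω.1, ?_⟩
    rw [S.p_mul _ hN _ hω.1, e, inv_mul_cancel_right]
    exact hh

theorem St.QCo_core (hco : S.co = true) : ∃ Q : Subgroup G, Q ≤ S.R ∧ Q ⊓ S.V = S.VQ ∧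
    (∀ r ∈ S.R, ∃ q ∈ Q, ∃ v ∈ S.V, r = q * v) ∧ ∀ m ∈ S.M, ∀ q ∈ Q, m * q * m⁻¹ ∈ Q := by
  obtain ⟨ω, hω⟩ := S.exists_om
  have hωM : ω ∈ S.M := (S.om_mem hω).1
  have hRM : S.R ≤ S.M := S.R_le_T.trans S.T_le_M
  have hVR : S.V ≤ S.R := S.V_le_R
  have hQV : S.VQ ≤ S.V := S.par_le _
  have cR : ∀ m ∈ S.M, ∀ r ∈ S.R, m * r * m⁻¹ ∈ S.R := fun m hm r hr =>
    (mem_normalizer_iff.1 (S.norm_R hm) r).1 hr
  obtain ⟨Y, _, f, fm, f1⟩ := QCo_exists_f S.M S.VQ S.norm_VQ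
  have f0 : f 1 = 1 := (f1 1 (one_mem _)).2 (one_mem _)
  have fi : ∀ a ∈ S.M, f a⁻¹ = (f a)⁻¹ := fun a ha =>
    eq_inv_of_mul_eq_one_left (by rw [← fm _ (inv_mem ha) _ ha, inv_mul_cancel, f0])
  have fc : ∀ a ∈ S.M, ∀ b ∈ S.M, f (a * b * a⁻¹) = f a * f b * (f a)⁻¹ := fun a ha b hb => by
    rw [fm _ (mul_mem ha hb) _ (inv_mem ha), fm _ ha _ hb, fi a ha]
  let A : Subgroup Y :=
    { carrier := {x | ∃ r ∈ S.R, f r = x}
      one_mem' := ⟨1, one_mem _, f0⟩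
      mul_mem' := by
        rintro _ _ ⟨a, ha, rfl⟩ ⟨b, hb, rfl⟩
        exact ⟨a * b, mul_mem ha hb, fm _ (hRM ha) _ (hRM hb)⟩
      inv_mem' := by
        rintro _ ⟨a, ha, rfl⟩
        exact ⟨a⁻¹, inv_mem ha, fi _ (hRM ha)⟩ }
  have mA : ∀ r ∈ S.R, f r ∈ A := fun r hr => ⟨r, hr, rfl⟩
  have hsq : ∀ x ∈ A, x * x = 1 := by
    rintro _ ⟨a, ha, rfl⟩
    rw [← fm _ (hRM ha) _ (hRM ha)]
    exact (f1 _ (hRM (mul_mem ha ha))).2 (S.qsq hco ha)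
  have hc : ∀ a ∈ A, ∀ b ∈ A, a * b = b * a := by
    intro a ha b hb
    have h1 := inv_eq_of_mul_eq_one_right (hsq _ (mul_mem ha hb))
    rw [mul_inv_rev, inv_eq_of_mul_eq_one_right (hsq a ha), inv_eq_of_mul_eq_one_right (hsq b hb)] at h1
    exact h1.symm
  have hA : ∀ m ∈ S.M, ∀ x ∈ A, f m * x * (f m)⁻¹ ∈ A := by
    rintro m hm _ ⟨a, ha, rfl⟩
    exact ⟨_, cR m hm a ha, fc m hm a (hRM ha)⟩
  have hw := hA ω hωM
  have h3 : f ω * f ω * f ω = 1 := by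
    rw [← fm _ hωM _ hωM, ← fm _ (mul_mem hωM hωM) _ hωM, ← f0, ← hω.2.2]
    congr 1
    rw [pow_succ, pow_two]
  have k1 : ∀ v ∈ S.V, QCo_n (f ω) (f v) = f v := by
    intro v hv
    have hvM := hRM (hVR hv)
    refine QCo_n_of_fix (hsq _ (mA v (hVR hv))) ?_
    have h := (f1 _ (mul_mem (mul_mem (mul_mem hvM hωM) (inv_mem hvM)) (inv_mem hωM))).2 (S.om_V hco hω hv)
    rw [fm _ (mul_mem (mul_mem hvM hωM) (inv_mem hvM)) _ (inv_mem hωM), fc _ hvM _ hωM, fi _ hωM] at h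
    calc f ω * f v * (f ω)⁻¹ = (f v * f ω * (f v)⁻¹ * (f ω)⁻¹) * (f ω * f v * (f ω)⁻¹) := by rw [h, one_mul]
      _ = f v * (f ω * ((f v)⁻¹ * f v) * (f ω)⁻¹) := by group
      _ = f v := by group
  have k2 : ∀ r ∈ S.R, ∃ u ∈ S.V, f u = QCo_n (f ω) (f r) := by
    intro r hr
    have h1 := cR ω hωM r hr
    have h2 := cR ω hωM _ h1
    have hu : QCo_n ω r ∈ S.R := mul_mem (mul_mem hr h1) h2
    have e : f (QCo_n ω r) = QCo_n (f ω) (f r) := by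
      unfold QCo_n
      rw [fm _ (hRM (mul_mem hr h1)) _ (hRM h2), fm _ (hRM hr) _ (hRM h1), fc _ hωM _ (hRM h1),
        fc _ hωM _ (hRM hr)]
    refine ⟨_, S.om_R hco hω hu (hQV ?_), e⟩
    have h4 := hRM (cR ω hωM _ hu)
    rw [← f1 _ (mul_mem h4 (inv_mem (hRM hu))), fm _ h4 _ (inv_mem (hRM hu)), fc _ hωM _ (hRM hu),
      fi _ (hRM hu), e, QCo_n_fix A hc h3 hw (mA r hr), mul_inv_cancel]
  let Q : Subgroup G :=
    { carrier := {r | r ∈ S.R ∧ QCo_n (f ω) (f r) = 1}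
      one_mem' := ⟨one_mem _, by rw [f0, QCo_n_one]⟩
      mul_mem' := by
        rintro a b ⟨ha, h1⟩ ⟨hb, h2⟩
        refine ⟨mul_mem ha hb, ?_⟩
        rw [fm _ (hRM ha) _ (hRM hb), QCo_n_mul A hc hw (mA a ha) (mA b hb), h1, h2, one_mul]
      inv_mem' := by
        rintro a ⟨ha, h1⟩
        refine ⟨inv_mem ha, ?_⟩
        rw [fi _ (hRM ha), inv_eq_of_mul_eq_one_right (hsq _ (mA a ha)), h1] }
  have mQ : ∀ r, r ∈ Q ↔ r ∈ S.R ∧ QCo_n (f ω) (f r) = 1 := fun _ => Iff.rfl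
  refine ⟨Q, fun r hr => hr.1, ?_, ?_, ?_⟩
  · ext v
    constructor
    · rintro ⟨⟨hv, h1⟩, hV⟩
      rw [k1 v hV] at h1
      exact (f1 v (hRM hv)).1 h1
    · intro hv
      have hV := hQV hv
      exact ⟨⟨hVR hV, by rw [(f1 v (hRM (hVR hV))).2 hv, QCo_n_one]⟩, hV⟩
  · intro r hr
    obtain ⟨u, hu, e⟩ := k2 r hr
    refine ⟨r * u⁻¹, (mQ _).2 ⟨mul_mem hr (inv_mem (hVR hu)), ?_⟩, u, hu, by group⟩
    rw [fm _ (hRM hr) _ (inv_mem (hRM (hVR hu))),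
      QCo_n_mul A hc hw (mA r hr) (mA _ (inv_mem (hVR hu))), k1 _ (inv_mem hu), ← e,
      fi _ (hRM (hVR hu)), mul_inv_cancel]
  · rintro m hm q ⟨hq, h1⟩
    refine (mQ _).2 ⟨cR m hm q hq, ?_⟩
    obtain ⟨r, hr, e⟩ := S.QCo_sgn hco hω hm
    have e0 : (f m)⁻¹ * f ω * f m = f (m⁻¹ * ω * m) := by
      rw [fm _ (mul_mem (inv_mem hm) hωM) _ hm, fm _ (inv_mem hm) _ hωM, fi m hm]
    rw [fc m hm q (hRM hq), QCo_n_conj, e0]
    rcases e with e | e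
    · rw [e, fm _ (hRM hr) _ hωM, QCo_n_left A hc hw (mA r hr) (mA q hq), h1]; group
    · rw [e, fm _ (hRM hr) _ (inv_mem hωM), QCo_n_left A hc (hA _ (inv_mem hωM)) (mA r hr) (mA q hq),
        fi ω hωM, QCo_n_inv A hc h3 hw (mA q hq), h1]; group

/-- notes/R24.md, section QCo -/
theorem St.qco (hco : S.co = true) : ∃ Q, S.QD Q := by
  obtain ⟨Q, hQR, hinf, hsup, hn⟩ := S.QCo_core hco
  have hRM : S.R ≤ S.M := S.R_le_T.trans S.T_le_M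
  have hQV : S.VQ ≤ S.V := S.par_le _
  have hVQ : S.VQ ≤ Q := hinf ▸ inf_le_left
  have hR : S.R = S.pre Hx := by unfold St.R; rw [hco]; rfl
  have hcen : ∀ a ∈ Q, a * S.z = S.z * a := fun a ha =>
    mem_centralizer_singleton_iff.1 (hRM (hQR ha)).2
  have hsqr : ∀ a ∈ Q, a * a = 1 ∨ a * a = S.z := by
    intro a ha
    by_cases hV : a ∈ S.V
    · exact Or.inl (S.sq hV)
    refine S.qfix hco (hQR ha) hV (S.qsq hco (hQR ha)) fun m hm hu => ?_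
    have huQ : m * a * m⁻¹ * a⁻¹ ∈ S.VQ := by
      rw [← hinf]
      exact mem_inf.2 ⟨mul_mem (hn m hm a ha) (inv_mem ha), hu⟩
    have e : m * (a * a) * m⁻¹ =
        (m * a * m⁻¹ * a⁻¹) * (a * (m * a * m⁻¹ * a⁻¹) * a⁻¹) * (a * a) := by group
    rw [e]
    generalize m * a * m⁻¹ * a⁻¹ = u at huQ hu
    rcases S.cQR (hQR ha) u huQ with h | h <;> rw [h]
    · left; rw [S.sq hu, one_mul]
    · right; rw [← mul_assoc u, S.comm hu S.z_mem, mul_assoc S.z, S.sq hu, mul_one]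
  refine ⟨Q, ⟨hVQ S.z_VQ, S.z_ne, S.z_sq, hcen, fun a ha b hb => ?_, hsqr, fun g hg h => ?_⟩,
    hQR, hinf, hsup, fun m hm => ?_, ?_⟩
  · exact QCo_comm S.z_sq (hcen b hb) (hsqr a ha) (hsqr b hb) (hsqr _ (mul_mem ha hb))
  · have hV : g ∈ S.V := S.cVQ (hQR hg) fun v hv => h v (hVQ hv)
    refine S.cR hV fun r hr => ?_
    obtain ⟨q, hq, v, hv, rfl⟩ := hsup r hr
    rw [mul_assoc, S.comm hv hV, ← mul_assoc, ← h q hq, mul_assoc]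
  · refine mem_normalizer_iff.2 fun q => ⟨hn m hm q, fun h => ?_⟩
    have h' := hn m⁻¹ (inv_mem hm) _ h
    rwa [show m⁻¹ * (m * q * m⁻¹) * m⁻¹⁻¹ = q by group] at h'
  · have hb : S.bar Q = Hx := by
      ext g
      rw [S.mem_bar]
      constructor
      · rintro ⟨b, hb, -, rfl⟩
        have h := hQR hb
        rw [hR] at h
        exact h.2
      · intro hg
        obtain ⟨a, ha, rfl⟩ := S.p_surj g (sg_le _ hg)
        obtain ⟨q, hq, v, hv, rfl⟩ := hsup a (by rw [hR]; exact ⟨ha, hg⟩)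
        have hqN : q ∈ S.N := (hRM (hQR hq)).1
        exact ⟨q, hq, hqN, by rw [S.p_mul _ hqN _ (S.V_le hv), S.p_V hv, mul_one]⟩
    have h64 : 2 ^ pc 63 = 64 := by decide +kernel
    rw [S.card_bar (fun q hq => (hRM (hQR hq)).1), hinf, hb, S.card_VQ, card_sg (by simp), h64, hco]
    rfl

end Cfsg.Agent.R24
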