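/-
Project R24 (notes/R24.md), section QCodeB.
-/
import Cfsg.Agent.R24.Base1
import Cfsg.Agent.R24.Base2
import Cfsg.Agent.R24.Base3
import Cfsg.Agent.R24.Oct
import Cfsg.Agent.R24.MN

set_option autoImplicit false

namespace Cfsg.Agent.R24

open Subgroup Cfsg.Agent.H14

variable {G : Type*} [Group G] [Finite G] (S : St G)

/-- the fifth power of `g7` -/
def qcbG5 : ℕ := 0xbd88991dd09857553cd46b04888c05

def qcbL : List ℕ := [8388609, 8388610, 8388612, 8388616, 8388640, 8404992]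

noncomputable def qcbK (m : ℕ) : Bool := Nat.beq m 0 || Nat.beq m 16777215
noncomputable def qcbP (m : ℕ) : Bool := allL qcbL fun l => Nat.beq (pc (m &&& l) % 2) 0

theorem qcbK_iff {m : ℕ} : qcbK m = true ↔ Ker false m := by
  simp [qcbK, Ker]

theorem qcbP_iff {m : ℕ} : qcbP m = true ↔ ∀ l ∈ qcbL, pc (m &&& l) % 2 = 0 := by
  simp only [qcbP, allL_iff, beq_iff]

theorem qcb_chk : all2 32 64 (fun x => force (enc x) fun m => bimp (qcbK (m ^^^ im (te 1) m))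
    (bimp (qcbP (im (te 4) (im g7 m) ^^^ m ^^^ im qcbG5 m)) (qcbP m))) = true := by
  decide +kernel

theorem qcb_memVQ (hco : S.co = false) {m : ℕ} (hm : Dom false m) : S.κ m ∈ S.VQ ↔ qcbP m = true := by
  have e : S.VQ = S.par qcbL := by simp [St.VQ, hco, qcbL]
  rw [e, qcbP_iff]
  refine S.mem_par_iff ?_ (by rw [hco]; exact hm)
  rw [hco]
  decide +kernel

theorem qcb_mul {a m n : G} (hm : m ∈ S.M) (h1 : m * a * m⁻¹ * a⁻¹ ∈ S.VQ) (h2 : n * a * n⁻¹ * a⁻¹ ∈ S.VQ) :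
    m * n * a * (m * n)⁻¹ * a⁻¹ ∈ S.VQ := by
  have e : m * n * a * (m * n)⁻¹ * a⁻¹ = m * (n * a * n⁻¹ * a⁻¹) * m⁻¹ * (m * a * m⁻¹ * a⁻¹) := by group
  rw [e]
  exact mul_mem ((mem_normalizer_iff.1 (S.norm_VQ hm) _).1 h2) h1

theorem qcb_inv {a m : G} (hm : m ∈ S.M) (h1 : m * a * m⁻¹ * a⁻¹ ∈ S.VQ) : m⁻¹ * a * m⁻¹⁻¹ * a⁻¹ ∈ S.VQ := by
  have e : m⁻¹ * a * m⁻¹⁻¹ * a⁻¹ = m⁻¹ * (m * a * m⁻¹ * a⁻¹)⁻¹ * m⁻¹⁻¹ := by group
  rw [e]
  exact (mem_normalizer_iff.1 (S.norm_VQ (inv_mem hm)) _).1 (inv_mem h1)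

omit [Finite G] in
theorem qcb_VM {v : G} (hv : v ∈ S.V) : v ∈ S.M :=
  ⟨S.V_le hv, mem_centralizer_singleton_iff.2 (S.comm hv S.z_mem)⟩

omit [Finite G] in
theorem qcb_pc {a m : G} (ha : a ∈ S.N) (hm : m ∈ S.N) : m * a * m⁻¹ * a⁻¹ ∈ S.V ↔ S.p m * S.p a = S.p a * S.p m := by
  have h1 : m * a * m⁻¹ ∈ S.N := mul_mem (mul_mem hm ha) (inv_mem hm)
  rw [← S.p_one _ (mul_mem h1 (inv_mem ha)), S.p_mul _ h1 _ (inv_mem ha), S.p_conj hm ha, S.p_inv ha,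
    mul_inv_eq_one, mul_inv_eq_iff_eq_mul]

omit [Finite G] in
theorem qcb_K {K : Subgroup G} (hK : S.KC K) {a k : G} (ha : a ∈ K) (hk : k ∈ K)
    (h : S.p k * S.p a = S.p a * S.p k) : k * a * k⁻¹ * a⁻¹ = 1 := by
  have h1 : k * a * k⁻¹ * a⁻¹ ∈ K ⊓ S.V :=
    mem_inf.2 ⟨mul_mem (mul_mem (mul_mem hk ha) (inv_mem hk)) (inv_mem ha), (qcb_pc S (hK.le ha) (hK.le hk)).2 h⟩
  rwa [hK.inf, mem_bot] at h1

theorem qcb_fix {K : Subgroup G} (hK : S.KC K) {a m : G} (ha : a ∈ K) (haR : a ∈ S.R) (hm : m ∈ S.M)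
    (h : S.p m * S.p a = S.p a * S.p m) (h0 : S.p m none = none) : m * a * m⁻¹ * a⁻¹ ∈ S.VQ := by
  obtain ⟨k, hk, e⟩ := hK.surj _ (S.p_mem m hm.1) h0
  have hv : k⁻¹ * m ∈ S.V := (S.p_eq_iff (hK.le hk) hm.1).1 e
  have hkM : k ∈ S.M := by
    have : k = m * (k⁻¹ * m)⁻¹ := by group
    rw [this]; exact mul_mem hm (inv_mem (qcb_VM S hv))
  have e2 : m = k * (k⁻¹ * m) := by group
  rw [e2]
  refine qcb_mul S hkM ?_ (S.cVR hv haR)
  rw [qcb_K S hK ha hk (by rw [e]; exact h)]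
  exact one_mem _

theorem qcb_lift (hco : S.co = false) {K : Subgroup G} (hK : S.KC K) {a : G} (ha : a ∈ K) (he : GE.pk (S.p a) = te 1) {P : ℕ}
    (h1 : valid (nat_lit 5) (nat_lit 32) (nat_lit 24) P = true) (h2 : inM24 P = true)
    (h3 : app (nat_lit 5) (nat_lit 32) P 23 = 23) (h4 : im P 8536111 = 8536111) (h5 : cmp P (te 1) = cmp (te 1) P) :
    ∃ k ∈ K, k ∈ S.M ∧ GE.pk (S.p k) = P ∧ k * a * k⁻¹ * a⁻¹ = 1 := by
  obtain ⟨g, hg, rfl⟩ := inG_M24 h1 h2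
  have h0 : g none = none := by
    have := GE.apply_eq g none
    rw [this]
    change pt (app (nat_lit 5) (nat_lit 32) (GE.pk g) 23) = none
    rw [h3]; rfl
  obtain ⟨k, hk, rfl⟩ := hK.surj g hg h0
  refine ⟨k, hk, ⟨hK.le hk, (S.oc_mem hco (hK.le hk)).2 h4⟩, rfl, qcb_K S hK ha hk ?_⟩
  apply GE.pk_injective
  rw [GE.pk_mul, GE.pk_mul, he]; exact h5

/-- notes/R24.md, section QCodeB -/
theorem St.qtau (hco : S.co = false) {K : Subgroup G} (hK : S.KC K) {a m : G} (ha : a ∈ K) (he : GE.pk (S.p a) = te 1)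
    (hm : m ∈ S.M) (h : m * a * m⁻¹ * a⁻¹ ∈ S.V) : m * a * m⁻¹ * a⁻¹ ∈ S.VQ := by
  have haN : a ∈ S.N := hK.le ha
  have haR : a ∈ S.R := by
    have e : S.R = S.pre Ex := by simp [St.R, hco]
    rw [e]
    exact ⟨haN, (mem_sg (by simp) _).2 ⟨1, by norm_num, by decide, he⟩⟩
  have haa : a * a = 1 := by
    have h1 : a * a ∈ K ⊓ S.V := by
      refine mem_inf.2 ⟨mul_mem ha ha, (S.p_one _ (mul_mem haN haN)).1 ?_⟩
      apply GE.pk_injective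
      rw [S.p_mul _ haN _ haN, GE.pk_mul, he, GE.pk_one]
      decide +kernel
    rwa [hK.inf, mem_bot] at h1
  obtain ⟨γ, hγK, hγM, hγ, cγ⟩ := qcb_lift S hco hK ha he (P := g7) (by decide +kernel) (by decide +kernel)
    (by decide +kernel) (by decide +kernel) (by decide +kernel)
  obtain ⟨δ, hδK, hδM, hδ, cδ⟩ := qcb_lift S hco hK ha he (P := qcbG5) (by decide +kernel) (by decide +kernel)
    (by decide +kernel) (by decide +kernel) (by decide +kernel)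
  obtain ⟨y, hyT, hy⟩ := exists_te (x := 4) (by norm_num)
  obtain ⟨τ, hτN, rfl⟩ := S.p_surj y (sg_le _ hyT)
  have hτM : τ ∈ S.M := S.T_le_M ⟨hτN, hyT⟩
  have hcV : τ * a * τ⁻¹ * a⁻¹ ∈ S.V := (qcb_pc S haN hτN).2 (cent_te1 he hyT)
  have gγ : γ * a * γ⁻¹ * a⁻¹ ∈ S.VQ := by rw [cγ]; exact one_mem _
  have cγ' : γ * a = a * γ := by rw [← mul_inv_eq_one, ← cγ]; group
  have cδ' : δ * a = a * δ := by rw [← mul_inv_eq_one, ← cδ]; group
  have gτ : τ * a * τ⁻¹ * a⁻¹ ∈ S.VQ := by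
    obtain ⟨x, hx, e⟩ := S.rp_surj hcV
    have hd : Dom S.co (enc x) := by
      have := rp_dom S.co x hx
      rwa [show rp S.co x = enc x by simp [rp, hco]] at this
    rw [show rp S.co x = enc x by simp [rp, hco]] at e
    have hd' : Dom false (enc x) := hco ▸ hd
    have k := all2_iff.1 qcb_chk x (by omega)
    rw [force_eq, bimp_iff, bimp_iff] at k
    rw [← e, qcb_memVQ S hco hd']
    have hai : a⁻¹ = a := inv_eq_of_mul_eq_one_right haa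
    apply k
    · rw [qcbK_iff, ← he, ← hco, ← S.cent_κ haN hd, e]
      have hc2 := S.sq hcV
      have h3 : τ * a * τ⁻¹ * a⁻¹ = (τ * a * τ⁻¹ * a⁻¹)⁻¹ := (inv_eq_of_mul_eq_one_right hc2).symm
      have h4 : (τ * a * τ⁻¹)⁻¹ = τ * a * τ⁻¹ := by
        conv_rhs => rw [← hai]
        group
      calc a * (τ * a * τ⁻¹ * a⁻¹) = a * (τ * a * τ⁻¹)⁻¹ * a⁻¹ := by rw [h4]; group
        _ = (τ * a * τ⁻¹ * a⁻¹)⁻¹ * a⁻¹ := by group
        _ = τ * a * τ⁻¹ * a⁻¹ * a := by rw [← h3, hai]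
    · have h1N : γ * τ * γ⁻¹ ∈ S.N := mul_mem (mul_mem hγM.1 hτN) (inv_mem hγM.1)
      have h5M : δ * τ * δ⁻¹ ∈ S.M := mul_mem (mul_mem hδM hτM) (inv_mem hδM)
      have hv : (δ * τ * δ⁻¹)⁻¹ * (τ * (γ * τ * γ⁻¹)) ∈ S.V := by
        rw [← S.p_eq_iff h5M.1 (mul_mem hτN h1N), S.p_mul _ hτN _ h1N, S.p_conj hγM.1 hτN, S.p_conj hδM.1 hτN]
        apply GE.pk_injective
        rw [GE.pk_mul, GE.pk_mul, GE.pk_mul, GE.pk_mul, GE.pk_mul, GE.pk_inv, GE.pk_inv, hy, hγ, hδ]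
        decide +kernel
      have hw := (mem_normalizer_iff.1 (S.norm_VQ h5M) _).1 (S.cVR hv haR)
      have d1 : Dom S.co (im g7 (enc x)) := hγ ▸ im_dom (S.p_mem _ hγM.1) hd
      have d2 : Dom S.co (im (te 4) (im g7 (enc x))) := hy ▸ im_dom (S.p_mem _ hτN) d1
      have d3 : Dom S.co (im qcbG5 (enc x)) := hδ ▸ im_dom (S.p_mem _ hδM.1) hd
      rw [← qcb_memVQ S hco (hco ▸ (d2.xor hd).xor d3), S.κ_xor _ _ (d2.xor hd) d3, S.κ_xor _ _ d2 hd,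
        ← hy, ← S.κ_conj _ hτN _ d1, ← hγ, ← S.κ_conj _ hγM.1 _ hd, ← hδ, ← S.κ_conj _ hδM.1 _ hd, e]
      have hc5 : δ * (τ * a * τ⁻¹ * a⁻¹) * δ⁻¹ ∈ S.V := (mem_normalizer_iff.1 hδM.1 _).1 hcV
      rw [← inv_eq_of_mul_eq_one_right (S.sq hc5)]
      have eγ : γ⁻¹ * a * γ = a := by rw [mul_assoc, ← cγ']; group
      have eδ : δ⁻¹ * a * δ = a := by rw [mul_assoc, ← cδ']; group
      have eγ2 : γ * a⁻¹ * γ⁻¹ = a⁻¹ := by
        conv_lhs => rw [← eγ]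
        group
      have eδ2 : δ * a * δ⁻¹ = a := by rw [cδ']; group
      have e1 : γ * (τ * a * τ⁻¹ * a⁻¹) * γ⁻¹ = γ * τ * (γ⁻¹ * a * γ) * τ⁻¹ * γ⁻¹ * a⁻¹ := by
        rw [eγ]
        conv_rhs => rw [← eγ2]
        group
      have e2 : (δ * (τ * a * τ⁻¹ * a⁻¹) * δ⁻¹)⁻¹ = a * (δ * τ * (δ⁻¹ * a * δ)⁻¹ * τ⁻¹ * δ⁻¹) := by
        rw [eδ]
        conv_rhs => enter [1]; rw [← eδ2]
        group
      rw [e1, e2]
      convert hw using 1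
      group
  have key : ∀ i ∈ [23, 0, 3, 1, 2, 14, 5, 17], ∃ t ∈ S.M, t * a * t⁻¹ * a⁻¹ ∈ S.VQ ∧ S.p t none = pt i := by
    have st : ∀ i j, i < 24 → app (nat_lit 5) (nat_lit 32) g7 i = j →
        (∃ t ∈ S.M, t * a * t⁻¹ * a⁻¹ ∈ S.VQ ∧ S.p t none = pt i) →
        ∃ t ∈ S.M, t * a * t⁻¹ * a⁻¹ ∈ S.VQ ∧ S.p t none = pt j := by
      rintro i j hi hj ⟨t, ht, h1, h2⟩
      refine ⟨γ * t, mul_mem hγM ht, qcb_mul S hγM gγ h1, ?_⟩
      rw [S.p_mul _ hγM.1 _ ht.1, Equiv.Perm.mul_apply, h2, ← hj, ← hγ]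
      exact GE.apply_pt _ hi
    have k0 : ∃ t ∈ S.M, t * a * t⁻¹ * a⁻¹ ∈ S.VQ ∧ S.p t none = pt 0 := by
      refine ⟨τ, hτM, gτ, ?_⟩
      rw [GE.apply_eq, hy]
      change pt (app (nat_lit 5) (nat_lit 32) (te 4) 23) = pt 0
      rw [show app (nat_lit 5) (nat_lit 32) (te 4) 23 = 0 by decide +kernel]
    have k3 := st 0 3 (by norm_num) (by decide +kernel) k0
    have k1 := st 3 1 (by norm_num) (by decide +kernel) k3
    have k2 := st 1 2 (by norm_num) (by decide +kernel) k1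
    have k14 := st 2 14 (by norm_num) (by decide +kernel) k2
    have k5 := st 14 5 (by norm_num) (by decide +kernel) k14
    have k17 := st 5 17 (by norm_num) (by decide +kernel) k5
    intro i hi
    simp only [List.mem_cons, List.not_mem_nil, or_false] at hi
    rcases hi with rfl | rfl | rfl | rfl | rfl | rfl | rfl | rfl
    · refine ⟨1, one_mem _, by simp, ?_⟩
      rw [S.p_id]; rfl
    all_goals assumption
  have hO : S.p m none ∈ bits 8536111 := by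
    rw [← (S.oc_mem hco hm.1).1 hm.2, ← smul_bits, apply_mem_perm_smul_finset, mem_bits]
    decide
  have hl : idx (S.p m none) ∈ [23, 0, 3, 1, 2, 14, 5, 17] := by
    have : ∀ i < 24, Nat.testBit 8536111 i = true → i ∈ [23, 0, 3, 1, 2, 14, 5, 17] := by decide
    exact this _ (idx_lt _) (mem_bits.1 hO)
  obtain ⟨t, ht, g1, g2⟩ := key _ hl
  rw [pt_idx] at g2
  have c1 := (qcb_pc S haN ht.1).1 (S.par_le _ g1)
  have c2 := (qcb_pc S haN hm.1).1 h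
  have e : m = t * (t⁻¹ * m) := by group
  rw [e]
  refine qcb_mul S ht g1 (qcb_fix S hK ha haR (mul_mem (inv_mem ht) hm) ?_ ?_)
  · rw [S.p_mul _ (inv_mem ht.1) _ hm.1, S.p_inv ht.1]
    exact ((show Commute (S.p t) (S.p a) from c1).inv_left.mul_left (show Commute (S.p m) (S.p a) from c2)).eq
  · rw [S.p_mul _ (inv_mem ht.1) _ hm.1, S.p_inv ht.1, Equiv.Perm.mul_apply, ← g2]
    simp

end Cfsg.Agent.R24
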