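import Cfsg.Agent.R24.Defs2
import Cfsg.Agent.R24.Base1
import Cfsg.Agent.R24.Base2
import Cfsg.Agent.R24.Inv
import Cfsg.Agent.R24.EA5
import Cfsg.Agent.R24.TyF

set_option autoImplicit false
set_option linter.unusedSectionVars false
set_option linter.unusedVariables false

namespace Cfsg.Agent.R24

open Subgroup Cfsg.Agent.H14

variable {G : Type*} [Group G] [Finite G] (S : St G)

/-- an element whose commutators with `K` lie in a central subgroup of order two -/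
theorem wcqa_half {K : Subgroup G} {x z : G} (z2 : z * z = 1) (hz : ∀ k ∈ K, k * z = z * k)
    (h : ∀ k ∈ K, k * x * k⁻¹ * x⁻¹ = 1 ∨ k * x * k⁻¹ * x⁻¹ = z) :
    Nat.card K ≤ 2 * Nat.card ↥(K ⊓ centralizer ({x} : Set G)) := by
  let φ : K →* G := MonoidHom.mk' (fun k => k * x * (k : G)⁻¹ * x⁻¹) fun k k' => by
    show (k : G) * k' * x * ((k : G) * k')⁻¹ * x⁻¹ = _
    have e : (k : G) * k' * x * ((k : G) * k')⁻¹ * x⁻¹ =
        k * (k' * x * (k' : G)⁻¹ * x⁻¹) * (k : G)⁻¹ * (k * x * (k : G)⁻¹ * x⁻¹) := by group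
    rw [e]
    rcases h k' k'.2 with e1 | e1 <;> rw [e1]
    · group
    · rw [hz k k.2, mul_inv_cancel_right]
      rcases h k k.2 with e2 | e2 <;> rw [e2]
      rw [mul_one, one_mul]
  have h1 : φ.ker = (K ⊓ centralizer ({x} : Set G)).subgroupOf K := by
    ext k
    rw [MonoidHom.mem_ker, mem_subgroupOf, mem_inf, mem_centralizer_singleton_iff]
    show (k : G) * x * (k : G)⁻¹ * x⁻¹ = 1 ↔ _
    rw [mul_inv_eq_one, mul_inv_eq_iff_eq_mul]
    exact ⟨fun e => ⟨k.2, e⟩, fun e => e.2⟩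
  have h2 : φ.range ≤ zpowers z := by
    rintro _ ⟨k, rfl⟩
    show (k : G) * x * (k : G)⁻¹ * x⁻¹ ∈ _
    rcases h k k.2 with e | e <;> rw [e]
    exacts [one_mem _, mem_zpowers z]
  have h3 : Nat.card (zpowers z) ≤ 2 := by
    rw [Nat.card_zpowers]
    exact orderOf_le_of_pow_eq_one two_pos (by rw [pow_two, z2])
  rw [← φ.ker.card_mul_index, index_ker, h1, Nat.card_congr (subgroupOfEquivOfLe inf_le_left).toEquiv,
    mul_comm]
  exact Nat.mul_le_mul_right _ ((card_le_of_le h2).trans h3)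

theorem wcqa_dec : (∀ x ∈ [6, 11, 13], ∀ i < 24, app (nat_lit 5) (nat_lit 32) (te x) i ≠ i) ∧
    app (nat_lit 5) (nat_lit 32) (te 1) 0 = 0 ∧ mulx 6 11 = 13 := by decide +kernel

theorem wcqa_notA {u g : Equiv.Perm GolayPt} {x : ℕ} (hx : x ∈ [6, 11, 13]) (hu : GE.pk u = te x) :
    g⁻¹ * u * g ≠ 1 ∧ ¬ IsA (g⁻¹ * u * g) := by
  have h1 : ∀ a, u a ≠ a := fun a e => wcqa_dec.1 x hx _ (GE.ix_lt a) (by rw [← hu, GE.app_pk, e])
  refine ⟨fun e => h1 (g none) ?_, ?_⟩
  · have := congrArg (fun s : Equiv.Perm GolayPt => g (s none)) e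
    simpa using this
  · rintro ⟨h, -, e⟩
    have h2 := GE.app_pk_of_lt (h * (g⁻¹ * u * g) * h⁻¹) (i := 0) (by decide)
    rw [e, wcqa_dec.2.1] at h2
    have h3 := congrArg GE.pt h2
    rw [GE.pt_ix] at h3
    refine h1 (g (h⁻¹ (GE.pt 0))) ?_
    have := congrArg (fun s => g (h⁻¹ s)) h3
    simpa using this.symm

/-- a subgroup of index at most two of the hexacode or trio group has a fixed point free involution -/
theorem wcqa_two {A : Subgroup (Equiv.Perm GolayPt)} {g : Equiv.Perm GolayPt} {k : ℕ} (hk : k = 63 ∨ k = 207)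
    (h : H70.cj g A ≤ sg k) (hc : 32 ≤ Nat.card A) : ∃ a ∈ A, a ≠ 1 ∧ ¬ IsA a := by
  have hk' : k ∈ [1023, 511, 63, 207, 323, 3] := by rcases hk with rfl | rfl <;> simp
  have c : Nat.card (sg k) = 64 := by
    rw [card_sg hk']
    rcases hk with rfl | rfl <;> decide +kernel
  obtain ⟨u, -, hu⟩ := exists_te (x := 6) (by norm_num)
  obtain ⟨v, -, hv⟩ := exists_te (x := 11) (by norm_num)
  have huv : GE.pk (u * v) = te 13 := by
    rw [GE.pk_mul, hu, hv, ← wcqa_dec.2.2]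
    exact te_mul 6 (by norm_num) 11 (by norm_num)
  have mu : u ∈ sg k := (mem_sg hk' u).2 ⟨6, by norm_num, by rcases hk with rfl | rfl <;> decide, hu⟩
  have mv : v ∈ sg k := (mem_sg hk' v).2 ⟨11, by norm_num, by rcases hk with rfl | rfl <;> decide, hv⟩
  have h1 := H42.card_mul_relIndex h
  rw [H70.card_cj, c] at h1
  have h2 : u ∈ H70.cj g A ∨ v ∈ H70.cj g A ∨ u * v ∈ H70.cj g A := by
    have h3 : (H70.cj g A).relIndex (sg k) ≤ 2 := by
      by_contra n
      have := Nat.mul_le_mul hc (not_le.1 n)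
      omega
    have h4 : (H70.cj g A).relIndex (sg k) ≠ 0 := fun e => by simp [e] at h1
    rcases (show (H70.cj g A).relIndex (sg k) = 1 ∨ (H70.cj g A).relIndex (sg k) = 2 by omega) with e | e
    · exact Or.inl (relIndex_eq_one.1 e mu)
    · have := mul_mem_iff_of_index_two e (a := ⟨u, mu⟩) (b := ⟨v, mv⟩)
      by_cases h5 : u ∈ H70.cj g A
      · exact Or.inl h5
      by_cases h6 : v ∈ H70.cj g A
      · exact Or.inr (Or.inl h6)
      exact Or.inr (Or.inr (this.2 (iff_of_false h5 h6)))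
  rcases h2 with e | e | e
  · exact ⟨_, H70.mem_cj.1 e, wcqa_notA (by simp) hu⟩
  · exact ⟨_, H70.mem_cj.1 e, wcqa_notA (by simp) hv⟩
  · exact ⟨_, H70.mem_cj.1 e, wcqa_notA (by simp) huv⟩

/-- notes/R24.md, section WCQa -/
theorem St.wcq_le (hco : S.co = true) {B : Subgroup G} (hB : B ≤ S.T) (hz : S.z ∈ B)
    (h2 : ∀ b ∈ B, b * b = 1 ∨ b * b = S.z) (hc : Nat.card B = 8192) : B ≤ S.R := by
  have hN : B ≤ S.N := hB.trans (S.pre_le _)
  have cz : ∀ b ∈ B, b * S.z = S.z * b := fun b hb => mem_centralizer_singleton_iff.1 (S.T_le_M (hB hb)).2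
  have zz := S.z_sq
  have iv : ∀ b ∈ B, b⁻¹ = b ∨ b⁻¹ = S.z * b := fun b hb => (h2 b hb).imp
    inv_eq_of_mul_eq_one_right fun e => inv_eq_of_mul_eq_one_right (by
      rw [← mul_assoc, cz b hb, mul_assoc, e, zz])
  have cm : ∀ a ∈ B, ∀ b ∈ B, a * b * a⁻¹ * b⁻¹ = 1 ∨ a * b * a⁻¹ * b⁻¹ = S.z := by
    intro a ha b hb
    have e1 : a * b * (S.z * a) = S.z * (a * b * a) := by
      rw [← mul_assoc, cz _ (mul_mem ha hb), mul_assoc]
    have e2 : ∀ c ∈ B, c * (S.z * b) = S.z * (c * b) := fun c hc => by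
      rw [← mul_assoc, cz _ hc, mul_assoc]
    have m3 := mul_mem (mul_mem ha hb) ha
    have e3 : a * b * a * b = a * b * (a * b) := by group
    rcases iv a ha with h3 | h3 <;> rcases iv b hb with h4 | h4 <;> rw [h3, h4]
    · rw [e3]; exact h2 _ (mul_mem ha hb)
    · rw [e2 _ m3, e3]
      rcases h2 _ (mul_mem ha hb) with e | e <;> rw [e]
      exacts [Or.inr (mul_one _), Or.inl zz]
    · rw [e1, mul_assoc, e3]
      rcases h2 _ (mul_mem ha hb) with e | e <;> rw [e]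
      exacts [Or.inr (mul_one _), Or.inl zz]
    · rw [e1, mul_assoc, e2 _ m3, ← mul_assoc, zz, one_mul, e3]
      exact h2 _ (mul_mem ha hb)
  have sqV : ∀ b ∈ B, b * b ∈ S.V := fun b hb => by
    rcases h2 b hb with e | e <;> rw [e]
    exacts [one_mem _, S.z_mem]
  have k1 : ∀ b ∈ B, Nat.card ↥(B ⊓ S.V) ≤ 2 * Nat.card (Cv S.V b) := fun b hb =>
    (wcqa_half (K := B ⊓ S.V) zz (fun k hk => cz k hk.1) (fun k hk => cm k hk.1 b hb)).trans
      (Nat.mul_le_mul_left _ (card_le_of_le (inf_le_inf_right _ inf_le_right)))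
  have cb := S.card_bar hN
  rw [hc] at cb
  obtain ⟨b, hb, bV⟩ : ∃ b ∈ B, b ∉ S.V := by
    by_contra n
    push Not at n
    have := card_le_of_le (show B ≤ S.V from n)
    rw [hc, S.card_V] at this
    omega
  have k2 : Nat.card ↥(B ⊓ S.V) ≤ 256 := by
    have := k1 b hb
    rcases S.inv_card (hN hb) bV (sqV b hb) with ⟨-, e, -⟩ | ⟨e, -⟩ <;> omega
  have k3 : 32 ≤ Nat.card (S.bar B) := by
    by_contra n
    have := Nat.mul_le_mul k2 (Nat.lt_succ_iff.1 (not_le.1 n))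
    omega
  have k4 : ∀ {g k}, k = 63 ∨ k = 207 → H70.cj g (S.bar B) ≤ sg k → Nat.card ↥(B ⊓ S.V) ≤ 128 := by
    intro g k hk h
    obtain ⟨a, ha, a1, aA⟩ := wcqa_two hk h k3
    obtain ⟨c, hc, cN, rfl⟩ := S.mem_bar.1 ha
    have := k1 c hc
    rcases S.inv_card cN (fun e => a1 (S.p_V e)) (sqV c hc) with ⟨e, -⟩ | ⟨e, -⟩
    · exact absurd e aA
    · omega
  rcases ea5 (A := S.bar B) (fun g hg => by
      obtain ⟨c, hc, -, rfl⟩ := S.mem_bar.1 hg
      exact (hB hc).2) (fun g hg => by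
      obtain ⟨c, hc, cN, rfl⟩ := S.mem_bar.1 hg
      rw [← S.p_mul _ cN _ cN, S.p_V (sqV c hc)]) k3 with h | h | ⟨h, g, -, h'⟩
  · intro c hc
    refine ⟨hN hc, ?_⟩
    rw [if_pos hco]
    exact h (S.mem_bar.2 ⟨c, hc, hN hc, rfl⟩)
  · exfalso
    have k5 := k4 (g := 1) (Or.inr rfl) (by simpa using h)
    have k6 : B ⊓ S.V ≤ S.IX .oF := fun v hv => by
      have k7 := wcqa_half zz cz fun k hk => cm k hk v hv.1
      have k8 := card_le_of_le (inf_le_inf_right S.V (inf_le_left : B ⊓ centralizer ({v} : Set G) ≤ B))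
      refine S.fixX (y := .oF) hco (by decide) (B := B ⊓ centralizer ({v} : Set G))
        (fun c hc => ⟨hN hc.1, h (S.mem_bar.2 ⟨c, hc.1, hN hc.1, rfl⟩)⟩) (by omega) hv.2
        fun c hc => mem_centralizer_singleton_iff.1 hc.2
    have k7 := card_le_of_le k6
    rw [S.card_IX (y := .oF) hco] at k7
    have k8 := card_le_of_le h
    rw [card_sg (by simp), show pc 207 = 6 by decide +kernel] at k8
    have := Nat.mul_le_mul k7 k8
    rw [← cb] at this
    exact absurd this (by decide)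
  · exfalso
    have k5 := h'.elim (k4 (Or.inl rfl)) (k4 (Or.inr rfl))
    rw [h] at cb
    omega

end Cfsg.Agent.R24
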