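import Cfsg.Agent.R24.Base2
import Cfsg.Agent.R24.Base3
import Cfsg.Agent.R24.Inv
import Cfsg.Agent.R24.WCQa

/-! Project R24: the extraspecial group of order `2 ^ 13` is weakly closed. -/

set_option autoImplicit false

namespace Cfsg.Agent.R24

open Subgroup Cfsg.Agent.H14
open scoped commutatorElement

variable {G : Type*} [Group G] [Finite G] (S : St G)

omit [Finite G] in
theorem wcq_comm {Z : Subgroup G} {a b : G} (hb : b ∈ normalizer (Z : Set G)) (h1 : a * a ∈ Z) (h2 : b * b ∈ Z)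
    (h3 : a * b * (a * b) ∈ Z) : ⁅a, b⁆ ∈ Z := by
  have : ⁅a, b⁆ = a * b * (a * b) * (b⁻¹ * (a * a)⁻¹ * b) * (b * b)⁻¹ := by rw [commutatorElement_def]; group
  exact this ▸ mul_mem (mul_mem h3 (H70.conj_mem_of_mem_norm' hb (inv_mem h1))) (inv_mem h2)

omit [Finite G] in
theorem wcq_rel {A B : Subgroup G} : Nat.card ↥(A ⊓ B) * A.relIndex B = Nat.card B := by
  rw [← card_mul_index (A.subgroupOf B), ← inf_subgroupOf_right,
    Nat.card_congr (subgroupOfEquivOfLe inf_le_right).toEquiv, inf_subgroupOf_right, relIndex]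

/-- notes/R24.md, section WCQ -/
theorem St.wcq (hco : S.co = true) {B : Subgroup G} (hB : B ≤ S.T) (hz : S.z ∈ B)
    (h2 : ∀ b ∈ B, b * b = 1 ∨ b * b = S.z) (hc : Nat.card B = 8192) {Q : Subgroup G} (hQ : S.QD Q) : B = Q := by
  have BR := S.wcq_le hco hB hz h2 hc
  have RN : S.R ≤ S.N := S.pre_le _
  have nz : ∀ r ∈ S.R, r ∈ normalizer (zpowers S.z : Set G) := fun r hr => centralizer_le_normalizer _ (by
    rintro _ ⟨i, rfl⟩
    exact ((show Commute r S.z from mem_centralizer_singleton_iff.1 (S.T_le_M (S.R_le_T hr)).2).zpow_right i).eq.symm)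
  have mz : ∀ {x : G}, x = 1 ∨ x = S.z → x ∈ zpowers S.z := by
    rintro _ (rfl | rfl)
    exacts [one_mem _, mem_zpowers _]
  have mK : ∀ {v r : G}, r ∈ S.R → ⁅r, v⁆ ∈ zpowers S.z → r ∈ S.R ⊓ H70.relCent {v} (zpowers S.z) := fun hr h =>
    ⟨hr, nz _ hr, by rintro _ rfl; exact h⟩
  have VK : ∀ v ∈ S.V, S.V ≤ S.R ⊓ H70.relCent {v} (zpowers S.z) := fun v hv w hw =>
    mK (S.V_le_R hw) (by rw [commutatorElement_eq_one_iff_mul_comm.2 (S.comm hw hv)]; exact one_mem _)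
  have cB : ∀ a ∈ B, ∀ b ∈ B, ⁅a, b⁆ ∈ zpowers S.z := fun a ha b hb =>
    wcq_comm (nz b (BR hb)) (mz (h2 a ha)) (mz (h2 b hb)) (mz (h2 _ (mul_mem ha hb)))
  have BV : B ⊓ S.V ≤ S.VQ := fun v hv => by_contra fun hq => by
    have e : B = S.R ⊓ H70.relCent {v} (zpowers S.z) := eq_of_le_of_card_ge (fun b hb => mK (BR hb) (cB b hb v hv.1))
      (by rw [S.four_e hco hv.2 hq, hc])
    have : B ≤ S.V := fun b hb => by_contra fun hb' => by
      have c1 : Nat.card (Dv S.V b) ≤ Nat.card (zpowers S.z) := card_le_of_le ((closure_le _).2 (by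
        rintro _ ⟨w, hw, rfl⟩
        exact cB w (e ▸ VK v hv.2 hw) b hb))
      rw [Nat.card_zpowers, H15.orderOf_two S.z_ne S.z_sq] at c1
      have := S.inv_card (RN (BR hb)) hb' (zpowers_le.2 S.z_mem (mz (h2 b hb)))
      omega
    have := card_le_of_le this
    rw [S.card_V, hc] at this
    omega
  refine eq_of_le_of_card_ge (fun b hb => by_contra fun hq => ?_) (by rw [hQ.card, hc, hco]; rfl)
  obtain ⟨q, qQ, v, vV, rfl⟩ := hQ.sup b (BR hb)
  have vq : v ∉ S.VQ := fun h => hq (mul_mem qQ (hQ.inf.ge h).1)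
  obtain ⟨K, hK⟩ : ∃ K, K = S.R ⊓ H70.relCent {v} (zpowers S.z) := ⟨_, rfl⟩
  have k1 : ∀ c ∈ Q ⊓ B, c * q ∈ K := fun c hc => hK ▸ mK (hQ.le (mul_mem hc.1 qQ))
    (wcq_comm (nz v (S.V_le_R vV)) (mz (hQ.ex.sqr _ (mul_mem hc.1 qQ))) (mz (.inl (S.sq vV)))
      (mz (mul_assoc c q v ▸ h2 _ (mul_mem hc.2 hb))))
  have qK : q ∈ K := one_mul q ▸ k1 1 (one_mem _)
  have vK : S.V ≤ K := hK ▸ VK v vV
  have KN : K ≤ S.N := hK ▸ inf_le_left.trans RN
  have le : Q ⊓ B ≤ B ⊓ K := fun c hc => ⟨hc.2, (mul_mem_cancel_right qK).1 (k1 c hc)⟩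
  have c1 : Nat.card ↥(Q ⊓ B) < Nat.card ↥(B ⊓ K) := lt_of_not_ge fun h =>
    hq ((eq_of_le_of_card_ge le h).ge ⟨hb, mul_mem qK (vK vV)⟩).1
  have c2 := S.card_bar KN
  rw [inf_eq_right.2 vK, S.card_V, hK, S.four_e hco vV vq, ← hK] at c2
  have c3 := S.card_bar (inf_le_right.trans KN : B ⊓ K ≤ S.N)
  have c4 : Nat.card (S.bar (B ⊓ K)) ≤ Nat.card (S.bar K) := card_le_of_le (map_mono (comap_mono inf_le_right))
  have c5 : Nat.card ↥(B ⊓ K ⊓ S.V) ≤ Nat.card S.VQ := card_le_of_le ((inf_le_inf_right _ inf_le_left).trans BV)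
  have c6 := wcq_rel (A := Q) (B := S.R)
  rw [inf_eq_left.2 hQ.le, hQ.card, S.card_R, hco] at c6
  have c7 := wcq_rel (A := Q) (B := B)
  have c8 : Q.relIndex B ≤ Q.relIndex S.R := relIndex_le_of_le_right BR (by rintro e; simp [e] at c6)
  rw [S.card_VQ, hco] at c5
  simp only [if_true] at c5 c6
  have c9 := Nat.mul_le_mul c5 c4
  have c10 := Nat.mul_le_mul_left (Nat.card ↥(Q ⊓ B)) (c8.trans (show Q.relIndex S.R ≤ 16 by omega))
  omega

end Cfsg.Agent.R24
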