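import Cfsg.Agent.R24.Base1
import Cfsg.Agent.R24.Base2

/-! Project R24, section Wrong: the computations in the model. -/

set_option autoImplicit false

namespace Cfsg.Agent.R24

open Subgroup Cfsg.Agent.H14

namespace Wrong

noncomputable section

def mk (co : Bool) : ℕ := if co then 63 else 207
def LJ (co : Bool) : List ℕ := if co then [0, 8388615] else [0, 3704512, 4536592, 8241104]
def LU (co : Bool) : List ℕ := if co then [8536111, 12656663, 8657159, 11010247] else [8388615, 131083, 16397]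
def Lm (co : Bool) : List (ℕ × ℕ) := if co then [(6, 11)] else [(6, 11), (1, 2), (64, 128)]
def Lf (co : Bool) : List (ℕ × ℕ × ℕ) :=
  if co then [(0, 1, 2), (1, 18, 35), (2, 24, 44), (3, 16, 32), (4, 29, 38), (5, 17, 34), (6, 4, 8), (7, 22, 43),
    (8, 5, 10), (9, 19, 33), (10, 28, 36), (11, 21, 42), (12, 25, 46), (13, 20, 40), (14, 1, 2), (15, 23, 41)]
  else [(0, 1, 4), (1, 65, 133), (2, 2, 8), (3, 67, 143), (4, 3, 12), (5, 66, 138), (6, 1, 4), (7, 64, 128)]
def kb (co : Bool) (m : ℕ) : Bool := force m fun m => decide (Ker co m)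
def jb (co : Bool) (m : ℕ) : Bool := force m fun m => anyL (LJ co) fun j => kb co (m ^^^ j)
def ub (co : Bool) (m : ℕ) : Bool := force m fun m => allL (LU co) fun l => decide (pc (m &&& l) % 2 = 0)
def cl (co : Bool) (m : ℕ) : ℕ := (LU co).foldr (fun l acc => 2 * acc + pc (m &&& l) % 2) 0
def cg (P m : ℕ) : ℕ := force P fun P => m ^^^ im P m
def allG (co : Bool) (f : ℕ → Bool) : Bool := allN 10 fun i => bimp ((mk co).testBit i) (f (gen i))
def allX (co : Bool) (f : ℕ → Bool) : Bool := all2 32 64 fun x => force (rp co x) f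

theorem kb_iff {co : Bool} {m : ℕ} : kb co m = true ↔ Ker co m := by simp [kb]
theorem jb_iff {co : Bool} {m : ℕ} : jb co m = true ↔ ∃ j ∈ LJ co, Ker co (m ^^^ j) := by
  simp only [jb, force_eq, anyL_iff, kb_iff]
theorem ub_iff {co : Bool} {m : ℕ} : ub co m = true ↔ ∀ l ∈ LU co, pc (m &&& l) % 2 = 0 := by
  simp only [ub, force_eq, allL_iff, decide_eq_true_eq]
theorem cg_eq (P m : ℕ) : cg P m = m ^^^ im P m := force_eq _ _
theorem allG_iff {co : Bool} {f : ℕ → Bool} :
    allG co f = true ↔ ∀ i < 10, (mk co).testBit i = true → f (gen i) = true := by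
  simp only [allG, allN_iff, bimp_iff]
theorem allX_iff {co : Bool} {f : ℕ → Bool} : allX co f = true ↔ ∀ x < 2048, f (rp co x) = true := by
  simp only [allX, all2_iff, force_eq]

theorem m1' : ∀ co, (allL (LJ co) fun j => decide (Dom co j) && (ub co j && allG co fun P => kb co (cg P j))) = true := by
  decide +kernel
theorem m2' : ∀ co, (allX co fun m => bimp (ub co m) (allG co fun P => jb co (cg P m))) = true := by
  decide +kernel
theorem m3' : ∀ co, (allX co fun m => (if co then ub co m else jb co m) || anyL (Lm co) fun q =>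
    !kb co (cg (te q.1) m) && (!kb co (cg (te q.2) m) && !kb co (cg (te (q.1 ^^^ q.2)) m))) = true := by
  decide +kernel
theorem m4' : ∀ co, (allX co fun m => force (cl co m) fun c => anyL (Lf co) fun q =>
    Nat.beq q.1 c && (jb co (cg (te q.2.1) m) && jb co (cg (te q.2.2) m))) = true := by
  decide +kernel
theorem m5' : ∀ co, (allG co fun P => (allN 64 fun x => ub co (cg P (rp co x))) &&
    allN 32 fun y => ub co (cg P (rp co (64 * y)))) = true := by
  decide +kernel
theorem m6' : ∀ co, (all2 32 64 fun x => Nat.beq (rp co x) (rp co (x % 64) ^^^ rp co (64 * (x / 64)))) = true := by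
  decide +kernel

theorem LU_dom : ∀ co, ∀ l ∈ LU co, Dom (!co) l := by decide +kernel
theorem Lm_ok : ∀ co, ∀ q ∈ Lm co, q.1 &&& mk co = q.1 ∧ q.2 &&& mk co = q.2 := by decide +kernel
theorem Lf_ok : ∀ co, ∀ q ∈ Lf co, q.2.1 &&& mk co = q.2.1 ∧ q.2.2 &&& mk co = q.2.2 ∧
    (q.2.1 ≠ 0 ∧ q.2.1 < 1024) ∧ (q.2.2 ≠ 0 ∧ q.2.2 < 1024) ∧ q.2.1 ^^^ q.2.2 ≠ 0 ∧ q.2.1 ^^^ q.2.2 < 1024 := by
  decide +kernel
theorem mk_mem : ∀ co, mk co ∈ [1023, 511, 63, 207, 323, 3] := by decide
theorem mk_mem' : ∀ co, mk co ∈ [63, 207, 323] := by decide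
theorem pc_mk : ∀ co, 2 ^ pc (mk co) = 64 := by decide +kernel
theorem lt_of {co : Bool} {e : ℕ} (he : e &&& mk co = e) : e < 1024 := by
  have h1 : e &&& mk co ≤ mk co := Nat.and_le_right
  have h2 : mk co ≤ 207 := by cases co <;> decide
  omega

theorem m1 {co : Bool} {j : ℕ} (hj : j ∈ LJ co) : Dom co j ∧ ub co j = true ∧
    ∀ i < 10, (mk co).testBit i = true → Ker co (j ^^^ im (gen i) j) := by
  simpa only [Bool.and_eq_true, decide_eq_true_eq, allG_iff, kb_iff, cg_eq] using allL_iff.1 (m1' co) j hj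

theorem m2 {co : Bool} {x : ℕ} (hx : x < 2048) (h : ub co (rp co x) = true) :
    ∀ i < 10, (mk co).testBit i = true → jb co (rp co x ^^^ im (gen i) (rp co x)) = true := by
  simpa only [allG_iff, cg_eq] using bimp_iff.1 (allX_iff.1 (m2' co) x hx) h

theorem m3 {co : Bool} {x : ℕ} (hx : x < 2048) : (if co then ub co (rp co x) else jb co (rp co x)) = true ∨
    ∃ q ∈ Lm co, ¬ Ker co (rp co x ^^^ im (te q.1) (rp co x)) ∧ ¬ Ker co (rp co x ^^^ im (te q.2) (rp co x)) ∧
      ¬ Ker co (rp co x ^^^ im (te (q.1 ^^^ q.2)) (rp co x)) := by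
  simpa only [Bool.or_eq_true, anyL_iff, Bool.and_eq_true, Bool.not_eq_true', ← Bool.not_eq_true, kb_iff, cg_eq]
    using allX_iff.1 (m3' co) x hx

theorem m4 {co : Bool} {x : ℕ} (hx : x < 2048) : ∃ q ∈ Lf co,
    jb co (rp co x ^^^ im (te q.2.1) (rp co x)) = true ∧ jb co (rp co x ^^^ im (te q.2.2) (rp co x)) = true := by
  have := allX_iff.1 (m4' co) x hx
  simp only [force_eq, anyL_iff, Bool.and_eq_true, cg_eq] at this
  exact this.imp fun q h => ⟨h.1, h.2.2⟩

theorem m5 {co : Bool} {i : ℕ} (hi : i < 10) (hb : (mk co).testBit i = true) :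
    (∀ x < 64, ub co (rp co x ^^^ im (gen i) (rp co x)) = true) ∧
      ∀ y < 32, ub co (rp co (64 * y) ^^^ im (gen i) (rp co (64 * y))) = true := by
  simpa only [Bool.and_eq_true, allN_iff, cg_eq] using allG_iff.1 (m5' co) i hi hb

theorem m6 {co : Bool} {x : ℕ} (hx : x < 2048) : rp co x = rp co (x % 64) ^^^ rp co (64 * (x / 64)) :=
  beq_iff.1 (all2_iff.1 (m6' co) x hx)

end

end Wrong

end Cfsg.Agent.R24
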