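import Cfsg.Agent.R24.XBase
import Cfsg.Agent.H46.Generation

set_option autoImplicit false

namespace Cfsg.Agent.R24

open Subgroup Cfsg.Agent.H14

variable {X : Type*} [Group X] [Finite X] (Z : XS X)

theorem XA_perm : ∀ g : Equiv.Perm (Fin 6), Dd g →
    Dd (Equiv.swap 2 3 * Equiv.swap 3 4 * g * (Equiv.swap 2 3 * Equiv.swap 3 4)⁻¹) →
    Dd ((Equiv.swap 2 3 * Equiv.swap 3 4)⁻¹ * g * (Equiv.swap 2 3 * Equiv.swap 3 4)⁻¹⁻¹) →
    Equiv.Perm.sign g = 1 → g 0 = 0 ∧ g 1 = 1 ∧ g * g = 1 := by decide +kernel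

omit [Finite X] in
theorem XS.XA_C1 {a : X} (ha : a ∈ Z.N) (h0 : Z.θ a 0 = 0) (h1 : Z.θ a 1 = 1) : a ∈ Z.C1 :=
  mem_centralizer_singleton_iff.2 (by rw [← mul_inv_eq_iff_eq_mul, Z.θ_s a ha, h0, h1])

omit [Finite X] in
theorem XS.XA_w1 {e : X} (he : e ∈ zpowers Z.w) {n : ℕ} (h : e ^ 2 ^ n = 1) : e = 1 := by
  have h1 := orderOf_dvd_of_mem_zpowers he
  rw [Z.w3] at h1
  exact orderOf_eq_one_iff.1 (Nat.eq_one_of_dvd_coprimes (Nat.Coprime.pow_right n (by decide)) h1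
    (orderOf_dvd_of_pow_eq_one h))

/-- notes/R24.md, section XA -/
theorem XS.kk : ∃ K, Z.KK K := by
  obtain ⟨K, hK, k1, k2, -, nK⟩ := Z.o2
  have le : K ≤ Z.T := by
    have := Z.syl.eq_of_le (IsPGroup.to_sup_of_normal_right' Z.syl.isP hK (Z.T_le_C1.trans nK)) le_top le_sup_left
    exact this ▸ le_sup_right
  have cw : ∀ k ∈ K, k * Z.w = Z.w * k := fun k hk => by
    have e := Z.sgn k (Z.TN (le hk))
    split_ifs at e
    · exact mul_inv_eq_iff_eq_mul.1 e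
    · have wC : Z.w ∈ Z.C1 := mem_centralizer_singleton_iff.2 (Z.wV _ (Z.s_mem 0 1))
      have h1 := mul_mem (H42.conj_mem_of_mem_normalizer (nK wC) hk) (inv_mem hk)
      rw [show Z.w * k * Z.w⁻¹ * k⁻¹ = Z.w * (k * Z.w * k⁻¹)⁻¹ by group, e, inv_inv] at h1
      obtain ⟨n, hn⟩ := hK ⟨_, h1⟩
      have h2 : Z.w = 1 := Z.XA_w1 (mem_zpowers _) (n := n + 1)
        (by rw [pow_succ', pow_mul, pow_two]; exact congrArg Subtype.val hn)
      rw [h2, mul_one, one_mul]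
  refine ⟨K, le, nK, fun i j hi hj => ?_, k1, cw, fun k hk => ?_⟩
  · by_cases hij : i = j
    · rw [Z.s_one.2 hij]; exact one_mem _
    obtain ⟨a, ha, e⟩ := Z.θ_surj (Equiv.swap 2 i * Equiv.swap 3 (Equiv.swap 2 i j))
    obtain ⟨e0, e1, e2, e3⟩ : Z.θ a 0 = 0 ∧ Z.θ a 1 = 1 ∧ Z.θ a 2 = i ∧ Z.θ a 3 = j := by
      rw [e]; clear e; revert i j; decide
    have := H42.conj_mem_of_mem_normalizer (nK (Z.XA_C1 ha e0 e1)) k2
    rwa [Z.θ_s a ha, e2, e3] at this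
  · have kN := Z.TN (le hk)
    have sg := (Z.mem_Y kN).1 (mem_centralizer_singleton_iff.2 (cw k hk))
    obtain ⟨a, ha, e⟩ := Z.θ_surj (Equiv.swap 2 3 * Equiv.swap 3 4)
    have aC := Z.XA_C1 ha (by rw [e]; decide) (by rw [e]; decide)
    have d : ∀ b ∈ Z.N, b ∈ Z.C1 → Dd (Z.θ b * Z.θ k * (Z.θ b)⁻¹) := fun b hb hb' => by
      have := Z.θ_T _ (le (H42.conj_mem_of_mem_normalizer (nK hb') hk))
      rwa [Z.θ_mul _ (mul_mem hb kN) _ (inv_mem hb), Z.θ_mul _ hb _ kN, Z.θ_inv hb] at this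
    have d1 := d a ha aC
    have d2 := d _ (inv_mem ha) (inv_mem aC)
    rw [Z.θ_inv ha] at d2
    rw [e] at d1 d2
    obtain ⟨h0, h1, h2⟩ := XA_perm _ (Z.θ_T k (le hk)) d1 d2 sg
    exact ⟨h0, h1, h2, sg⟩

theorem XS.XA_odd {d : X} (h1 : d * Z.s 0 1 = Z.s 0 1 * d) (h2 : d * Z.s 2 3 = Z.s 2 3 * d)
    (ho : Odd (orderOf d)) : d ∈ zpowers Z.w := by
  have dN := Z.cW d h1 h2
  refine Z.odd_mem dN ?_ ho
  have h3 : d * Z.s 4 5 = Z.s 4 5 * d := by rw [← Z.s_all, ← mul_assoc, h1, mul_assoc, h2, mul_assoc]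
  have k : ∀ i j, d * Z.s i j = Z.s i j * d → i ≠ j → Z.θ d (Z.θ d i) = i ∧ Z.θ d (Z.θ d j) = j :=
    fun i j h hij => by
      rw [← mul_inv_eq_iff_eq_mul, Z.θ_s d dN, Z.s_eq] at h
      rcases h with h | h | h
      · exact absurd h.2 hij
      · rw [h.1, h.2, h.1, h.2]; exact ⟨rfl, rfl⟩
      · rw [h.1, h.2, h.1]; exact ⟨rfl, rfl⟩
  have e : Z.θ d ^ 2 = 1 := by
    obtain ⟨a0, a1⟩ := k 0 1 h1 (by decide)
    obtain ⟨a2, a3⟩ := k 2 3 h2 (by decide)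
    obtain ⟨a4, a5⟩ := k 4 5 h3 (by decide)
    rw [pow_two]
    refine Equiv.ext fun i => ?_
    fin_cases i
    exacts [a0, a1, a2, a3, a4, a5]
  let π : Z.N →* Equiv.Perm (Fin 6) := MonoidHom.mk' (fun a => Z.θ a) fun a b => Z.θ_mul _ a.2 _ b.2
  have e1 := orderOf_map_dvd π ⟨d, dN⟩
  rw [orderOf_mk] at e1
  exact orderOf_eq_one_iff.1 (Nat.eq_one_of_dvd_coprimes (Nat.coprime_two_left.2 ho)
    (orderOf_dvd_of_pow_eq_one e) e1)

/-- notes/R24.md, section XA -/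
theorem XS.wdet : Z.C1 ≤ normalizer (zpowers Z.w : Set X) := by
  obtain ⟨K, hK⟩ := Z.kk
  intro g hg
  have wD : Z.w ∈ centralizer (K : Set X) := hK.cw
  have h1 := H42.conj_mem_of_mem_normalizer (H42.normalizer_le_normalizer_centralizer _ (hK.norm hg)) wD
  have h2 := Z.XA_odd (h1 _ hK.mem01).symm (h1 _ (hK.mem 2 3 (by decide) (by decide))).symm (by
    rw [show orderOf (g * Z.w * g⁻¹) = orderOf Z.w from (MulAut.conj g).orderOf_eq Z.w, Z.w3]; decide)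
  refine H42.mem_normalizer_of_conj_mem ?_
  rintro _ ⟨k, rfl⟩
  rw [← conj_zpow]
  exact zpow_mem h2 k

/-- notes/R24.md, section XA -/
theorem XS.odd {B : Subgroup X} (hB : B.Normal) (h : Odd (Nat.card B)) : B ≤ zpowers Z.w := by
  obtain ⟨K, hK⟩ := Z.kk
  have oB : ∀ x ∈ B, Odd (orderOf x) := fun x hx => h.of_dvd_nat (orderOf_dvd_natCard _ hx)
  refine H46.le_of_forall_element (p := 2) (A := Z.V) (IsPGroup.of_card (n := 4) Z.card_V)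
    ⟨⟨fun a b => Subtype.ext (Z.comm a.2 b.2)⟩⟩ (fun hc => ?_)
    (fun h2 => Nat.not_even_iff_odd.2 h (even_iff_two_dvd.2 h2)) le_normalizer_of_normal fun a ha a1 x hx => ?_
  · obtain ⟨g, hg⟩ := hc.exists_ofOrder_eq_natCard
    have := orderOf_dvd_of_pow_eq_one (x := g) (n := 2) (Subtype.ext (by simpa [pow_two] using Z.sq g.2))
    rw [hg, Z.card_V] at this
    omega
  obtain ⟨c, hc, e⟩ := Z.duad ha a1
  have x1 := hB.conj_mem' x hx.1 c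
  have x2 : c⁻¹ * x * c * Z.s 0 1 = Z.s 0 1 * (c⁻¹ * x * c) := by
    calc _ = c⁻¹ * (x * a) * c := by rw [← e]; group
      _ = _ := by rw [mem_centralizer_singleton_iff.1 hx.2, ← e]; group
  have k23 := hK.mem 2 3 (by decide) (by decide)
  have x3 : c⁻¹ * x * c * Z.s 2 3 * (c⁻¹ * x * c)⁻¹ * (Z.s 2 3)⁻¹ = 1 := by
    have m1 := mul_mem (H42.conj_mem_of_mem_normalizer (hK.norm (mem_centralizer_singleton_iff.2 x2)) k23)
      (inv_mem k23)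
    have m2 := mul_mem x1 (hB.conj_mem _ (inv_mem x1) (Z.s 2 3))
    rw [← mul_assoc, ← mul_assoc] at m2
    obtain ⟨n, hn⟩ := Z.syl.isP ⟨_, hK.le m1⟩
    exact orderOf_eq_one_iff.1 (Nat.eq_one_of_dvd_coprimes
      (Nat.Coprime.pow_left n (Nat.coprime_two_left.2 (oB _ m2)))
      (orderOf_dvd_of_pow_eq_one (congrArg Subtype.val hn)) dvd_rfl)
  have := H42.conj_mem_of_mem_normalizer (Z.N_le hc.1)
    (Z.XA_odd x2 (mul_inv_eq_iff_eq_mul.1 (mul_inv_eq_one.1 x3)) (oB _ x1))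
  simpa [mul_assoc] using this

/-- notes/R24.md, section XA -/
theorem XS.xcent {x : X} (h : ∀ y ∈ Z.Y, x * y * x⁻¹ * y⁻¹ ∈ zpowers Z.w) : x ∈ zpowers Z.w := by
  have cw : ∀ y ∈ Z.Y, ∀ e ∈ zpowers Z.w, y * e = e * y := fun y hy e he => by
    obtain ⟨k, rfl⟩ := he
    exact ((show Commute y Z.w from mem_centralizer_singleton_iff.1 hy).zpow_right k).eq
  obtain ⟨v, hv, k, rfl⟩ := Z.cent_V (g := x) fun v hv => by
    have vY : v ∈ Z.Y := mem_centralizer_singleton_iff.2 (Z.wV v hv).symm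
    have h1 := h v vY
    have h2 := cw v vY _ h1
    have h3 : x * v * x⁻¹ * (x * v * x⁻¹) = 1 := by rw [conj_mul, Z.sq hv]; simp
    refine mul_inv_eq_iff_eq_mul.1 (mul_inv_eq_one.1 (Z.XA_w1 h1 (n := 1) ?_))
    rw [pow_one, pow_two]
    generalize x * v * x⁻¹ = y at *
    calc y * v⁻¹ * (y * v⁻¹) = y * v⁻¹ * (v * (y * v⁻¹)) * v⁻¹ := by rw [h2]; group
      _ = y * y * (v * v)⁻¹ := by group
      _ = 1 := by rw [h3, Z.sq hv]; simp
  have wk : Z.w ^ k ∈ zpowers Z.w := pow_mem (mem_zpowers _) k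
  have key : ∀ y ∈ Z.N ⊓ Z.Y, y * v * y⁻¹ = v := fun y hy => by
    have h1 := h y hy.2
    rw [show v * Z.w ^ k * y * (v * Z.w ^ k)⁻¹ * y⁻¹ = v * (Z.w ^ k * y) * (Z.w ^ k)⁻¹ * v⁻¹ * y⁻¹ by group,
      ← cw y hy.2 _ wk, show v * (y * Z.w ^ k) * (Z.w ^ k)⁻¹ * v⁻¹ * y⁻¹ = v * (y * v * y⁻¹)⁻¹ by group] at h1
    have h2 := Z.sq (mul_mem hv (inv_mem (H42.conj_mem_of_mem_normalizer hy.1 hv)))
    exact (mul_inv_eq_one.1 (Z.XA_w1 h1 (n := 1) (by rwa [pow_one, pow_two]))).symm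
  by_cases v1 : v = 1
  · rwa [v1, one_mul]
  obtain ⟨c, hc, e⟩ := Z.duad hv v1
  obtain ⟨c', hc', e'⟩ := Z.duad (Z.s_mem 2 3) fun e => absurd (Z.s_one.1 e) (by decide)
  have e1 : Z.s 0 1 = v := by rw [← key _ (inv_mem hc), ← e]; group
  rw [e1, key _ hc', ← e1, Z.s_eq] at e'
  exact absurd e' (by decide)

end Cfsg.Agent.R24
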