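import Cfsg.Agent.R24.Defs2

set_option autoImplicit false
set_option linter.unusedSectionVars false
set_option synthInstance.maxSize 4096

namespace Cfsg.Agent.R24

open Subgroup Cfsg.Agent.H14

variable {X : Type*} [Group X] [Finite X] (Z : XS X)

/-- notes/R24.md, section XBase -/
theorem XS.s_mem (i j : Fin 6) : Z.s i j ∈ Z.V := (Z.mem_V _).2 ⟨i, j, rfl⟩

theorem XS.s_self (i : Fin 6) : Z.s i i = 1 := mul_eq_left.1 (Z.s_mul i i i)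

theorem XS.s_symm (i j : Fin 6) : Z.s i j = Z.s j i := (Z.s_eq _ _ _ _).2 (.inr (.inr ⟨rfl, rfl⟩))

/-- notes/R24.md, section XBase -/
theorem XS.s_one {i j : Fin 6} : Z.s i j = 1 ↔ i = j := by
  rw [← Z.s_self i, Z.s_eq]
  tauto

/-- notes/R24.md, section XBase -/
theorem XS.sq {v : X} (hv : v ∈ Z.V) : v * v = 1 := by
  obtain ⟨i, j, rfl⟩ := (Z.mem_V v).1 hv
  rw [← Z.s_self i, ← Z.s_mul i j i, Z.s_symm j i]

theorem XS.inv_eq {v : X} (hv : v ∈ Z.V) : v⁻¹ = v := inv_eq_of_mul_eq_one_left (Z.sq hv)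

/-- notes/R24.md, section XBase -/
theorem XS.comm {a b : X} (ha : a ∈ Z.V) (hb : b ∈ Z.V) : a * b = b * a := by
  rw [← Z.inv_eq (mul_mem ha hb), mul_inv_rev, Z.inv_eq ha, Z.inv_eq hb]

namespace XBase

/-- one pair of indices for each member of `V` -/
abbrev Ix (p : Fin 6 × Fin 6) : Prop := p.1 < p.2 ∨ p = (0, 0)

/-- the pairs name the same member -/
abbrev Sm (i j k l : Fin 6) : Prop := (i = j ∧ k = l) ∨ (i = k ∧ j = l) ∨ (i = l ∧ j = k)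

theorem card_sub {H : Subgroup X} {P : Fin 6 → Fin 6 → Prop} [∀ i j, Decidable (P i j)]
    (h : ∀ i j, Z.s i j ∈ H ↔ P i j) :
    Nat.card ↥(Z.V ⊓ H) = (Finset.univ.filter fun p : Fin 6 × Fin 6 => Ix p ∧ P p.1 p.2).card := by
  rw [← Fintype.card_subtype, ← Nat.card_eq_fintype_card]
  refine (Nat.card_eq_of_bijective (fun p => ⟨Z.s p.1.1 p.1.2, Z.s_mem _ _, (h _ _).2 p.2.2⟩) ⟨fun p q e => ?_, ?_⟩).symm
  · exact Subtype.ext ((by decide +kernel : ∀ p q : Fin 6 × Fin 6, Ix p → Ix q → Sm p.1 p.2 q.1 q.2 → p = q) _ _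
      p.2.1 q.2.1 ((Z.s_eq _ _ _ _).1 (congrArg Subtype.val e)))
  · rintro ⟨v, hv, hH⟩
    obtain ⟨i, j, rfl⟩ := (Z.mem_V v).1 hv
    obtain ⟨p, hp, e⟩ := (by decide +kernel : ∀ i j, ∃ p : Fin 6 × Fin 6, Ix p ∧ Sm p.1 p.2 i j) i j
    have e' := (Z.s_eq _ _ _ _).2 e
    exact ⟨⟨p, hp, (h _ _).1 (e' ▸ hH)⟩, Subtype.ext e'⟩

theorem cen_N {g : X} (h : ∀ v ∈ Z.V, g * v = v * g) : g ∈ Z.N ∧ Z.θ g = 1 := by
  have hg : g ∈ Z.N := mem_normalizer_fintype fun v hv => by rwa [h v hv, mul_inv_cancel_right]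
  refine ⟨hg, (by decide +kernel : ∀ σ : Equiv.Perm (Fin 6), (∀ i j, Sm (σ i) (σ j) i j) → σ = 1) _ fun i j => ?_⟩
  rw [Sm, ← Z.s_eq, ← Z.θ_s g hg, h _ (Z.s_mem i j), mul_inv_cancel_right]

/-- the action on the six points -/
def th : Z.N →* Equiv.Perm (Fin 6) := MonoidHom.mk' (fun a => Z.θ a) fun a b => Z.θ_mul a a.2 b b.2

theorem w3 (k : ℕ) : (Z.w ^ k) ^ 3 = 1 := by rw [← pow_mul, mul_comm, pow_mul, ← Z.w3, pow_orderOf_eq_one, one_pow]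

theorem w1 {k n : ℕ} (h : (Z.w ^ k) ^ 2 ^ n = 1) : Z.w ^ k = 1 := by
  have := pow_gcd_eq_one.2 ⟨h, w3 Z k⟩
  rwa [Nat.Coprime.pow_left n (by decide), pow_one] at this

theorem vw {v : X} (hv : v ∈ Z.V) (k : ℕ) : Commute v (Z.w ^ k) := Commute.pow_right (Z.wV v hv).symm k

end XBase

open XBase

/-- notes/R24.md, section XBase -/
theorem XS.card_V : Nat.card Z.V = 16 := by
  have := card_sub Z (H := ⊤) (P := fun _ _ => True) (by simp)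
  rw [inf_top_eq] at this
  exact this.trans (by decide +kernel)

/-- notes/R24.md, section XBase -/
theorem XS.w_mem : Z.w ∈ Z.N ∧ Z.θ Z.w = 1 := cen_N Z Z.wV

/-- notes/R24.md, section XBase -/
theorem XS.θ_V {v : X} (hv : v ∈ Z.V) : Z.θ v = 1 := (cen_N Z fun _ h => Z.comm hv h).2

/-- notes/R24.md, section XBase -/
theorem XS.θ_inv {a : X} (ha : a ∈ Z.N) : Z.θ a⁻¹ = (Z.θ a)⁻¹ := map_inv (th Z) ⟨a, ha⟩

/-- notes/R24.md, section XBase -/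
theorem XS.cent_V {g : X} (h : ∀ v ∈ Z.V, g * v = v * g) : ∃ v ∈ Z.V, ∃ k : ℕ, g = v * Z.w ^ k :=
  Z.θ_one g (cen_N Z h).1 (cen_N Z h).2

/-- notes/R24.md, section XBase -/
theorem XS.two_mem {a : X} (ha : a ∈ Z.N) (h : Z.θ a = 1) {n : ℕ} (h2 : a ^ 2 ^ n = 1) : a ∈ Z.V := by
  obtain ⟨v, hv, k, rfl⟩ := Z.θ_one a ha h
  have : (v * Z.w ^ k) ^ 2 ^ (n + 1) = 1 := by rw [pow_succ, pow_mul, h2, one_pow]
  rw [(vw Z hv k).mul_pow, pow_succ', pow_mul, pow_two, Z.sq hv, one_pow, one_mul, ← pow_succ'] at this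
  rwa [w1 Z this, mul_one]

/-- notes/R24.md, section XBase -/
theorem XS.odd_mem {a : X} (ha : a ∈ Z.N) (h : Z.θ a = 1) (h2 : Odd (orderOf a)) : a ∈ zpowers Z.w := by
  obtain ⟨v, hv, k, rfl⟩ := Z.θ_one a ha h
  have e : (v * Z.w ^ k) ^ 3 = v := by rw [(vw Z hv k).mul_pow, XBase.w3 Z k, mul_one, pow_succ, pow_two, Z.sq hv, one_mul]
  have : v = 1 := orderOf_eq_one_iff.1 (Nat.Coprime.eq_one_of_dvd
    (Nat.coprime_two_right.2 (h2.of_dvd_nat (by have := orderOf_pow_dvd (x := v * Z.w ^ k) 3; rwa [e] at this))) (orderOf_dvd_of_pow_eq_one (by rw [pow_two, Z.sq hv])))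
  rw [this, one_mul]
  exact pow_mem (mem_zpowers _) k

/-- notes/R24.md, section XBase -/
theorem XS.mem_Y {a : X} (ha : a ∈ Z.N) : a ∈ Z.Y ↔ Equiv.Perm.sign (Z.θ a) = 1 := by
  rw [mem_centralizer_singleton_iff, ← mul_inv_eq_iff_eq_mul, Z.sgn a ha]
  split_ifs with h
  · simp [h]
  · refine iff_of_false (fun e => ?_) h
    have := orderOf_dvd_of_pow_eq_one (show Z.w ^ 2 = 1 by rw [pow_two, mul_eq_one_iff_inv_eq, e])
    rw [Z.w3] at this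
    omega

/-- notes/R24.md, section XBase -/
theorem XS.N_le : Z.N ≤ normalizer (zpowers Z.w : Set X) := fun a ha => mem_normalizer_fintype (by
  rintro _ ⟨k, rfl⟩
  rw [← conj_zpow, Z.sgn a ha]
  refine zpow_mem ?_ k
  split_ifs
  exacts [mem_zpowers _, inv_mem (mem_zpowers _)])

/-- notes/R24.md, section XBase -/
theorem XS.card_N : Nat.card Z.N = 34560 := by
  have hd : Disjoint Z.V (zpowers Z.w) := disjoint_of_coprime_natCard (by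
    rw [Z.card_V, Nat.card_zpowers, Z.w3]; decide)
  have m : ∀ p : Z.V × zpowers Z.w, (p.1 : X) * p.2 ∈ Z.N ∧ Z.θ (p.1 * p.2) = 1 := fun p => cen_N Z fun v hv =>
    Commute.mul_left (Z.comm p.1.2 hv) (by obtain ⟨k, e⟩ := p.2.2; exact e ▸ Commute.zpow_left (Z.wV v hv) k)
  have h1 : Nat.card (Z.V × zpowers Z.w) = Nat.card (th Z).ker :=
    Nat.card_eq_of_bijective (fun p => ⟨⟨_, (m p).1⟩, (m p).2⟩)
      ⟨fun p q e => mul_injective_of_disjoint hd (congrArg (fun x : (th Z).ker => (x : X)) e), fun a => by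
        obtain ⟨v, hv, k, e⟩ := Z.θ_one _ a.1.2 a.2
        exact ⟨(⟨v, hv⟩, ⟨_, pow_mem (mem_zpowers _) k⟩), Subtype.ext (Subtype.ext e.symm)⟩⟩
  rw [← (th Z).ker.card_mul_index, index_ker, ← h1, MonoidHom.range_eq_top.2 fun σ =>
    let ⟨a, ha, e⟩ := Z.θ_surj σ; ⟨⟨a, ha⟩, e⟩, card_top, Nat.card_prod, Z.card_V, Nat.card_zpowers, Z.w3, Nat.card_perm,
    Nat.card_fin]
  rfl

/-- notes/R24.md, section XBase -/
theorem XS.card_T : Nat.card Z.T = 256 := by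
  have h1 := H42.card_mul_relIndex Z.TN
  have h2 := (Z.syl.of_le Z.TN le_top).ndvd
  obtain ⟨n, hn⟩ := Z.syl.isP.exists_card_eq
  rw [Z.card_N, hn] at h1
  rw [hn]
  have : n < 16 := (Nat.pow_lt_pow_iff_right (a := 2) (by decide)).1 ((Nat.le_of_dvd (by decide) ⟨_, h1.symm⟩).trans_lt
    (by decide))
  interval_cases n <;> omega

theorem XS.T_two {a : X} (ha : a ∈ Z.T) : ∃ n, a ^ 2 ^ n = 1 :=
  let ⟨n, e⟩ := Z.syl.isP ⟨a, ha⟩; ⟨n, congrArg Subtype.val e⟩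

/-- notes/R24.md, section XBase -/
theorem XS.θ_T_surj {σ : Equiv.Perm (Fin 6)} (h : Dd σ) : ∃ a ∈ Z.T, Z.θ a = σ := by
  let f := (th Z).comp (inclusion Z.TN)
  have hk : f.ker = Z.V.subgroupOf Z.T := Subgroup.ext fun a =>
    ⟨fun e => let ⟨_, k⟩ := Z.T_two a.2; Z.two_mem (Z.TN a.2) e k, fun e => Z.θ_V e⟩
  have h1 := f.ker.card_mul_index
  rw [index_ker, hk, Nat.card_congr (subgroupOfEquivOfLe Z.VT).toEquiv, Z.card_V, Z.card_T] at h1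
  have h2 : (f.range : Set _) = {σ | Dd σ} := Set.eq_of_subset_of_ncard_le (fun _ ⟨a, e⟩ => e ▸ Z.θ_T a a.2) (by
    rw [← Nat.card_coe_set_eq, ← Nat.card_coe_set_eq, Nat.card_eq_fintype_card (α := {σ | Dd σ}),
      show Fintype.card {σ | Dd σ} = 16 by decide +kernel, SetLike.coe_sort_coe]
    omega)
  obtain ⟨a, e⟩ := h2.ge h
  exact ⟨a, a.2, e⟩

/-- notes/R24.md, section XBase -/
theorem XS.mem_T {a : X} (ha : a ∈ Z.N) (h : Dd (Z.θ a)) {n : ℕ} (h2 : a ^ 2 ^ n = 1) :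
    ∃ k : ℕ, Z.w ^ k * a * (Z.w ^ k)⁻¹ ∈ Z.T := by
  obtain ⟨t, ht, e⟩ := Z.θ_T_surj h
  obtain ⟨v, hv, k, e1⟩ := Z.θ_one _ (mul_mem ha (inv_mem (Z.TN ht))) (by
    rw [Z.θ_mul _ ha _ (inv_mem (Z.TN ht)), Z.θ_inv (Z.TN ht), e, mul_inv_cancel])
  rw [mul_inv_eq_iff_eq_mul, (vw Z hv k).eq, mul_assoc] at e1
  have hu := mul_mem (Z.VT hv) ht
  generalize v * t = u at e1 hu
  subst e1
  have hs := Z.sgn u (Z.TN hu)
  split_ifs at hs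
  · obtain ⟨m, hm⟩ := Z.T_two hu
    have c : Commute (Z.w ^ k) u := Commute.pow_left (mul_inv_eq_iff_eq_mul.1 hs).symm k
    have : (Z.w ^ k * u) ^ 2 ^ (m + n) = 1 := by rw [pow_add, mul_comm, pow_mul, h2, one_pow]
    rw [c.mul_pow, pow_add 2, pow_mul u, hm, one_pow, mul_one, ← pow_add] at this
    exact ⟨0, by rwa [w1 Z this, pow_zero, inv_one, mul_one, one_mul, one_mul]⟩
  · refine ⟨k, ?_⟩
    have : Z.w ^ k * (Z.w ^ k * u) * (Z.w ^ k)⁻¹ = Z.w ^ k * Z.w ^ k * (u * Z.w * u⁻¹)⁻¹ ^ k * u := by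
      rw [inv_pow, conj_pow]; group
    rwa [this, hs, inv_inv, ← pow_three', XBase.w3 Z k, one_mul]

/-- notes/R24.md, section XBase -/
theorem XS.T_le_C1 : Z.T ≤ Z.C1 := fun a ha => by
  rw [mem_centralizer_singleton_iff, ← mul_inv_eq_iff_eq_mul, Z.θ_s a (Z.TN ha), Z.s_eq]
  exact (by decide : ∀ i j : Fin 6, i.val / 2 = 0 → j.val / 2 = 0 → i ≠ j → Sm i j 0 1) _ _ (Z.θ_T a ha).1
    (Z.θ_T a ha).2.1 ((Z.θ a).injective.ne (by decide))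

/-- notes/R24.md, section XBase -/
theorem XS.card_T0 : Nat.card ↥(Z.T ⊓ Z.Y) = 128 := by
  let f := Equiv.Perm.sign.comp ((th Z).comp (inclusion Z.TN))
  have hk : f.ker = (Z.T ⊓ Z.Y).subgroupOf Z.T := Subgroup.ext fun a =>
    ⟨fun e => ⟨a.2, (Z.mem_Y (Z.TN a.2)).2 e⟩, fun e => (Z.mem_Y (Z.TN a.2)).1 e.2⟩
  have h1 := f.ker.card_mul_index
  obtain ⟨a, ha, e⟩ := Z.θ_T_surj (σ := Equiv.swap 0 1) (by decide)
  rw [index_ker, hk, Nat.card_congr (subgroupOfEquivOfLe inf_le_left).toEquiv, Z.card_T,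
    MonoidHom.range_eq_top.2 fun u => (Int.units_eq_one_or u).elim (fun e => ⟨1, e ▸ map_one f⟩) fun e' =>
      ⟨⟨a, ha⟩, show Equiv.Perm.sign (Z.θ a) = u by rw [e, e', Equiv.Perm.sign_swap (by decide)]⟩,
    card_top, Nat.card_eq_fintype_card (α := ℤˣ), Fintype.card_units_int] at h1
  omega

/-- notes/R24.md, section XBase -/
theorem XS.norm_le {B : Subgroup X} (h1 : Z.V ≤ B) (h2 : B ≤ Z.T) : normalizer (B : Set X) ≤ Z.N := fun g hg =>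
  mem_normalizer_fintype fun v hv => (Z.wc g (by
    rintro _ ⟨v, hv, rfl⟩
    exact h2 ((mem_normalizer_iff.1 hg v).1 (h1 hv)))).le ⟨v, hv, rfl⟩

theorem XS.lift_even {σ : Equiv.Perm (Fin 6)} (h : Equiv.Perm.sign σ = 1) : ∃ c ∈ Z.N ⊓ Z.Y, Z.θ c = σ :=
  let ⟨c, hc, e⟩ := Z.θ_surj σ; ⟨c, ⟨hc, (Z.mem_Y hc).2 (e ▸ h)⟩, e⟩

/-- notes/R24.md, section XBase -/
theorem XS.duad {v : X} (hv : v ∈ Z.V) (h1 : v ≠ 1) : ∃ c ∈ Z.N ⊓ Z.Y, c * Z.s 0 1 * c⁻¹ = v := by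
  obtain ⟨i, j, rfl⟩ := (Z.mem_V v).1 hv
  obtain ⟨σ, e1, e2, e3⟩ := (by decide +kernel : ∀ i j : Fin 6, i ≠ j → ∃ σ : Equiv.Perm (Fin 6),
    σ 0 = i ∧ σ 1 = j ∧ Equiv.Perm.sign σ = 1) i j fun e => h1 (Z.s_one.2 e)
  obtain ⟨c, hc, e⟩ := Z.lift_even e3
  exact ⟨c, hc, by rw [Z.θ_s c hc.1, e, e1, e2]⟩

theorem XBase.same {a b : X} (ha : a ∈ Z.N ⊓ Z.Y) (hb : b ∈ Z.N) (a2 : a * a = 1) (b2 : b * b = 1)
    (e1 : Z.θ a = Equiv.swap 2 3 * Equiv.swap 4 5) (e2 : Z.θ b = Equiv.swap 2 3 * Equiv.swap 4 5) :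
    ∃ u ∈ Z.V, u * a * u⁻¹ = b := by
  obtain ⟨v, hv, k, e⟩ := Z.θ_one _ (mul_mem hb (inv_mem ha.1)) (by
    rw [Z.θ_mul _ hb _ (inv_mem ha.1), Z.θ_inv ha.1, e1, e2, mul_inv_cancel])
  rw [mul_inv_eq_iff_eq_mul, (vw Z hv k).eq, mul_assoc] at e
  subst e
  have ai : a⁻¹ = a := inv_eq_of_mul_eq_one_left a2
  have c : Commute (Z.w ^ k) (v * a) :=
    (vw Z hv k).symm.mul_right (Commute.pow_left (mem_centralizer_singleton_iff.1 ha.2).symm k)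
  have h1 : (v * a) ^ 2 = v * (a * v * a⁻¹) := by rw [ai, pow_two]; group
  have h2 : (Z.w ^ k * (v * a)) ^ 2 ^ 2 = 1 := by rw [pow_two 2, pow_mul, pow_two (_ * _), b2, one_pow]
  rw [c.mul_pow, pow_two 2, pow_mul (v * a), h1, pow_two (v * _),
    Z.sq (mul_mem hv ((mem_normalizer_iff.1 ha.1 v).1 hv)), mul_one, ← pow_two 2] at h2
  rw [w1 Z h2, one_mul] at b2 ⊢
  rw [← pow_two, h1, mul_eq_one_iff_inv_eq, Z.inv_eq hv] at b2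
  suffices ∃ i j, Z.s i j * Z.s (Z.θ a i) (Z.θ a j) = v by
    obtain ⟨i, j, e⟩ := this
    exact ⟨_, Z.s_mem i j, by rw [← e, ← Z.θ_s a ha.1, Z.inv_eq (Z.s_mem i j)]; group⟩
  obtain ⟨i, j, rfl⟩ := (Z.mem_V v).1 hv
  rw [Z.θ_s a ha.1, Z.s_eq, e1] at b2
  rw [e1]
  rcases (by decide +kernel : ∀ i j : Fin 6, Sm i j ((Equiv.swap 2 3 * Equiv.swap 4 5 : Equiv.Perm (Fin 6)) i)
    ((Equiv.swap 2 3 * Equiv.swap 4 5 : Equiv.Perm (Fin 6)) j) → Sm 0 0 i j ∨ Sm 2 3 i j ∨ Sm 4 5 i j ∨ Sm 0 1 i j)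
    i j b2 with e | e | e | e <;> rw [← (Z.s_eq _ _ _ _).2 e]
  · exact ⟨0, 0, Z.s_mul 0 0 0⟩
  · exact ⟨0, 2, by rw [Z.s_symm 0 2]; exact Z.s_mul 2 0 3⟩
  · exact ⟨0, 4, by rw [Z.s_symm 0 4]; exact Z.s_mul 4 0 5⟩
  · refine ⟨2, 4, show Z.s 2 4 * Z.s 3 5 = _ from ?_⟩
    rw [← Z.s_mul 3 4 5, ← mul_assoc, Z.s_symm 3 4, Z.s_mul, ← Z.s_all, Z.comm (Z.s_mem 0 1) (Z.s_mem 2 3), ← mul_assoc,
      Z.sq (Z.s_mem 2 3), one_mul]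

/-- notes/R24.md, section XBase -/
theorem XS.inv_conj {a b : X} (ha : a ∈ Z.N ⊓ Z.Y) (hb : b ∈ Z.N ⊓ Z.Y) (a2 : a * a = 1) (b2 : b * b = 1)
    (a1 : a ∉ Z.V) (b1 : b ∉ Z.V) : ∃ c ∈ Z.N ⊓ Z.Y, c * a * c⁻¹ = b := by
  have k : ∀ {a : X}, a ∈ Z.N ⊓ Z.Y → a * a = 1 → a ∉ Z.V → ∃ c ∈ Z.N ⊓ Z.Y, c * a * c⁻¹ * (c * a * c⁻¹) = 1 ∧
      Z.θ (c * a * c⁻¹) = Equiv.swap 2 3 * Equiv.swap 4 5 := fun {a} ha a2 a1 => by
    obtain ⟨ρ, e1, e2⟩ := (by decide +kernel : ∀ σ : Equiv.Perm (Fin 6), σ * σ = 1 → σ ≠ 1 → Equiv.Perm.sign σ = 1 →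
      ∃ ρ : Equiv.Perm (Fin 6), ρ * σ = Equiv.swap 2 3 * Equiv.swap 4 5 * ρ ∧ Equiv.Perm.sign ρ = 1) (Z.θ a)
      (by rw [← Z.θ_mul a ha.1 a ha.1, a2, Z.θ_V (one_mem _)])
      (fun e => a1 (Z.two_mem ha.1 e (n := 1) (by rw [pow_one, pow_two, a2]))) ((Z.mem_Y ha.1).1 ha.2)
    obtain ⟨c, hc, rfl⟩ := Z.lift_even e2
    exact ⟨c, hc, by rw [conj_mul, a2]; simp, by
      rw [Z.θ_mul _ (mul_mem hc.1 ha.1) _ (inv_mem hc.1), Z.θ_mul _ hc.1 _ ha.1, Z.θ_inv hc.1, e1, mul_inv_cancel_right]⟩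
  obtain ⟨c, hc, c1, c2⟩ := k ha a2 a1
  obtain ⟨d, hd, d1, d2⟩ := k hb b2 b1
  obtain ⟨u, hu, e⟩ := same Z (mul_mem (mul_mem hc ha) (inv_mem hc)) (mul_mem (mul_mem hd hb) (inv_mem hd)).1 c1 d1 c2 d2
  refine ⟨d⁻¹ * u * c, mul_mem (mul_mem (inv_mem hd) ⟨le_normalizer hu,
    mem_centralizer_singleton_iff.2 (Z.wV u hu).symm⟩) hc, ?_⟩
  calc _ = d⁻¹ * (u * (c * a * c⁻¹) * u⁻¹) * d := by group
    _ = b := by rw [e]; group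

/-- notes/R24.md, section XBase -/
theorem XS.card_fix {a : X} (ha : a ∈ Z.N ⊓ Z.Y) (a2 : Z.θ a * Z.θ a = 1) (a1 : Z.θ a ≠ 1) :
    Nat.card ↥(Z.V ⊓ centralizer ({a} : Set X)) = 4 := by
  rw [card_sub Z (P := fun i j => Sm (Z.θ a i) (Z.θ a j) i j) fun i j => by
    rw [mem_centralizer_singleton_iff, eq_comm, ← mul_inv_eq_iff_eq_mul, Z.θ_s a ha.1, Z.s_eq]]
  exact (by decide +kernel : ∀ σ : Equiv.Perm (Fin 6), σ * σ = 1 → σ ≠ 1 → Equiv.Perm.sign σ = 1 →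
    (Finset.univ.filter fun p : Fin 6 × Fin 6 => Ix p ∧ Sm (σ p.1) (σ p.2) p.1 p.2).card = 4) _ a2 a1
    ((Z.mem_Y ha.1).1 ha.2)

end Cfsg.Agent.R24
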