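import Cfsg.Agent.R24.XBase

set_option autoImplicit false

namespace Cfsg.Agent.R24

open Subgroup Cfsg.Agent.H14

variable {X : Type*} [Group X] [Finite X] (Z : XS X)

theorem XD2_c8 : (Finset.univ.filter fun g : Equiv.Perm (Fin 6) => Dd g ∧ Equiv.Perm.sign g = 1).card = 8 := by
  decide +kernel

theorem XD2_c6 : (Finset.univ.filter fun g : Equiv.Perm (Fin 6) =>
    Dd g ∧ g * g = 1 ∧ Equiv.Perm.sign g = 1).card = 6 := by decide +kernel

theorem XD2_four : ∀ g : Equiv.Perm (Fin 6), Dd g → g * g * (g * g) = 1 := by decide +kernel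

theorem XD2_le {S : Subgroup (Equiv.Perm (Fin 6))} (F : Finset (Equiv.Perm (Fin 6))) (h : ∀ g ∈ S, g ∈ F) :
    Nat.card S ≤ F.card := by
  rw [← Set.ncard_coe_finset]
  exact Set.ncard_le_ncard (s := (S : Set (Equiv.Perm (Fin 6)))) (t := F) fun g hg => h g hg

/-- the action on the six points -/
def XS.XD2_φ {B : Subgroup X} (h : B ≤ Z.T) : B →* Equiv.Perm (Fin 6) :=
  MonoidHom.mk' (fun a => Z.θ a) fun a b => Z.θ_mul _ (Z.TN (h a.2)) _ (Z.TN (h b.2))

theorem XS.XD2_card {B : Subgroup X} (h : B ≤ Z.T) :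
    Nat.card B = Nat.card (Z.XD2_φ h).range * Nat.card (B ⊓ Z.V : Subgroup X) := by
  have k : (Z.XD2_φ h).ker = (B ⊓ Z.V).subgroupOf B := by
    ext y
    obtain ⟨n, hn⟩ := Z.syl.isP ⟨y, h y.2⟩
    exact ⟨fun hy => ⟨y.2, Z.two_mem (Z.TN (h y.2)) hy (n := n) (congrArg Subtype.val hn)⟩,
      fun hy => Z.θ_V hy.2⟩
  rw [← (Z.XD2_φ h).ker.index_mul_card, index_ker, k,
    Nat.card_congr (subgroupOfEquivOfLe inf_le_left).toEquiv]

theorem XS.XD2_key {B M : Subgroup X} (hB : B ≤ Z.T ⊓ Z.Y) (hM : M ≤ B) (sq : ∀ b ∈ B, b * b ∈ M) :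
    Nat.card B ≤ 16 * Nat.card M := by
  have hT : B ≤ Z.T := hB.trans inf_le_left
  have sg : ∀ b ∈ B, Equiv.Perm.sign (Z.θ b) = 1 := fun b hb => (Z.mem_Y (Z.TN (hT hb))).1 (hB hb).2
  have pM : 0 < Nat.card M := Nat.card_pos
  by_cases h1 : ∀ b ∈ B, Z.θ b = 1
  · have : B ≤ Z.V := fun b hb => by
      obtain ⟨n, hn⟩ := Z.syl.isP ⟨b, hT hb⟩
      exact Z.two_mem (Z.TN (hT hb)) (h1 b hb) (n := n) (congrArg Subtype.val hn)
    have := card_le_of_le this
    rw [Z.card_V] at this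
    omega
  obtain ⟨x, hx, x2, x1⟩ : ∃ x ∈ B, Z.θ x * Z.θ x = 1 ∧ Z.θ x ≠ 1 := by
    push Not at h1
    obtain ⟨b, hb, b1⟩ := h1
    by_cases b2 : Z.θ b * Z.θ b = 1
    · exact ⟨b, hb, b2, b1⟩
    · have e := Z.θ_mul _ (Z.TN (hT hb)) _ (Z.TN (hT hb))
      exact ⟨b * b, mul_mem hb hb, by rw [e]; exact XD2_four _ (Z.θ_T b (hT hb)), by rwa [e]⟩
  have xN := Z.TN (hT hx)
  have c1 : Nat.card (B ⊓ Z.V : Subgroup X) ≤ 4 * Nat.card (M ⊓ Z.V : Subgroup X) := by
    let δ : (B ⊓ Z.V : Subgroup X) →* (M ⊓ Z.V : Subgroup X) := MonoidHom.mk'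
      (fun v => ⟨x⁻¹ * v * x * (v : X)⁻¹, mem_inf.2 ⟨by
        convert mul_mem (mul_mem (inv_mem (sq x hx)) (sq _ (mul_mem hx v.2.1))) (inv_mem (sq _ v.2.1)) using 1
        group, mul_mem (by simpa using H42.conj_mem_of_mem_normalizer (inv_mem xN) v.2.2) (inv_mem v.2.2)⟩⟩)
      fun a b => Subtype.ext (by
        have h1 : x⁻¹ * b * x * (b : X)⁻¹ ∈ Z.V :=
          mul_mem (by simpa using H42.conj_mem_of_mem_normalizer (inv_mem xN) b.2.2) (inv_mem b.2.2)
        have := Z.comm (inv_mem a.2.2) h1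
        push_cast
        rw [mul_assoc _ (a : X)⁻¹, this]
        group)
    have k1 : Nat.card δ.ker ≤ 4 := by
      rw [← Z.card_fix ⟨xN, (hB hx).2⟩ x2 x1]
      refine Nat.card_le_card_of_injective (fun v => ⟨v.1.1, mem_inf.2 ⟨v.1.2.2,
        mem_centralizer_singleton_iff.2 ?_⟩⟩) fun a b e => Subtype.ext (Subtype.ext (by simpa using e))
      have e : x⁻¹ * v.1.1 * x * (v.1.1 : X)⁻¹ = 1 := congrArg Subtype.val v.2
      rw [mul_inv_eq_one] at e
      conv_rhs => rw [← e]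
      group
    rw [← δ.ker.index_mul_card, index_ker, mul_comm]
    exact Nat.mul_le_mul k1 (card_le_card_group _)
  have c2 : Nat.card (Z.XD2_φ hT).range ≤ 4 * Nat.card (Z.XD2_φ (hM.trans hT)).range := by
    have p : 0 < Nat.card (Z.XD2_φ (hM.trans hT)).range := Nat.card_pos
    by_cases h2 : ∀ b ∈ B, Z.θ b * Z.θ b = 1
    · have l6 := XD2_le (S := (Z.XD2_φ hT).range) _ (by
        rintro _ ⟨b, rfl⟩
        exact Finset.mem_filter.2 ⟨Finset.mem_univ _, Z.θ_T b (hT b.2), h2 b b.2, sg b b.2⟩) |>.trans XD2_c6.le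
      obtain ⟨n, hn⟩ := ((Z.syl.isP.to_le hT).of_surjective _ (Z.XD2_φ hT).rangeRestrict_surjective).exists_card_eq
      rw [hn] at l6 ⊢
      have : n ≤ 2 := by
        by_contra hc
        have := Nat.pow_le_pow_right two_pos (show 3 ≤ n by omega)
        omega
      have := Nat.pow_le_pow_right two_pos this
      omega
    · have l8 := XD2_le (S := (Z.XD2_φ hT).range) _ (by
        rintro _ ⟨b, rfl⟩
        exact Finset.mem_filter.2 ⟨Finset.mem_univ _, Z.θ_T b (hT b.2), sg b b.2⟩) |>.trans XD2_c8.le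
      push Not at h2
      obtain ⟨b, hb, b2⟩ := h2
      have : 1 < Nat.card (Z.XD2_φ (hM.trans hT)).range := (one_lt_card_iff_ne_bot _).2 fun e => b2 (by
        have : Z.XD2_φ (hM.trans hT) ⟨_, sq b hb⟩ ∈ (Z.XD2_φ (hM.trans hT)).range := ⟨_, rfl⟩
        rw [e, mem_bot] at this
        rw [← Z.θ_mul _ (Z.TN (hT hb)) _ (Z.TN (hT hb))]
        exact this)
      omega
  rw [Z.XD2_card hT, Z.XD2_card (hM.trans hT)]
  exact (Nat.mul_le_mul c2 c1).trans (le_of_eq (by ring))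

theorem XS.XD2_syl : H42.SylIn 2 (Z.T ⊓ Z.Y) Z.Y := by
  refine (Z.syl.of_le (Z.TN.trans Z.N_le) le_top).inf_normal ?_ ?_
  · rw [XS.Y, ← centralizer_closure, ← zpowers_eq_closure]
    exact centralizer_le_normalizer _
  · rw [XS.Y, ← centralizer_closure, ← zpowers_eq_closure]
    exact H42.normalizer_le_normalizer_centralizer _

theorem XS.XD2_gen {Γ A : Type*} [Group Γ] [Group A] (hΓ : IsPGroup 2 Γ) (ι : Γ →* X)
    (hι : Function.Injective ι) (hY : ∀ γ, ι γ ∈ Z.Y) (ψ : Γ →* A) (hψ : Function.Surjective ψ)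
    (sq : ∀ a : A, a * a = 1) : Nat.card A ≤ 16 := by
  have := Finite.of_injective ι hι
  obtain ⟨g, -, hg⟩ := Z.XD2_syl.exists_conj (hΓ.of_surjective _ ι.rangeRestrict_surjective)
    (by rintro _ ⟨γ, rfl⟩; exact hY γ)
  let κ : Γ →* X := (MulAut.conj g).toMonoidHom.comp ι
  have hκ : Function.Injective κ := (MulAut.conj g).injective.comp hι
  have k := Z.XD2_key (B := (⊤ : Subgroup Γ).map κ) (M := ψ.ker.map κ)
    (by rintro _ ⟨γ, -, rfl⟩; exact hg _ ⟨γ, rfl⟩) (map_mono le_top) (by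
      rintro _ ⟨γ, -, rfl⟩
      exact ⟨γ * γ, by rw [SetLike.mem_coe, MonoidHom.mem_ker, map_mul, sq], map_mul _ _ _⟩)
  rw [card_map_of_injective hκ, card_map_of_injective hκ, card_top, ← ψ.ker.index_mul_card, index_ker,
    MonoidHom.range_eq_top.2 hψ, card_top] at k
  exact Nat.le_of_mul_le_mul_right k Nat.card_pos

/-- notes/R24.md, section XD2 -/
theorem XS.sect {L : Type*} [Group L] {f : Z.Y →* L} (hf : Z.Quo f) : SectionalPRankLE 2 4 L := by
  intro H N _ A _ hA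
  let φ : H.comap f →* H ⧸ N := (QuotientGroup.mk' N).comp (f.subgroupComap H)
  have hφ : Function.Surjective φ :=
    (QuotientGroup.mk'_surjective N).comp (f.subgroupComap_surjective_of_surjective H hf.surj)
  have hψ := φ.subgroupComap_surjective_of_surjective A hφ
  have sq : ∀ a : A, a * a = 1 := fun a => Subtype.ext (by simpa [pow_two] using hA a a.2)
  have := Finite.of_surjective _ hψ
  obtain ⟨P⟩ : Nonempty (Sylow 2 (A.comap φ)) := inferInstance
  have e : (P : Subgroup (A.comap φ)).map (φ.subgroupComap A) = ⊤ :=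
    ((P.mapSurjective hψ).is_maximal' (IsPGroup.to_subgroup (fun a => ⟨1, by rw [pow_one, pow_two, sq]⟩) ⊤)
      le_top).symm
  refine Z.XD2_gen P.isPGroup' (Z.Y.subtype.comp ((H.comap f).subtype.comp ((A.comap φ).subtype.comp
    (P : Subgroup (A.comap φ)).subtype))) (fun a b e => Subtype.ext (Subtype.ext (Subtype.ext (Subtype.ext e))))
    (fun γ => γ.1.1.1.2) ((φ.subgroupComap A).comp (P : Subgroup (A.comap φ)).subtype) (fun a => ?_) sq
  obtain ⟨y, hy, rfl⟩ : a ∈ (P : Subgroup (A.comap φ)).map (φ.subgroupComap A) := e ▸ mem_top a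
  exact ⟨⟨y, hy⟩, rfl⟩

end Cfsg.Agent.R24
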