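/-
Project R24 (notes/R24.md), section XE: sifting the list of groups by order and involution classes.
-/
import Cfsg.Agent.R24.Defs2
import Cfsg.Agent.S0243
import Cfsg.Agent.S0245
import Cfsg.Agent.S0246
import Cfsg.Agent.S1059

set_option autoImplicit false

namespace Cfsg.Agent.R24

open Subgroup Cfsg.Agent.H14

theorem xe_psp {F : Type} [Field F] [Fintype F] (hF : Fintype.card F = 3) : Nat.card (PSp 2 F) = 25920 := by
  have h1 := S0245.result hF 2
  have h2 := S0246.result hF 2 (by norm_num)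
  have h3 := Subgroup.card_eq_card_quotient_mul_card_subgroup (Subgroup.center (Matrix.symplecticGroup (Fin 2) F))
  rw [h1, h2] at h3
  have e1 : 3 ^ 2 ^ 2 * ∏ i ∈ Finset.range 2, (3 ^ (2 * (i + 1)) - 1) = 51840 := by decide +kernel
  have e2 : Nat.gcd 2 (3 - 1) = 2 := by decide
  rw [e1, e2] at h3
  change Nat.card (Matrix.symplecticGroup (Fin 2) F ⧸ Subgroup.center (Matrix.symplecticGroup (Fin 2) F)) = _
  omega

theorem xe_alt {n : ℕ} (hn : 8 ≤ n)
    (h : ∀ a b : alternatingGroup (Fin n), orderOf a = 2 → orderOf b = 2 → IsConj a b) : False := by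
  obtain ⟨k, rfl⟩ : ∃ k, n = k + 8 := ⟨n - 8, by omega⟩
  let f : Fin 8 ↪ Fin (k + 8) := ⟨fun i => ⟨i, by omega⟩, fun i j e => Fin.ext (by simpa using e)⟩
  let φ := Equiv.Perm.viaEmbeddingHom f
  have hφ : Function.Injective φ := Equiv.Perm.viaEmbeddingHom_injective f
  let a : Equiv.Perm (Fin 8) := Equiv.swap 0 1 * Equiv.swap 2 3
  let b : Equiv.Perm (Fin 8) := Equiv.swap 0 1 * Equiv.swap 2 3 * (Equiv.swap 4 5 * Equiv.swap 6 7)
  have hc : ∀ g : Equiv.Perm (Fin 8), (φ g).cycleType = g.cycleType := fun g => by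
    simp only [φ, Equiv.Perm.viaEmbeddingHom_apply, Equiv.Perm.viaEmbedding]
    convert Equiv.Perm.cycleType_extendDomain _
  have hs : ∀ g : Equiv.Perm (Fin 8), Equiv.Perm.sign (φ g) = Equiv.Perm.sign g := fun g => by
    rw [Equiv.Perm.sign_of_cycleType, Equiv.Perm.sign_of_cycleType, hc]
  have ho : ∀ g : Equiv.Perm (Fin 8), g * g = 1 → g ≠ 1 → ∀ hg : φ g ∈ alternatingGroup (Fin (k + 8)),
      orderOf (⟨φ g, hg⟩ : alternatingGroup (Fin (k + 8))) = 2 := fun g h1 h2 hg => by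
    rw [← Subgroup.orderOf_coe, orderOf_injective φ hφ]
    exact orderOf_eq_prime (by rw [pow_two, h1]) h2
  have ha : φ a ∈ alternatingGroup (Fin (k + 8)) := by
    rw [Equiv.Perm.mem_alternatingGroup, hs]; decide
  have hb : φ b ∈ alternatingGroup (Fin (k + 8)) := by
    rw [Equiv.Perm.mem_alternatingGroup, hs]; decide
  have c := (alternatingGroup (Fin (k + 8))).subtype.map_isConj
    (h _ _ (ho a (by decide) (by decide) ha) (ho b (by decide) (by decide) hb))
  have e : a.cycleType = b.cycleType := by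
    rw [← hc, ← hc]; exact Equiv.Perm.isConj_iff_cycleType_eq.1 c
  have e2 := congrArg Multiset.sum e
  rw [Equiv.Perm.sum_cycleType, Equiv.Perm.sum_cycleType] at e2
  revert e2
  decide

/-- notes/R24.md, section XE -/
theorem xe {L : Type*} [Group L] [Finite L] (h1 : ∀ a b : L, orderOf a = 2 → orderOf b = 2 → IsConj a b)
    (h2 : 128 ∣ Nat.card L) (h13 : ¬ 13 ∣ Nat.card L)
    (h : (∃ (F : Type) (_ : Field F) (_ : Fintype F), Fintype.card F = 3 ∧
        (Nonempty (L ≃* Matrix.ProjectiveSpecialLinearGroup (Fin 4) F) ∨ Nonempty (L ≃* PSp 2 F) ∨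
          Nonempty (L ≃* ↥(Lie.chevG2.group F)))) ∨
      (∃ (F : Type) (_ : Field F) (_ : Fintype F), Fintype.card F = 9 ∧ Nonempty (L ≃* PSU 4 F 3)) ∨
      (∃ (F : Type) (_ : Field F) (_ : Fintype F), Fintype.card F = 4 ∧
        Nonempty (L ≃* Matrix.ProjectiveSpecialLinearGroup (Fin 3) F)) ∨
      (∃ n : ℕ, 8 ≤ n ∧ n ≤ 11 ∧ Nonempty (L ≃* ↥(alternatingGroup (Fin n)))) ∨ Spor.IsoM22 L) :
    (∃ (F : Type) (_ : Field F) (_ : Fintype F), Fintype.card F = 9 ∧ Nonempty (L ≃* PSU 4 F 3)) ∨ Spor.IsoM22 L := by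
  rcases h with ⟨F, _, _, hF, ⟨⟨e⟩⟩ | ⟨⟨e⟩⟩ | ⟨⟨e⟩⟩⟩ | h | ⟨F, _, _, hF, ⟨e⟩⟩ | ⟨n, hn, -, ⟨e⟩⟩ | h
  · exfalso
    have k := S0243.result hF 4 (by norm_num)
    have e1 : ∏ i : Fin 4, (3 ^ 4 - 3 ^ (i : ℕ)) = 24261120 := by decide +kernel
    have e2 : Nat.gcd 4 (3 - 1) = 2 := by decide
    rw [e1, e2, ← Nat.card_congr e.toEquiv] at k
    omega
  · exfalso
    rw [Nat.card_congr e.toEquiv, xe_psp hF] at h2
    omega
  · exfalso
    rw [Nat.card_congr e.toEquiv, S1059.result hF] at h13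
    exact h13 (by decide +kernel)
  · exact Or.inl h
  · exfalso
    have k := S0243.result hF 3 (by norm_num)
    have e1 : ∏ i : Fin 3, (4 ^ 3 - 4 ^ (i : ℕ)) = 181440 := by decide +kernel
    have e2 : Nat.gcd 3 (4 - 1) = 3 := by decide
    rw [e1, e2, ← Nat.card_congr e.toEquiv] at k
    omega
  · exfalso
    refine xe_alt hn fun a b ha hb => ?_
    have c := e.toMonoidHom.map_isConj (h1 (e.symm a) (e.symm b)
      ((e.symm.orderOf_eq a).trans ha) ((e.symm.orderOf_eq b).trans hb))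
    simpa using c
  · exact Or.inr h

end Cfsg.Agent.R24
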