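import Cfsg.Agent.R24.XA
import Cfsg.Agent.R24.XBase
import Cfsg.Agent.S0144

set_option autoImplicit false

namespace Cfsg.Agent.R24

open Subgroup Cfsg.Agent.H14

variable {X : Type*} [Group X] [Finite X] (Z : XS X)

namespace XSolvAux

open Equiv

omit [Finite X] in
open Classical in
theorem fix_modEq {p : ℕ} [Fact p.Prime] {g : X} (h1 : g ^ p = 1) (S : Finset X)
    (hS : ∀ x ∈ S, g * x * g⁻¹ ∈ S) :
    S.card ≡ (S.filter fun x => g * x * g⁻¹ = x).card [MOD p] := by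
  let f : Function.End S := fun d => ⟨g * d * g⁻¹, hS d d.2⟩
  have k : ∀ (n : ℕ) (d : S), ((f ^ n) d : X) = g ^ n * d * (g ^ n)⁻¹ := fun n => by
    induction n with
    | zero => intro d; simp; rfl
    | succ n ih =>
      intro d
      rw [pow_succ, pow_succ]
      exact (ih (f d)).trans (by simp only [f]; group)
  have := Perm.card_fixedPoints_modEq (f := f) (p := p) (n := 1) (by
    funext d
    apply Subtype.ext
    rw [pow_one, k, h1]; simp; rfl)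
  rw [Fintype.card_coe, ← Nat.card_eq_fintype_card] at this
  rwa [Nat.card_congr (α := Function.fixedPoints f) (β := (S.filter fun x => g * x * g⁻¹ = x))
    ⟨fun d => ⟨d.1.1, Finset.mem_filter.2 ⟨d.1.2, congrArg Subtype.val d.2⟩⟩,
      fun d => ⟨⟨d.1, (Finset.mem_filter.1 d.2).1⟩, Subtype.ext (Finset.mem_filter.1 d.2).2⟩,
      fun _ => rfl, fun _ => rfl⟩, Nat.card_eq_fintype_card, Fintype.card_coe] at this

/-- the names of the eight members of `K ⊓ V` -/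
def PL : Finset (Fin 6 × Fin 6) := {(0, 0), (0, 1), (2, 3), (2, 4), (2, 5), (3, 4), (3, 5), (4, 5)}
/-- the four-group -/
def V4 : Finset (Perm (Fin 6)) := {1, swap 2 3 * swap 4 5, swap 2 4 * swap 3 5, swap 2 5 * swap 3 4}
def Eq' (i j k l : Fin 6) : Prop := (i = j ∧ k = l) ∨ (i = k ∧ j = l) ∨ (i = l ∧ j = k)
instance (i j k l : Fin 6) : Decidable (Eq' i j k l) := by unfold Eq'; infer_instance
def ta : Perm (Fin 6) := swap 2 3 * swap 3 4

theorem mem_V4 : ∀ σ : Perm (Fin 6), σ 0 = 0 → σ 1 = 1 → σ * σ = 1 → Perm.sign σ = 1 → σ ∈ V4 := by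
  decide +kernel
theorem pow12 : ∀ σ : Perm (Fin 6), Eq' (σ 0) (σ 1) 0 1 → σ ^ 12 = 1 := by
  decide +kernel
theorem PL_inj : ∀ a ∈ PL, ∀ b ∈ PL, Eq' a.1 a.2 b.1 b.2 → a = b := by decide +kernel
theorem PL_cases : ∀ i j : Fin 6, (∃ a ∈ PL, Eq' i j a.1 a.2) ∨ (i.val < 2 ∧ 2 ≤ j.val) ∨
    (j.val < 2 ∧ 2 ≤ i.val) := by decide +kernel
theorem PL_card : ∀ σ ∈ V4, (PL.filter fun a => Eq' (σ a.1) (σ a.2) a.1 a.2).card =
    if σ = 1 then 8 else 4 := by decide +kernel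
theorem V4_conj : ∀ σ ∈ V4, ∀ ρ ∈ V4, σ ≠ 1 → ρ ≠ 1 →
    ρ = σ ∨ ρ = ta * σ * ta⁻¹ ∨ ρ = ta * (ta * σ * ta⁻¹) * ta⁻¹ := by decide +kernel
set_option synthInstance.maxSize 2048 in
theorem arith0 : ∀ p < 31, ∀ a < 6, ∀ b < a, ∀ m < 2 ^ b + 1, (5 ≤ p ∧ p % 2 = 1 ∧ p % 3 ≠ 0 ∧ p ≠ 25 ∧
    2 ≤ m ∧ 2 ^ a % p = 2 ^ b % p) → 8 % p ≠ m % p ∧ 20 % p ≠ m % p := by decide +kernel
theorem arith : ∀ p < 31, ∀ a < 6, ∀ b < a, ∀ m ≤ 2 ^ b, 5 ≤ p → p % 2 = 1 → p % 3 ≠ 0 → p ≠ 25 →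
    2 ≤ m → 2 ^ a % p = 2 ^ b % p → 8 % p ≠ m % p ∧ 20 % p ≠ m % p :=
  fun p hp a ha b hb m hm h1 h2 h3 h4 h5 h6 =>
    arith0 p hp a ha b hb m (Nat.lt_succ_of_le hm) ⟨h1, h2, h3, h4, h5, h6⟩

theorem θ_pow {a : X} (ha : a ∈ Z.N) (n : ℕ) : Z.θ (a ^ n) = Z.θ a ^ n := by
  induction n with
  | zero => rw [pow_zero, pow_zero]; exact Z.θ_V (one_mem _)
  | succ n ih => rw [pow_succ, pow_succ, Z.θ_mul _ (pow_mem ha n) _ ha, ih]

theorem not_N {p : ℕ} (hp : p.Prime) (h5 : 5 ≤ p) {g : X} (hg : g ∈ Z.C1) (ho : orderOf g = p) :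
    g ∉ Z.N := by
  intro hN
  have e : g * Z.s 0 1 = Z.s 0 1 * g := mem_centralizer_singleton_iff.1 hg
  have h1 : Z.s (Z.θ g 0) (Z.θ g 1) = Z.s 0 1 := by
    rw [← Z.θ_s g hN, e, mul_inv_cancel_right]
  have h2 := pow12 _ ((Z.s_eq _ _ _ _).1 h1)
  have h3 : Z.θ g ^ p = 1 := by
    rw [← θ_pow Z hN, ← ho, pow_orderOf_eq_one]; exact Z.θ_V (one_mem _)
  have hc : Nat.Coprime p 12 := by
    rw [Nat.Prime.coprime_iff_not_dvd hp]
    intro h
    have := Nat.le_of_dvd (by norm_num) h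
    interval_cases p <;> first | omega | exact absurd hp (by norm_num)
  have h4 : Z.θ g = 1 := by
    have := pow_gcd_eq_one.2 ⟨h3, h2⟩
    rwa [hc, pow_one] at this
  obtain ⟨m, hm⟩ := Z.odd_mem hN h4 (by rw [ho]; exact hp.odd_of_ne_two (by omega))
  have h6 : g ^ 3 = 1 := by
    rw [← hm, ← zpow_natCast, ← zpow_mul, mul_comm, zpow_mul, zpow_natCast, ← Z.w3,
      pow_orderOf_eq_one, one_zpow]
  have := Nat.le_of_dvd (by norm_num) (ho ▸ orderOf_dvd_of_pow_eq_one h6)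
  omega

variable {Z} {K : Subgroup X}

omit [Finite X] in
theorem s_symm (i j : Fin 6) : Z.s i j = Z.s j i := (Z.s_eq _ _ _ _).2 (Or.inr (Or.inr ⟨rfl, rfl⟩))

theorem PL_mem (hK : Z.KK K) : ∀ a ∈ PL, Z.s a.1 a.2 ∈ K := by
  intro a ha
  simp only [PL, Finset.mem_insert, Finset.mem_singleton] at ha
  rcases ha with rfl | rfl | rfl | rfl | rfl | rfl | rfl | rfl
  · rw [Z.s_one.2 rfl]; exact one_mem _
  · exact hK.mem01
  all_goals exact hK.mem _ _ (by decide) (by decide)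

theorem V_le (hK : Z.KK K) {i j : Fin 6} (hi : i.val < 2) (hj : 2 ≤ j.val) (h : Z.s i j ∈ K) :
    Z.V ≤ K := by
  have h1 : Z.s i 2 ∈ K := by
    rw [← Z.s_mul i j 2]; exact mul_mem h (hK.mem _ _ hj (by decide))
  have h01 : Z.s 0 2 ∈ K ∧ Z.s 1 2 ∈ K := by
    rcases (by decide : ∀ i : Fin 6, i.val < 2 → i = 0 ∨ i = 1) i hi with rfl | rfl
    · refine ⟨h1, ?_⟩
      rw [← Z.s_mul 1 0 2, s_symm 1 0]; exact mul_mem hK.mem01 h1
    · refine ⟨?_, h1⟩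
      rw [← Z.s_mul 0 1 2]; exact mul_mem hK.mem01 h1
  have h2 : ∀ a, Z.s a 2 ∈ K := fun a => by
    rcases (by decide : ∀ i : Fin 6, i = 0 ∨ i = 1 ∨ 2 ≤ i.val) a with rfl | rfl | h
    · exact h01.1
    · exact h01.2
    · exact hK.mem _ _ h (by decide)
  intro v hv
  obtain ⟨a, b, rfl⟩ := (Z.mem_V v).1 hv
  rw [← Z.s_mul a 2 b, s_symm 2 b]
  exact mul_mem (h2 a) (h2 b)

theorem fib (hK : Z.KK K) (hV : ¬ Z.V ≤ K) {x y : X} (hx : x ∈ K) (hy : y ∈ K) (e : Z.θ y = Z.θ x) :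
    ∃ a ∈ PL, y = x * Z.s a.1 a.2 := by
  have hxN : x ∈ Z.N := Z.TN (hK.le hx)
  have hyN : y ∈ Z.N := Z.TN (hK.le hy)
  have hk : x⁻¹ * y ∈ K := mul_mem (inv_mem hx) hy
  obtain ⟨n, hn⟩ := Z.syl.isP ⟨_, hK.le hk⟩
  have hv : x⁻¹ * y ∈ Z.V := Z.two_mem (Z.TN (hK.le hk))
    (by rw [Z.θ_mul _ (inv_mem hxN) _ hyN, Z.θ_inv hxN, e, inv_mul_cancel])
    (n := n) (congrArg Subtype.val hn)
  obtain ⟨i, j, hij⟩ := (Z.mem_V _).1 hv
  rcases PL_cases i j with ⟨a, ha, h⟩ | h | h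
  · exact ⟨a, ha, by rw [← (Z.s_eq _ _ _ _).2 h, ← hij, mul_inv_cancel_left]⟩
  · exact absurd (V_le hK h.1 h.2 (hij ▸ hk)) hV
  · exact absurd (V_le hK h.1 h.2 (by rw [s_symm, ← hij]; exact hk)) hV

theorem θ_V4 (hK : Z.KK K) {x : X} (hx : x ∈ K) : Z.θ x ∈ V4 :=
  have h := hK.v4 x hx
  mem_V4 _ h.1 h.2.1 h.2.2.1 h.2.2.2

open Classical in
theorem card_K (hK : Z.KK K) (hV : ¬ Z.V ≤ K) (S : Finset X) (hS : ∀ x, x ∈ S ↔ x ∈ K) :
    S.card ≤ 32 := by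
  rw [Finset.card_eq_sum_card_fiberwise (f := Z.θ) (t := V4) fun x hx => θ_V4 hK ((hS x).1 hx)]
  refine (Finset.sum_le_card_nsmul _ _ 8 fun σ _ => ?_).trans (by decide +kernel)
  rcases (S.filter fun x => Z.θ x = σ).eq_empty_or_nonempty with h | ⟨x, hx⟩
  · rw [h]; simp
  · rw [Finset.mem_filter] at hx
    refine (Finset.card_le_card (t := PL.image fun a => x * Z.s a.1 a.2) fun y hy => ?_).trans
      (Finset.card_image_le.trans (by decide +kernel))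
    rw [Finset.mem_filter] at hy
    obtain ⟨a, ha, rfl⟩ := fib hK hV ((hS x).1 hx.1) ((hS y).1 hy.1) (hy.2.trans hx.2.symm)
    exact Finset.mem_image.2 ⟨a, ha, rfl⟩

open Classical in
theorem card_fib (hK : Z.KK K) (hV : ¬ Z.V ≤ K) (S : Finset X) (hS : ∀ x, x ∈ S ↔ x ∈ K ∧ x * x = 1)
    {x : X} (hx : x ∈ S) :
    (S.filter fun y => Z.θ y = Z.θ x).card = if Z.θ x = 1 then 8 else 4 := by
  obtain ⟨hxK, hxx⟩ := (hS x).1 hx
  have hxN : x ∈ Z.N := Z.TN (hK.le hxK)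
  have key : ∀ i j, x * Z.s i j * (x * Z.s i j) = 1 ↔ Eq' (Z.θ x i) (Z.θ x j) i j := fun i j => by
    have e : x * Z.s i j * (x * Z.s i j) = x * Z.s i j * x⁻¹ * Z.s i j := by
      rw [inv_eq_of_mul_eq_one_right hxx]; group
    rw [e, Z.θ_s x hxN, mul_eq_one_iff_eq_inv, inv_eq_of_mul_eq_one_right (Z.sq (Z.s_mem i j))]
    exact Z.s_eq _ _ _ _
  rw [← PL_card _ (θ_V4 hK hxK)]
  symm
  refine Finset.card_bij (fun a _ => x * Z.s a.1 a.2) ?_ ?_ ?_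
  · intro a ha
    rw [Finset.mem_filter] at ha ⊢
    refine ⟨(hS _).2 ⟨mul_mem hxK (PL_mem hK a ha.1), (key _ _).2 ha.2⟩, ?_⟩
    rw [Z.θ_mul _ hxN _ (le_normalizer (Z.s_mem _ _)), Z.θ_V (Z.s_mem _ _), mul_one]
  · intro a ha b hb e
    rw [Finset.mem_filter] at ha hb
    exact PL_inj a ha.1 b hb.1 ((Z.s_eq _ _ _ _).1 (mul_left_cancel e))
  · intro y hy
    rw [Finset.mem_filter] at hy
    obtain ⟨a, ha, rfl⟩ := fib hK hV hxK ((hS y).1 hy.1).1 hy.2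
    exact ⟨a, Finset.mem_filter.2 ⟨ha, (key _ _).1 ((hS _).1 hy.1).2⟩, rfl⟩

open Classical in
theorem card_J (hK : Z.KK K) (hV : ¬ Z.V ≤ K) (S : Finset X)
    (hS : ∀ x, x ∈ S ↔ x ∈ K ∧ x * x = 1) : S.card = 8 ∨ S.card = 20 := by
  have h1 : (1 : X) ∈ S := (hS 1).2 ⟨one_mem _, mul_one _⟩
  have e1 : Z.θ 1 = 1 := Z.θ_V (one_mem _)
  by_cases h : ∃ x ∈ S, Z.θ x ≠ 1
  · right
    obtain ⟨x, hx, hx1⟩ := h
    obtain ⟨c, hc, hcθ⟩ := Z.θ_surj ta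
    have hcC : c ∈ Z.C1 := by
      refine mem_centralizer_singleton_iff.2 (mul_inv_eq_iff_eq_mul.1 ?_)
      rw [Z.θ_s c hc, hcθ]
      exact (Z.s_eq _ _ _ _).2 (by decide)
    have hconj : ∀ y ∈ S, c * y * c⁻¹ ∈ S ∧ Z.θ (c * y * c⁻¹) = ta * Z.θ y * ta⁻¹ := fun y hy => by
      obtain ⟨hyK, hyy⟩ := (hS y).1 hy
      have hyN : y ∈ Z.N := Z.TN (hK.le hyK)
      refine ⟨(hS _).2 ⟨H70.conj_mem_of_mem_norm (hK.norm hcC) hyK, ?_⟩, ?_⟩
      · have e : c * y * c⁻¹ * (c * y * c⁻¹) = c * (y * y) * c⁻¹ := by group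
        rw [e, hyy]; group
      · rw [Z.θ_mul _ (mul_mem hc hyN) _ (inv_mem hc), Z.θ_mul _ hc _ hyN, Z.θ_inv hc, hcθ]
    have hall : ∀ σ ∈ V4, ∃ y ∈ S, Z.θ y = σ := fun σ hσ => by
      by_cases hσ1 : σ = 1
      · exact ⟨1, h1, e1.trans hσ1.symm⟩
      rcases V4_conj _ (θ_V4 hK ((hS x).1 hx).1) σ hσ hx1 hσ1 with e | e | e
      · exact ⟨x, hx, e.symm⟩
      · exact ⟨_, (hconj x hx).1, (hconj x hx).2.trans e.symm⟩
      · refine ⟨_, (hconj _ (hconj x hx).1).1, ?_⟩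
        rw [(hconj _ (hconj x hx).1).2, (hconj x hx).2, e]
    rw [Finset.card_eq_sum_card_fiberwise (f := Z.θ) (t := V4) fun x hx => θ_V4 hK ((hS x).1 hx).1,
      Finset.sum_congr rfl (g := fun σ => if σ = 1 then 8 else 4) fun σ hσ => by
        obtain ⟨y, hy, rfl⟩ := hall σ hσ
        exact card_fib hK hV S hS hy]
    decide +kernel
  · left
    push Not at h
    have := card_fib hK hV S hS h1
    rwa [if_pos e1, Finset.filter_true_of_mem fun y hy => (h y hy).trans e1.symm] at this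

theorem mem_N {p : ℕ} (hp : p.Prime) (h5 : 5 ≤ p) {g : X} (hg : g ∈ Z.C1) (ho : g ^ p = 1) :
    g ∈ Z.N := by
  classical
  haveI : Fact p.Prime := ⟨hp⟩
  haveI : Fact (Nat.Prime 2) := ⟨Nat.prime_two⟩
  haveI := Fintype.ofFinite X
  obtain ⟨K, hK⟩ := Z.kk
  have hgK := hK.norm hg
  by_cases hV : Z.V ≤ K
  · exact Z.norm_le hV hK.le hgK
  have e : g * Z.s 0 1 = Z.s 0 1 * g := mem_centralizer_singleton_iff.1 hg
  refine Z.cW g e ?_
  by_contra h23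
  have hK2 : IsPGroup 2 K := Z.syl.isP.to_le hK.le
  set F := K ⊓ centralizer ({g} : Set X) with hF
  obtain ⟨a, ha⟩ := IsPGroup.iff_card.1 hK2
  obtain ⟨b, hb⟩ := IsPGroup.iff_card.1 (hK2.to_le (inf_le_left : F ≤ K))
  set S := Finset.univ.filter fun x => x ∈ K with hS
  set J := Finset.univ.filter fun x => x ∈ K ∧ x * x = 1 with hJ
  have hSm : ∀ x, x ∈ S ↔ x ∈ K := fun x => by simp [hS]
  have hJm : ∀ x, x ∈ J ↔ x ∈ K ∧ x * x = 1 := fun x => by simp [hJ]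
  have hSa : S.card = 2 ^ a := by
    rw [← ha, ← Fintype.card_coe, ← Nat.card_eq_fintype_card]
    exact Nat.card_congr (Equiv.subtypeEquivRight hSm)
  have hSb : (S.filter fun x => g * x * g⁻¹ = x).card = 2 ^ b := by
    rw [← hb, ← Fintype.card_coe, ← Nat.card_eq_fintype_card]
    refine Nat.card_congr (Equiv.subtypeEquivRight fun x => ?_)
    rw [Finset.mem_filter, hSm, mem_inf, mem_centralizer_singleton_iff, mul_inv_eq_iff_eq_mul, eq_comm]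
  have m1 := fix_modEq ho S fun x hx => (hSm _).2 (H70.conj_mem_of_mem_norm hgK ((hSm x).1 hx))
  have m2 := fix_modEq ho J fun x hx => (hJm _).2 ⟨H70.conj_mem_of_mem_norm hgK ((hJm x).1 hx).1, by
    have e : g * x * g⁻¹ * (g * x * g⁻¹) = g * (x * x) * g⁻¹ := by group
    rw [e, ((hJm x).1 hx).2]; group⟩
  rw [hSa, hSb] at m1
  have hle : 2 ^ a ≤ 32 := hSa ▸ card_K hK hV S hSm
  have ha6 : a < 6 := by
    by_contra h
    have := Nat.pow_le_pow_right (by norm_num : 0 < 2) (not_lt.1 h)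
    omega
  have hlt : 2 ^ b < 2 ^ a := by
    rw [← hSa, ← hSb]
    refine Finset.card_lt_card (Finset.filter_ssubset.2 ⟨Z.s 2 3, (hSm _).2 (hK.mem _ _ (by decide) (by decide)), ?_⟩)
    rwa [mul_inv_eq_iff_eq_mul]
  have hba : b < a := (Nat.pow_lt_pow_iff_right (by norm_num)).1 hlt
  have hm : (J.filter fun x => g * x * g⁻¹ = x).card ≤ 2 ^ b := by
    rw [← hSb]
    exact Finset.card_le_card (Finset.filter_subset_filter _ fun x hx => (hSm x).2 ((hJm x).1 hx).1)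
  have hm2 : 2 ≤ (J.filter fun x => g * x * g⁻¹ = x).card := by
    refine Finset.one_lt_card.2 ⟨1, ?_, Z.s 0 1, ?_, fun h => ?_⟩
    · exact Finset.mem_filter.2 ⟨(hJm _).2 ⟨one_mem _, mul_one _⟩, by group⟩
    · exact Finset.mem_filter.2 ⟨(hJm _).2 ⟨hK.mem01, Z.sq (Z.s_mem _ _)⟩, by rw [e, mul_inv_cancel_right]⟩
    · exact absurd (Z.s_one.1 h.symm) (by decide)
  have hp31 : p < 31 := by
    have h1 := Nat.le_of_dvd (Nat.sub_pos_of_lt hlt) ((Nat.modEq_iff_dvd' hlt.le).1 m1.symm)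
    have : 2 ≤ 2 ^ b := hm2.trans hm
    omega
  have := arith p hp31 a ha6 b hba _ hm h5 (Nat.odd_iff.1 (hp.odd_of_ne_two (by omega)))
    (fun h => by
      have := (Nat.prime_dvd_prime_iff_eq Nat.prime_three hp).1 (Nat.dvd_of_mod_eq_zero h)
      omega)
    (by rintro rfl; exact absurd hp (by norm_num)) hm2 m1
  rcases card_J hK hV J hJm with h | h <;> rw [h] at m2
  · exact this.1 m2
  · exact this.2 m2

end XSolvAux

/-- notes/R24.md, section XSolv -/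
theorem XS.solv : Group.IsSolvable Z.C1 := by
  have h0 : Nat.card Z.C1 ≠ 0 := Nat.card_pos.ne'
  have hsub : (Nat.card Z.C1).primeFactors ⊆ {2, 3} := by
    intro p hp
    have hpp := Nat.prime_of_mem_primeFactors hp
    haveI : Fact p.Prime := ⟨hpp⟩
    obtain ⟨g, hg⟩ := exists_prime_orderOf_dvd_card' p (Nat.dvd_of_mem_primeFactors hp)
    have hg' : orderOf (g : X) = p := by rw [orderOf_coe, hg]
    by_contra h
    simp only [Finset.mem_insert, Finset.mem_singleton, not_or] at h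
    have h5 : 5 ≤ p := hpp.five_le_of_ne_two_of_ne_three h.1 h.2
    exact XSolvAux.not_N Z hpp h5 g.2 hg'
      (XSolvAux.mem_N hpp h5 g.2 (by rw [← hg', pow_orderOf_eq_one]))
  refine S0144.result 2 3 ((Nat.card Z.C1).factorization 2) ((Nat.card Z.C1).factorization 3)
    Nat.prime_two Nat.prime_three ?_
  conv_lhs => rw [← Nat.prod_factorization_pow_eq_self h0]
  rw [Finsupp.prod_of_support_subset _ hsub _ (by simp), Finset.prod_pair (by norm_num)]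

end Cfsg.Agent.R24
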